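import Cfsg.Agent.Lib.Characters.Projective

/-!
# Berger's theorem: quasi-primitive irreducible (projective) representations of solvable groups
are primitive
-/

set_option linter.unusedSectionVars false
set_option linter.style.longLine false
set_option linter.style.haveILetI false

open Module Submodule

namespace Cfsg.Lib.Characters.Proj

universe uV

variable {G : Type*} [Group G] [Finite G]
variable {V : Type uV} [AddCommGroup V] [Module ℂ V] [FiniteDimensional ℂ V]
variable {P : G → V ≃ₗ[ℂ] V}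

section Multiplicity

variable {N : Subgroup G} [hN : N.Normal] {W : Submodule ℂ V}

theorem homN_map {hW : Inv P N W} {X : Submodule ℂ V} (hP : IsProj P) {g : G} {A : W ≃ₗ[ℂ] W}
    (hA : Intertwines hW g A) {f : W →ₗ[ℂ] V} (hf : f ∈ homN hW X) :
    (P g : V →ₗ[ℂ] V).comp (f.comp (A.symm : W →ₗ[ℂ] W)) ∈ homN hW (tr P g X) := by
  intro w
  refine ⟨mem_tr.mpr ⟨_, (hf _).1, rfl⟩, fun n => ?_⟩
  obtain ⟨u, rfl⟩ := A.surjective w
  let n' : N := ⟨g⁻¹ * n * g, conjMem n g⟩
  obtain ⟨c, -, hc⟩ := conj_rel hP g (n : G)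
  show P g (f (A.symm (res hW n (A u)))) = P (n : G) (P g (f (A.symm (A u))))
  rw [hA n n' c rfl hc, map_smul, LinearEquiv.symm_apply_apply, LinearEquiv.symm_apply_apply,
    map_smul, map_smul, homN_comm hf n' u, hc]

/-- The representation on the multiplicity space of a homogeneous normal subgroup. -/
theorem exists_multiplicity (hP : IsProj P) (hirr : Irr P)
    (hqp : ∀ N' : Subgroup G, N'.Normal → N ≤ N' → ∀ X Y, MinInv P N' X → MinInv P N' Y →
      IsoOn P N' X Y) (hmin : MinInv P N W) :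
    ∃ (PS : G → homN hmin.inv ⊤ ≃ₗ[ℂ] homN hmin.inv ⊤),
      IsProj PS ∧ Irr PS ∧ QP PS ∧ (∀ n ∈ N, ∃ c : ℂ, ∀ f, PS n f = c • f) ∧
      (∀ g : G, ∃ A : W ≃ₗ[ℂ] W, Intertwines hmin.inv g A ∧
        ∀ (f : homN hmin.inv ⊤) (w : W), (PS g f : W →ₗ[ℂ] V) w = P g ((f : W →ₗ[ℂ] V) (A.symm w))) ∧
      (∀ H : Subgroup G, N ≤ H → ∀ X, X ≠ ⊥ → Inv P H X →
        finrank ℂ V = H.index * finrank ℂ X →
          ∃ T, T ≠ ⊥ ∧ Inv PS H T ∧ finrank ℂ (homN hmin.inv ⊤) = H.index * finrank ℂ T) ∧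
      finrank ℂ V = finrank ℂ W * finrank ℂ (homN hmin.inv ⊤) := by
  classical
  have hhom : ∀ Z, MinInv P N Z → IsoOn P N W Z := fun Z hZ => hqp N hN le_rfl W Z hmin hZ
  choose A hA using exists_intertwiner hP hhom hmin
  have hWpos : 0 < finrank ℂ W :=
    Nat.pos_of_ne_zero fun h0 => hmin.ne_bot (Submodule.finrank_eq_zero.mp h0)
  let L : G → (homN hmin.inv ⊤ →ₗ[ℂ] homN hmin.inv ⊤) := fun g =>
    LinearMap.codRestrict _
      { toFun := fun f => (P g : V →ₗ[ℂ] V).comp ((f : W →ₗ[ℂ] V).comp ((A g).symm : W →ₗ[ℂ] W))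
        map_add' := fun a b => by ext; simp
        map_smul' := fun c a => by ext; simp }
      (fun f => homN_mono hmin.inv le_top (homN_map hP (hA g) f.2))
  have hLapp : ∀ g (f : homN hmin.inv ⊤) (w : W),
      (L g f : W →ₗ[ℂ] V) w = P g ((f : W →ₗ[ℂ] V) ((A g).symm w)) := fun _ _ _ => rfl
  have hLinj : ∀ g, Function.Injective (L g) := by
    intro g a b h
    apply Subtype.ext
    ext u
    have := congrArg (fun f : homN hmin.inv ⊤ => (f : W →ₗ[ℂ] V) (A g u)) h
    simp only [hLapp, LinearEquiv.symm_apply_apply] at this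
    exact (P g).injective this
  let PS : G → homN hmin.inv ⊤ ≃ₗ[ℂ] homN hmin.inv ⊤ := fun g =>
    LinearEquiv.ofInjectiveEndo (L g) (hLinj g)
  have hPSapp : ∀ g (f : homN hmin.inv ⊤) (w : W),
      (PS g f : W →ₗ[ℂ] V) w = P g ((f : W →ₗ[ℂ] V) ((A g).symm w)) := fun _ _ _ => rfl
  have hPS : IsProj PS := by
    intro g h
    obtain ⟨k, hk, hk'⟩ := hP g h
    obtain ⟨a, ha, ha'⟩ := intertwines_unique hP hmin (hA (g * h))
      (intertwines_mul hP (hA g) (hA h))
    refine ⟨k * a⁻¹, mul_ne_zero hk (inv_ne_zero ha), fun f => ?_⟩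
    apply Subtype.ext
    ext w
    rw [Submodule.coe_smul, LinearMap.smul_apply, hPSapp, hPSapp, hPSapp, hk']
    have hs : (A h).symm ((A g).symm w) = a⁻¹ • (A (g * h)).symm w := by
      apply (A h).injective
      apply (A g).injective
      rw [LinearEquiv.apply_symm_apply, LinearEquiv.apply_symm_apply, map_smul, map_smul]
      have := ha' ((A (g * h)).symm w)
      rw [LinearEquiv.trans_apply, LinearEquiv.apply_symm_apply] at this
      rw [this, smul_smul, inv_mul_cancel₀ ha, one_smul]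
    rw [hs, map_smul, map_smul, smul_smul]
  -- invariance of the span of an invariant space of maps
  have heval : ∀ (H : Subgroup G) (T : Submodule ℂ (homN hmin.inv ⊤)), Inv PS H T →
      Inv P H (evalSpan (T.map (homN hmin.inv ⊤).subtype)) := by
    intro H T hT
    intro h hh x hx
    have hle : evalSpan (T.map (homN hmin.inv ⊤).subtype) ≤
        (evalSpan (T.map (homN hmin.inv ⊤).subtype)).comap (P h : V →ₗ[ℂ] V) := by
      refine iSup_le fun f => ?_
      rintro _ ⟨w, rfl⟩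
      obtain ⟨f₀, hf₀, hf⟩ := f.2
      rw [Submodule.mem_comap]
      have : P h ((f : W →ₗ[ℂ] V) w) = (PS h f₀ : W →ₗ[ℂ] V) (A h w) := by
        rw [hPSapp, LinearEquiv.symm_apply_apply, ← hf]; rfl
      show P h ((f : W →ₗ[ℂ] V) w) ∈ _
      rw [this]
      exact range_le_evalSpan (S := T.map (homN hmin.inv ⊤).subtype) ⟨_, hT h hh f₀ hf₀, rfl⟩ ⟨_, rfl⟩
    exact hle hx
  have hevalN : ∀ T : Submodule ℂ (homN hmin.inv ⊤),
      Inv P N (evalSpan (T.map (homN hmin.inv ⊤).subtype)) := fun T =>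
    inv_iSup fun f => inv_range (X := ⊤) (map_subtype_le _ _ f.2)
  have hcomap : ∀ (H : Subgroup G) (X : Submodule ℂ V), Inv P H X →
      Inv PS H ((homN hmin.inv X).comap (homN hmin.inv ⊤).subtype) := by
    intro H X hX h hh f hf
    have := homN_map hP (hA h) hf
    rw [hX.mem_tr_self hP hh] at this
    exact this
  have hdimV : finrank ℂ V = finrank ℂ W * finrank ℂ (homN hmin.inv ⊤) := by
    rw [← finrank_eq_mul hP hhom hmin (inv_top N), finrank_top]
  have hmap : ∀ T : Submodule ℂ (homN hmin.inv ⊤),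
      homN hmin.inv (evalSpan (T.map (homN hmin.inv ⊤).subtype)) =
        T.map (homN hmin.inv ⊤).subtype :=
    fun T => homN_evalSpan hP hhom hmin (map_subtype_le _ _)
  refine ⟨PS, hPS, ?_, ?_, ?_, fun g => ⟨A g, hA g, hPSapp g⟩, ?_, hdimV⟩
  · -- irreducibility
    refine ⟨fun h => ?_, fun T hT => ?_⟩
    · have h0 : finrank ℂ (homN hmin.inv ⊤) = 0 := by
        rw [← finrank_top ℂ (homN hmin.inv ⊤), h, finrank_bot]
      rw [h0, mul_zero] at hdimV
      exact hirr.1 (Submodule.finrank_eq_zero.mp (by rw [finrank_top]; exact hdimV))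
    · rcases hirr.2 _ (heval ⊤ T hT) with he | he
      · left
        refine eq_bot_iff.mpr fun f hf => ?_
        rw [mem_bot]
        apply Subtype.ext
        ext w
        have hmem := range_le_evalSpan
          (show (f : W →ₗ[ℂ] V) ∈ T.map (homN hmin.inv ⊤).subtype from ⟨f, hf, rfl⟩) ⟨w, rfl⟩
        rw [he, mem_bot] at hmem
        exact hmem
      · right
        have h := hmap T
        rw [he] at h
        refine eq_top_iff.mpr fun f _ => ?_
        obtain ⟨f', hf', hff'⟩ : (f : W →ₗ[ℂ] V) ∈ T.map (homN hmin.inv ⊤).subtype := h ▸ f.2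
        rwa [← Subtype.ext (show (f' : W →ₗ[ℂ] V) = f from hff')]
  · -- quasi-primitivity
    intro N' hN' T₁ T₂ hT₁ hT₂
    haveI := hN'
    have key : ∀ T, MinInv PS N' T →
        MinInv P (N ⊔ N') (evalSpan (T.map (homN hmin.inv ⊤).subtype)) := by
      intro T hT
      refine ⟨fun he => hT.ne_bot ?_, inv_sup hP (hevalN T) (heval N' T hT.inv), fun Y hY hYi => ?_⟩
      · refine eq_bot_iff.mpr fun f hf => ?_
        rw [mem_bot]
        apply Subtype.ext
        ext w
        have hmem := range_le_evalSpan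
          (show (f : W →ₗ[ℂ] V) ∈ T.map (homN hmin.inv ⊤).subtype from ⟨f, hf, rfl⟩) ⟨w, rfl⟩
        rw [he, mem_bot] at hmem
        exact hmem
      · have hle : (homN hmin.inv Y).comap (homN hmin.inv ⊤).subtype ≤ T := by
          intro f hf
          obtain ⟨f', hf', hff'⟩ : (f : W →ₗ[ℂ] V) ∈ T.map (homN hmin.inv ⊤).subtype :=
            hmap T ▸ homN_mono hmin.inv hY hf
          rwa [← Subtype.ext (show (f' : W →ₗ[ℂ] V) = f from hff')]
        rcases hT.eq_bot_or_eq _ hle (hcomap N' Y (hYi.mono le_sup_right)) with he | he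
        · left
          rw [← evalSpan_homN hP hhom hmin (hYi.mono le_sup_left)]
          refine eq_bot_iff.mpr (iSup_le fun f => ?_)
          have hmem : (⟨f.1, homN_mono _ le_top f.2⟩ : homN hmin.inv ⊤) ∈
              (homN hmin.inv Y).comap (homN hmin.inv ⊤).subtype := f.2
          rw [he, mem_bot] at hmem
          rw [show (f : W →ₗ[ℂ] V) = 0 from congrArg Subtype.val hmem, LinearMap.range_zero]
        · right
          refine le_antisymm hY ?_
          rw [← evalSpan_homN hP hhom hmin (hYi.mono le_sup_left)]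
          refine iSup_le fun f => ?_
          obtain ⟨f₀, hf₀, hf⟩ := f.2
          refine range_le_evalSpan ?_
          rw [← hf]
          rw [← he] at hf₀
          exact hf₀
    set Y₁ := evalSpan (T₁.map (homN hmin.inv ⊤).subtype) with hY₁
    set Y₂ := evalSpan (T₂.map (homN hmin.inv ⊤).subtype) with hY₂
    obtain ⟨e, he⟩ := hqp (N ⊔ N') inferInstance le_sup_left Y₁ Y₂ (key T₁ hT₁) (key T₂ hT₂)
    let E₀ : T₁ → (W →ₗ[ℂ] V) := fun f =>
      Y₂.subtype.comp (e.toLinearMap.comp (((f : homN hmin.inv ⊤) : W →ₗ[ℂ] V).codRestrict Y₁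
        fun w => range_le_evalSpan (S := T₁.map (homN hmin.inv ⊤).subtype) ⟨_, f.2, rfl⟩ ⟨w, rfl⟩))
    have hE₀ : ∀ (f : T₁) (w : W) (y : Y₁), (y : V) = ((f : homN hmin.inv ⊤) : W →ₗ[ℂ] V) w →
        E₀ f w = (e y : V) := fun f w y hy => congrArg (fun z => ((e z : Y₂) : V)) (Subtype.ext hy.symm)
    have hmem : ∀ f : T₁, E₀ f ∈ homN hmin.inv Y₂ := fun f w => ⟨(e _).2, fun n => by
      have := he n (le_sup_left (a := N) (b := N') n.2)
        ((((f : homN hmin.inv ⊤) : W →ₗ[ℂ] V).codRestrict Y₁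
          fun w => range_le_evalSpan (S := T₁.map (homN hmin.inv ⊤).subtype) ⟨_, f.2, rfl⟩ ⟨w, rfl⟩) w)
        ((((f : homN hmin.inv ⊤) : W →ₗ[ℂ] V).codRestrict Y₁
          fun w => range_le_evalSpan (S := T₁.map (homN hmin.inv ⊤).subtype) ⟨_, f.2, rfl⟩ ⟨w, rfl⟩)
          (res hmin.inv n w))
        (homN_comm f.1.2 n w)
      exact this⟩
    have hmem2 : ∀ f : T₁, ∃ f₂ : T₂, ((f₂ : homN hmin.inv ⊤) : W →ₗ[ℂ] V) = E₀ f := by
      intro f
      obtain ⟨f', hf', hff'⟩ : E₀ f ∈ T₂.map (homN hmin.inv ⊤).subtype := hmap T₂ ▸ hmem f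
      exact ⟨⟨f', hf'⟩, hff'⟩
    choose E₁ hE₁ using hmem2
    have hadd : ∀ a b, E₁ (a + b) = E₁ a + E₁ b := by
      intro a b
      apply Subtype.ext; apply Subtype.ext
      ext w
      simp only [Submodule.coe_add, LinearMap.add_apply, hE₁]
      show (e _ : V) = (e _ : V) + (e _ : V)
      rw [← Submodule.coe_add, ← map_add]
      rfl
    have hsmul : ∀ (c : ℂ) a, E₁ (c • a) = c • E₁ a := by
      intro c a
      apply Subtype.ext; apply Subtype.ext
      ext w
      simp only [Submodule.coe_smul, LinearMap.smul_apply, hE₁]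
      show (e _ : V) = c • (e _ : V)
      rw [← Submodule.coe_smul, ← map_smul]
      rfl
    let E : T₁ →ₗ[ℂ] T₂ := { toFun := E₁, map_add' := hadd, map_smul' := hsmul }
    have hEinj : Function.Injective E := by
      intro a b h
      apply Subtype.ext; apply Subtype.ext
      ext w
      have : E₀ a w = E₀ b w := by
        rw [← hE₁, ← hE₁]
        exact congrArg (fun z : T₂ => ((z : homN hmin.inv ⊤) : W →ₗ[ℂ] V) w) h
      exact congrArg Subtype.val (e.injective (Subtype.ext this))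
    have hdim : finrank ℂ T₁ = finrank ℂ T₂ := by
      have h := e.finrank_eq
      rw [hY₁, hY₂, finrank_evalSpan hmin (map_subtype_le _ _),
        finrank_evalSpan hmin (map_subtype_le _ _), finrank_map_subtype_eq,
        finrank_map_subtype_eq] at h
      exact Nat.eq_of_mul_eq_mul_left hWpos h
    have hEsurj : Function.Surjective E := by
      haveI : Module.Free ℂ T₂ := Module.Free.of_divisionRing ℂ T₂
      haveI : Module.Free ℂ T₁ := Module.Free.of_divisionRing ℂ T₁
      let φ : T₂ ≃ₗ[ℂ] T₁ := LinearEquiv.ofFinrankEq T₂ T₁ hdim.symm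
      intro y
      obtain ⟨x, hx⟩ := LinearMap.surjective_of_injective
        (f := φ.toLinearMap.comp E) (φ.injective.comp hEinj) (φ y)
      exact ⟨x, φ.injective hx⟩
    refine ⟨LinearEquiv.ofBijective E ⟨hEinj, hEsurj⟩,
      fun n hn x y hxy => ?_⟩
    apply Subtype.ext
    ext w
    show ((E₁ y : homN hmin.inv ⊤) : W →ₗ[ℂ] V) w = _
    rw [hE₁, hPSapp]
    show E₀ y w = P n (((E₁ x : homN hmin.inv ⊤) : W →ₗ[ℂ] V) ((A n).symm w))
    rw [hE₁]
    refine he n (le_sup_right (a := N) (b := N') hn) _ _ ?_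
    show ((y : homN hmin.inv ⊤) : W →ₗ[ℂ] V) w = _
    rw [hxy, hPSapp]
    rfl
  · -- the normal subgroup acts by scalars
    intro n hn
    let B : W ≃ₗ[ℂ] W := LinearEquiv.ofSubmodules (P n) W W (hmin.inv.mem_tr_self hP hn)
    obtain ⟨a, ha, ha'⟩ := intertwines_unique hP hmin (hA n)
      (intertwines_self hmin.inv ⟨n, hn⟩ (A := B) fun u => rfl)
    refine ⟨a, fun f => ?_⟩
    apply Subtype.ext
    ext w
    obtain ⟨u, rfl⟩ := (A n).surjective w
    have hB : res hmin.inv ⟨n, hn⟩ u = a • A n u := by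
      rw [← ha']; rfl
    rw [hPSapp, LinearEquiv.symm_apply_apply, ← homN_comm f.2 ⟨n, hn⟩ u, hB, map_smul,
      Submodule.coe_smul, LinearMap.smul_apply]
  · -- induced systems
    intro H hNH X hX0 hX hdim
    refine ⟨(homN hmin.inv X).comap (homN hmin.inv ⊤).subtype, fun h => hX0 ?_,
      hcomap H X hX, ?_⟩
    · have hb : finrank ℂ (homN hmin.inv X) = 0 := by
        rw [← (Submodule.comapSubtypeEquivOfLe (homN_mono hmin.inv le_top)).finrank_eq, h, finrank_bot]
      apply Submodule.finrank_eq_zero.mp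
      rw [finrank_eq_mul hP hhom hmin (hX.mono hNH), hb, mul_zero]
    · rw [(Submodule.comapSubtypeEquivOfLe (homN_mono hmin.inv le_top)).finrank_eq]
      rw [hdimV, finrank_eq_mul hP hhom hmin (hX.mono hNH), mul_left_comm] at hdim
      exact Nat.eq_of_mul_eq_mul_left hWpos hdim

end Multiplicity

section Solvable

variable [Group.IsSolvable G]

set_option maxHeartbeats 800000 in
/-- A chief factor above a normal subgroup of a solvable group. -/
theorem exists_chief (L : Subgroup G) [hL : L.Normal] (hne : L ≠ ⊤) :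
    ∃ (M : Subgroup G) (p : ℕ), M.Normal ∧ L < M ∧ p.Prime ∧
      (∀ M' : Subgroup G, M'.Normal → L ≤ M' → M' ≤ M → M' = L ∨ M' = M) ∧
      (∀ a ∈ M, ∀ b ∈ M, a * b * a⁻¹ * b⁻¹ ∈ L) ∧ (∀ m ∈ M, m ^ p ∈ L) ∧
      ∃ k, L.relIndex M = p ^ k := by
  classical
  obtain ⟨M, hM⟩ := (Set.toFinite {M : Subgroup G | M.Normal ∧ L < M}).exists_minimal
    ⟨⊤, inferInstance, lt_top_iff_ne_top.mpr hne⟩
  obtain ⟨hMn, hLM⟩ := hM.1
  have hmin : ∀ M' : Subgroup G, M'.Normal → L ≤ M' → M' ≤ M → M' = L ∨ M' = M := by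
    intro M' h1 h2 h3
    rcases h2.eq_or_lt with h | h
    · exact Or.inl h.symm
    · exact Or.inr (le_antisymm h3 (hM.2 ⟨h1, h⟩ h3))
  haveI := hMn
  set π := QuotientGroup.mk' L with hπ
  have hker : π.ker = L := QuotientGroup.ker_mk' L
  have hcomm : ∀ a ∈ M, ∀ b ∈ M, a * b * a⁻¹ * b⁻¹ ∈ L := by
    set Mb := M.map π with hMb
    haveI : Mb.Normal := hMn.map π (QuotientGroup.mk'_surjective L)
    haveI : Group.IsSolvable (G ⧸ L) :=
      Group.isSolvable_of_surjective (QuotientGroup.mk'_surjective L)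
    have hMb0 : Mb ≠ ⊥ := fun h => hLM.not_ge (by
      rwa [hMb, Subgroup.map_eq_bot_iff, hker] at h)
    have hlt := Group.IsSolvable.commutator_lt_of_ne_bot hMb0
    have hn : (⁅Mb, Mb⁆.comap π).Normal := inferInstance
    rcases hmin _ hn (fun l hl => by
        rw [Subgroup.mem_comap, MonoidHom.mem_ker.mp (show l ∈ π.ker by rw [hker]; exact hl)]
        exact Subgroup.one_mem _)
      ((Subgroup.comap_mono hlt.le).trans (by
        rw [hMb, Subgroup.comap_map_eq, hker, sup_eq_left.mpr hLM.le])) with he | he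
    · intro a ha b hb
      rw [← he, Subgroup.mem_comap, map_mul, map_mul, map_mul, map_inv, map_inv,
        ← commutatorElement_def]
      exact Subgroup.commutator_mem_commutator ⟨a, ha, rfl⟩ ⟨b, hb, rfl⟩
    · exfalso
      refine hlt.not_ge ?_
      calc Mb = (⁅Mb, Mb⁆.comap π).map π := by rw [he]
        _ ≤ ⁅Mb, Mb⁆ := Subgroup.map_comap_le _ _
  haveI : (L.subgroupOf M).Normal := inferInstance
  obtain ⟨p, hp, hpd⟩ := Nat.exists_prime_and_dvd (n := L.relIndex M) fun h =>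
    hLM.not_ge (Subgroup.relIndex_eq_one.mp h)
  haveI := Fact.mk hp
  have hmkcomm : ∀ a b : M, Commute (a : M ⧸ L.subgroupOf M) (b : M ⧸ L.subgroupOf M) := by
    intro a b
    rw [← commutatorElement_eq_one_iff_commute, commutatorElement_def,
      ← QuotientGroup.mk_mul, ← QuotientGroup.mk_inv, ← QuotientGroup.mk_mul, ← QuotientGroup.mk_inv,
      ← QuotientGroup.mk_mul, QuotientGroup.eq_one_iff, Subgroup.mem_subgroupOf]
    exact hcomm a a.2 b b.2
  have hpow : ∀ (m : G) (hm : m ∈ M),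
      m ^ p ∈ L ↔ ((⟨m, hm⟩ : M) : M ⧸ L.subgroupOf M) ^ p = 1 := fun m hm => by
    rw [← QuotientGroup.mk_pow, QuotientGroup.eq_one_iff, Subgroup.mem_subgroupOf,
      SubgroupClass.coe_pow]
  let E : Subgroup G :=
    { carrier := {m | m ∈ M ∧ m ^ p ∈ L}
      one_mem' := ⟨M.one_mem, by rw [one_pow]; exact L.one_mem⟩
      mul_mem' := fun {a b} ha hb => ⟨M.mul_mem ha.1 hb.1, by
        rw [hpow _ (M.mul_mem ha.1 hb.1), show (⟨a * b, M.mul_mem ha.1 hb.1⟩ : M) =
          ⟨a, ha.1⟩ * ⟨b, hb.1⟩ from rfl, QuotientGroup.mk_mul, (hmkcomm _ _).mul_pow,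
          (hpow a ha.1).mp ha.2, (hpow b hb.1).mp hb.2, one_mul]⟩
      inv_mem' := fun {a} ha => ⟨M.inv_mem ha.1, by rw [inv_pow]; exact L.inv_mem ha.2⟩ }
  have hEn : E.Normal := ⟨fun a ha g => ⟨hMn.conj_mem a ha.1 g, by
    rw [conj_pow]; exact hL.conj_mem _ ha.2 g⟩⟩
  have hEM : E = M := by
    refine (hmin E hEn (fun l hl => ⟨hLM.le hl, L.pow_mem hl p⟩) fun a ha => ha.1).resolve_left
      fun he => ?_
    obtain ⟨x, hx⟩ := exists_prime_orderOf_dvd_card' (G := M ⧸ L.subgroupOf M) p hpd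
    obtain ⟨m, rfl⟩ := QuotientGroup.mk_surjective x
    have hmE : (m : G) ∈ E := ⟨m.2, (hpow m m.2).mpr (by rw [← hx]; exact pow_orderOf_eq_one _)⟩
    rw [he] at hmE
    rw [(QuotientGroup.eq_one_iff m).mpr (Subgroup.mem_subgroupOf.mpr hmE), orderOf_one] at hx
    exact hp.ne_one hx.symm
  have hall : ∀ m ∈ M, m ^ p ∈ L := fun m hm => (hEM.ge hm).2
  have hPG : IsPGroup p (M ⧸ L.subgroupOf M) := by
    intro x
    obtain ⟨m, rfl⟩ := QuotientGroup.mk_surjective x
    exact ⟨1, by rw [pow_one]; exact (hpow m m.2).mp (hall m m.2)⟩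
  obtain ⟨k, hk⟩ := IsPGroup.iff_card.mp hPG
  exact ⟨M, p, hMn, hLM, hp, hmin, hcomm, hall, k, hk⟩

end Solvable

end Cfsg.Lib.Characters.Proj
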