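import Cfsg.Agent.Lib.Characters.BergerMain
import Cfsg.Agent.Lib.Characters.Induction
import Cfsg.Agent.Lib.Characters.Integrality

/-!
# Berger's theorem in the language of characters
-/

set_option linter.unusedSectionVars false
set_option linter.style.longLine false
set_option linter.style.haveILetI false

open Module Submodule
open scoped ComplexConjugate

namespace Cfsg.Lib.Characters.Proj

variable {G : Type*} [Group G] [Finite G]
variable {V : Type*} [AddCommGroup V] [Module ℂ V] [FiniteDimensional ℂ V]

/-- A representation as a family of linear equivalences. -/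
noncomputable def ofRep (ρ : Representation ℂ G V) (g : G) : V ≃ₗ[ℂ] V :=
  LinearEquiv.ofLinear (ρ g) (ρ g⁻¹)
    (by rw [← Module.End.mul_eq_comp, ← map_mul, mul_inv_cancel, map_one]; rfl)
    (by rw [← Module.End.mul_eq_comp, ← map_mul, inv_mul_cancel, map_one]; rfl)

theorem ofRep_apply (ρ : Representation ℂ G V) (g : G) (v : V) : ofRep ρ g v = ρ g v := rfl

theorem isProj_ofRep (ρ : Representation ℂ G V) : IsProj (ofRep ρ) := fun g h =>
  ⟨1, one_ne_zero, fun v => by
    simp only [one_smul, ofRep_apply]; rw [← Module.End.mul_apply, ← map_mul]⟩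

theorem irr_ofRep (ρ : Representation ℂ G V) [hρ : ρ.IsIrreducible] : Irr (ofRep ρ) := by
  refine ⟨fun h => ?_, fun X hX => ?_⟩
  · haveI : Nontrivial (Subrepresentation ρ) := hρ.toNontrivial
    exact bot_ne_top (α := Subrepresentation ρ) (Subrepresentation.toSubmodule_injective h.symm)
  · rcases hρ.eq_bot_or_eq_top ⟨X, fun g v hv => hX g (Subgroup.mem_top g) v hv⟩ with h | h
    · exact Or.inl (congrArg Subrepresentation.toSubmodule h)
    · exact Or.inr (congrArg Subrepresentation.toSubmodule h)

/-- Homogeneous restriction gives isomorphic minimal invariant subspaces. -/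
theorem isoOn_of_homogeneous (ρ : Representation ℂ G V) (N : Subgroup G) {ϑ : N → ℂ} {e : ℕ}
    (hϑ : IsIrrCharacter N ϑ) (heq : (fun n : N => ρ.character n) = (e : ℂ) • ϑ)
    {X Y : Submodule ℂ V} (hX : MinInv (ofRep ρ) N X) (hY : MinInv (ofRep ρ) N Y) :
    IsoOn (ofRep ρ) N X Y := by
  classical
  haveI := Fintype.ofFinite N
  let τ : Representation ℂ N V := ρ.comp N.subtype
  have hτ : τ.character = (e : ℂ) • ϑ := heq
  have key : ∀ (Z : Submodule ℂ V) (hZ : MinInv (ofRep ρ) N Z),
      (⟨Z, fun g v hv => hZ.inv g g.2 v hv⟩ : Subrepresentation τ).toRepresentation.character = ϑ := by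
    intro Z hZ
    set s : Subrepresentation τ := ⟨Z, fun g v hv => hZ.inv g g.2 v hv⟩
    haveI hirr : s.toRepresentation.IsIrreducible := by
      haveI : Nontrivial (Subrepresentation s.toRepresentation) := ⟨⟨⊥, ⊤, fun h => hZ.ne_bot <| by
        have h' : (⊥ : Submodule ℂ Z) = ⊤ := congrArg Subrepresentation.toSubmodule h
        rw [eq_bot_iff]
        intro z hz
        have : (⟨z, hz⟩ : Z) ∈ (⊥ : Submodule ℂ Z) := h' ▸ Submodule.mem_top
        exact (Submodule.mem_bot ℂ).mpr (congrArg Subtype.val ((Submodule.mem_bot ℂ).mp this))⟩⟩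
      refine ⟨fun t => ?_⟩
      have hti : Inv (ofRep ρ) N (t.toSubmodule.map Z.subtype) := by
        rintro n hn _ ⟨z, hz, rfl⟩
        exact ⟨_, t.apply_mem_toSubmodule ⟨n, hn⟩ hz, rfl⟩
      rcases hZ.eq_bot_or_eq _ (map_subtype_le _ _) hti with h | h
      · left
        apply Subrepresentation.toSubmodule_injective
        refine map_injective_of_injective Z.subtype_injective ?_
        rw [h]; exact Submodule.map_bot _ |>.symm
      · right
        apply Subrepresentation.toSubmodule_injective
        refine map_injective_of_injective Z.subtype_injective ?_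
        rw [h]; exact (Submodule.map_subtype_top Z).symm
    have hne : classInner τ.character s.toRepresentation.character ≠ 0 := by
      rw [classInner_character, Nat.cast_ne_zero]
      haveI : Nontrivial Z := Submodule.nontrivial_iff_ne_bot.mpr hZ.ne_bot
      let i : Representation.IntertwiningMap s.toRepresentation τ :=
        ⟨Z.subtype, fun g => LinearMap.ext fun v => rfl⟩
      haveI : Nontrivial (Representation.IntertwiningMap s.toRepresentation τ) :=
        ⟨⟨i, 0, fun h => by
          obtain ⟨z, hz⟩ := exists_ne (0 : Z)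
          exact hz (Subtype.ext (congrArg (fun f => f.toLinearMap z) h))⟩⟩
      exact Module.finrank_pos.ne'
    rw [hτ, classInner_smul_left] at hne
    by_contra hne'
    exact right_ne_zero_of_mul hne
      (classInner_irr_ne hϑ (isIrrCharacter_character _) (Ne.symm hne'))
  set sX : Subrepresentation τ := ⟨X, fun g v hv => hX.inv g g.2 v hv⟩
  set sY : Subrepresentation τ := ⟨Y, fun g v hv => hY.inv g g.2 v hv⟩
  have h1 : finrank ℂ (Representation.IntertwiningMap sX.toRepresentation sY.toRepresentation) = 1 := by
    have h := classInner_character sX.toRepresentation sY.toRepresentation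
    rw [key X hX, key Y hY, classInner_irr_self hϑ] at h
    exact_mod_cast h.symm
  haveI : Nontrivial (Representation.IntertwiningMap sX.toRepresentation sY.toRepresentation) :=
    Module.nontrivial_of_finrank_eq_succ (n := 0) h1
  obtain ⟨f, hf⟩ := exists_ne (0 : Representation.IntertwiningMap sX.toRepresentation sY.toRepresentation)
  have hinj : Function.Injective f.toLinearMap := by
    have hki : Inv (ofRep ρ) N ((LinearMap.ker f.toLinearMap).map X.subtype) := by
      rintro n hn _ ⟨x, hx, rfl⟩
      refine ⟨sX.toRepresentation ⟨n, hn⟩ x, ?_, rfl⟩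
      show f.toLinearMap (sX.toRepresentation ⟨n, hn⟩ x) = 0
      have := LinearMap.congr_fun (f.isIntertwining' ⟨n, hn⟩) x
      simp only [LinearMap.comp_apply] at this
      rw [this, LinearMap.mem_ker.mp hx, map_zero]
    rcases hX.eq_bot_or_eq _ (map_subtype_le _ _) hki with h | h
    · rw [← LinearMap.ker_eq_bot]
      exact map_injective_of_injective X.subtype_injective (by rw [h, Submodule.map_bot])
    · exfalso
      refine hf (Representation.IntertwiningMap.ext (LinearMap.ext fun x => ?_))
      obtain ⟨y, hy, hyx⟩ : (x : V) ∈ (LinearMap.ker f.toLinearMap).map X.subtype := h.symm ▸ x.2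
      rw [← Subtype.ext hyx]
      exact LinearMap.mem_ker.mp hy
  have hdim : finrank ℂ X = finrank ℂ Y := by
    have h2 : sX.toRepresentation.character 1 = sY.toRepresentation.character 1 := by
      rw [key X hX, key Y hY]
    rw [Representation.char_one, Representation.char_one] at h2
    exact_mod_cast h2
  refine ⟨LinearEquiv.ofBijective f.toLinearMap ⟨hinj,
    (LinearMap.injective_iff_surjective_of_finrank_eq_finrank hdim).mp hinj⟩, fun n hn x y hxy => ?_⟩
  have h := LinearMap.congr_fun (f.isIntertwining' ⟨n, hn⟩) x
  simp only [LinearMap.comp_apply] at h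
  show (f.toLinearMap y : V) = _
  rw [show y = sX.toRepresentation ⟨n, hn⟩ x from Subtype.ext hxy, h]
  rfl

/-- An induced irreducible character gives an induced system. -/
theorem exists_indSubspace [Fintype G] (ρ : Representation ℂ G V) [ρ.IsIrreducible]
    (K : Subgroup G) {ψ : K → ℂ} (hψ : IsCharacter K ψ) (hind : indFun K ψ = ρ.character) :
    ∃ X, X ≠ ⊥ ∧ Inv (ofRep ρ) K X ∧ finrank ℂ V = K.index * finrank ℂ X := by
  classical
  haveI := Fintype.ofFinite K
  obtain ⟨m, σ, hσ⟩ := hψ
  let τ : Representation ℂ K V := ρ.comp K.subtype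
  have hne : classInner τ.character σ.character ≠ 0 := by
    have h := classInner_indFun_right K ψ
      (isClassFunction_of_isCharacter (isCharacter_character ρ))
    rw [hind, classInner_irr_self (isIrrCharacter_character ρ)] at h
    rw [hσ]
    exact h ▸ one_ne_zero
  rw [classInner_character, Nat.cast_ne_zero] at hne
  haveI : Nontrivial (Representation.IntertwiningMap σ τ) :=
    Module.nontrivial_of_finrank_pos (Nat.pos_of_ne_zero hne)
  obtain ⟨f, hf⟩ := exists_ne (0 : Representation.IntertwiningMap σ τ)
  have hX : LinearMap.range f.toLinearMap ≠ ⊥ := by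
    intro h
    refine hf (Representation.IntertwiningMap.ext (LinearMap.ext fun x => ?_))
    have : f.toLinearMap x ∈ LinearMap.range f.toLinearMap := ⟨x, rfl⟩
    rw [h, Submodule.mem_bot] at this
    exact this
  have hinv : Inv (ofRep ρ) K (LinearMap.range f.toLinearMap) := by
    rintro n hn _ ⟨w, rfl⟩
    refine ⟨σ ⟨n, hn⟩ w, ?_⟩
    have h := LinearMap.congr_fun (f.isIntertwining' ⟨n, hn⟩) w
    simp only [LinearMap.comp_apply] at h
    exact h
  refine ⟨_, hX, hinv, le_antisymm (finrank_le_index (isProj_ofRep ρ) (irr_ofRep ρ) hX hinv) ?_⟩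
  have hd : (finrank ℂ V : ℂ) = K.index * (m : ℂ) := by
    rw [← ρ.char_one, ← hind, indFun_one_apply, ← hσ, Representation.char_one, Module.finrank_fin_fun]
  have hd' : finrank ℂ V = K.index * m := by exact_mod_cast hd
  rw [hd']
  refine Nat.mul_le_mul_left _ ((LinearMap.finrank_range_le _).trans ?_)
  rw [Module.finrank_fin_fun]

end Cfsg.Lib.Characters.Proj
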