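import Cfsg.Agent.Lib.Characters.Berger
import Cfsg.Agent.Lib.Transfer.PGroupNormal

/-!
# Berger's theorem: the main induction
-/

set_option linter.unusedSectionVars false
set_option linter.style.longLine false
set_option linter.style.haveILetI false

open Module Submodule

namespace Cfsg.Lib.Characters.Proj

universe uV

variable {G : Type*} [Group G] [Finite G] [Group.IsSolvable G]

section

variable {V : Type uV} [AddCommGroup V] [Module ℂ V] [FiniteDimensional ℂ V]
variable {P : G → V ≃ₗ[ℂ] V}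

/-- A homogeneous normal subgroup with a one-dimensional invariant subspace acts by scalars. -/
theorem scalar_of_dim_one (hP : IsProj P) (hqp : QP P) {N : Subgroup G} [N.Normal]
    {W : Submodule ℂ V} (hmin : MinInv P N W) (h1 : finrank ℂ W = 1) {n : G} (hn : n ∈ N) :
    ∃ c : ℂ, ∀ v, P n v = c • v := by
  obtain ⟨w₀, hw₀, hw₀'⟩ := finrank_eq_one_iff'.mp h1
  obtain ⟨c, hc⟩ := hw₀' ⟨P n w₀, hmin.inv n hn _ w₀.2⟩
  refine ⟨c, fun v => ?_⟩
  have hv : v ∈ evalSpan (homN hmin.inv ⊤) := by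
    rw [evalSpan_homN hP (fun Z hZ => hqp N inferInstance W Z hmin hZ) hmin (inv_top N)]
    exact Submodule.mem_top
  have hle : evalSpan (homN hmin.inv ⊤) ≤ LinearMap.ker ((P n : V →ₗ[ℂ] V) - c • LinearMap.id) := by
    refine iSup_le fun f => ?_
    rintro _ ⟨w, rfl⟩
    obtain ⟨a, rfl⟩ := hw₀' w
    rw [LinearMap.mem_ker, LinearMap.sub_apply, LinearMap.smul_apply, LinearMap.id_apply,
      sub_eq_zero, map_smul]
    show P n (a • (f : W →ₗ[ℂ] V) w₀) = c • a • (f : W →ₗ[ℂ] V) w₀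
    rw [map_smul, ← homN_comm f.2 ⟨n, hn⟩ w₀,
      show res hmin.inv ⟨n, hn⟩ w₀ = c • w₀ from hc.symm, map_smul, smul_comm]
  have := hle hv
  rwa [LinearMap.mem_ker, LinearMap.sub_apply, LinearMap.smul_apply, LinearMap.id_apply,
    sub_eq_zero] at this

end

set_option maxHeartbeats 4000000 in
set_option synthInstance.maxHeartbeats 400000 in
/-- Berger's theorem. -/
theorem not_indData : ∀ (n : ℕ) (V : Type uV) [AddCommGroup V] [Module ℂ V]
    [FiniteDimensional ℂ V] (P : G → V ≃ₗ[ℂ] V),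
    finrank ℂ V = n → IsProj P → Irr P → QP P → ¬ IndData P := by
  classical
  intro n
  induction n using Nat.strong_induction_on with
  | _ n ih =>
  intro V _ _ _ P hn hP hirr hqp hdata
  obtain ⟨H₀, hH₀, X₀, hX₀, hX₀i, hdim₀⟩ := hdata
  -- coarsen to a maximal subgroup
  obtain ⟨H, hH, hH₀H⟩ := (eq_top_or_exists_le_coatom H₀).resolve_left hH₀
  obtain ⟨X, hX₀X, hX, hXd, -⟩ := exists_span_bound hP H₀ H hX₀i
  have hXne : X ≠ ⊥ := fun h => hX₀ (le_bot_iff.mp (h ▸ hX₀X))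
  have hdim : finrank ℂ V = H.index * finrank ℂ X := by
    refine le_antisymm (finrank_le_index hP hirr hXne hX) ?_
    calc H.index * finrank ℂ X ≤ H.index * (H₀.relIndex H * finrank ℂ X₀) :=
          Nat.mul_le_mul_left _ hXd
      _ = finrank ℂ V := by rw [hdim₀, ← Subgroup.relIndex_mul_index hH₀H]; ring
  have hindex : 1 < H.index := by
    have h0 : H.index ≠ 0 := Subgroup.index_ne_zero_of_finite
    have h1 : H.index ≠ 1 := fun h => hH.1 (Subgroup.index_eq_one.mp h)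
    omega
  have hXpos : 0 < finrank ℂ X :=
    Nat.pos_of_ne_zero fun h => hXne (Submodule.finrank_eq_zero.mp h)
  -- the core
  set L := H.normalCore with hLdef
  have hLH : L ≤ H := H.normalCore_le
  obtain ⟨W, -, hW⟩ := exists_minInv hirr.1 (inv_top (P := P) L)
  by_cases hW1 : finrank ℂ W = 1
  swap
  · obtain ⟨PS, hPS, hirrS, hqpS, -, -, hind, hdimV⟩ := exists_multiplicity hP hirr (fun N' h _ => hqp N' h) hW
    refine ih _ ?_ _ PS rfl hPS hirrS hqpS ⟨H, hH.1, hind H hLH X hXne hX hdim⟩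
    have hW0 : finrank ℂ W ≠ 0 := fun h0 => hW.ne_bot (Submodule.finrank_eq_zero.mp h0)
    have hVpos : 0 < finrank ℂ V := by rw [hdim]; positivity
    rw [← hn, hdimV]
    rw [hdimV] at hVpos
    exact lt_mul_left (Nat.pos_of_mul_pos_left hVpos) (by omega)
  have hLscal : ∀ l ∈ L, ∃ c : ℂ, ∀ v, P l v = c • v := fun l hl =>
    scalar_of_dim_one hP hqp hW hW1 hl
  -- a chief factor above the core
  have hLtop : L ≠ ⊤ := fun h => hH.1 (top_le_iff.mp (h ▸ hLH))
  obtain ⟨M, p, hMn, hLM, hp, hMmin, hMcomm, hMpow, k, hk⟩ := exists_chief L hLtop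
  haveI := hMn
  have hMH : ¬ M ≤ H := fun h => hLM.not_ge (Subgroup.normal_le_normalCore.mpr h)
  have hsup : M ⊔ H = ⊤ := hH.2 _ (lt_of_le_of_ne le_sup_right fun h => hMH (h ▸ le_sup_left))
  -- subgroups of `H` normalised by `H` and centralised modulo `L` by `M`
  have notcentral : ∀ Q : Subgroup G, L ≤ Q → Q ≤ H → (∀ h ∈ H, ∀ x ∈ Q, h * x * h⁻¹ ∈ Q) →
      (∀ x ∈ Q, ∀ m ∈ M, x * m * x⁻¹ * m⁻¹ ∈ L) → Q ≤ L := by
    intro Q hLQ hQH hHQ hQM
    haveI : Q.Normal := ⟨fun x hx g => by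
      obtain ⟨m, hm, h, hh, rfl⟩ := Subgroup.mem_sup_of_normal_left.mp (hsup.ge (Subgroup.mem_top g))
      have hy := hHQ h hh x hx
      have : m * h * x * (m * h)⁻¹ =
          (h * x * h⁻¹ * m * (h * x * h⁻¹)⁻¹ * m⁻¹)⁻¹ * (h * x * h⁻¹) := by group
      rw [this]
      exact Q.mul_mem (Q.inv_mem (hLQ (hQM _ hy m hm))) hy⟩
    exact Subgroup.normal_le_normalCore.mpr hQH
  have hMHL : M ⊓ H = L := by
    refine le_antisymm (notcentral _ (le_inf hLM.le hLH) inf_le_right (fun h hh x hx =>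
      ⟨hMn.conj_mem x hx.1 h, H.mul_mem (H.mul_mem hh hx.2) (H.inv_mem hh)⟩)
      fun x hx m hm => hMcomm x hx.1 m hm) (le_inf hLM.le hLH)
  -- the constituent of `M`
  obtain ⟨U, -, hU⟩ := exists_minInv hirr.1 (inv_top (P := P) M)
  have hhomU : ∀ Z, MinInv P M Z → IsoOn P M U Z := fun Z hZ => hqp M hMn U Z hU hZ
  set c := finrank ℂ U with hc
  have hc0 : c ≠ 0 := fun h0 => hU.ne_bot (Submodule.finrank_eq_zero.mp h0)
  have hc1 : c ≠ 1 := by
    intro hc1
    have hXM : Inv P M X := fun m hm x hx => by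
      obtain ⟨a, ha⟩ := scalar_of_dim_one hP hqp hU (hc ▸ hc1) hm
      rw [ha]; exact X.smul_mem _ hx
    have htop := (hirr.2 X (hsup ▸ inv_sup hP hXM hX)).resolve_left hXne
    rw [htop, finrank_top] at hdim
    have hVpos : 0 < finrank ℂ V :=
      Nat.pos_of_ne_zero fun h0 => hirr.1 (Submodule.finrank_eq_zero.mp (by rw [finrank_top]; exact h0))
    have := (mul_eq_right₀ hVpos.ne').mp hdim.symm
    omega
  obtain ⟨PS, hPS, hirrS, hqpS, hMS, hPSA, -, hdimV⟩ := exists_multiplicity hP hirr (fun N' h _ => hqp N' h) hU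
  choose A hA hPSapp using hPSA
  rw [← hc] at hdimV
  -- the operators of `M` on `U`
  let rM : M → (U ≃ₗ[ℂ] U) := fun m =>
    LinearEquiv.ofSubmodules (P m) U U (hU.inv.mem_tr_self hP m.2)
  have hrM : ∀ (m : M) u, rM m u = res hU.inv m u := fun _ _ => rfl
  have hrM' : ∀ (m : M) u, (rM m u : V) = P (m : G) u := fun _ _ => rfl
  -- a complement of `X`
  haveI : Fintype (G ⧸ H) := Fintype.ofFinite _
  have hdep : ∀ g : G, tr P ((QuotientGroup.mk g : G ⧸ H).out) X = tr P g X := by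
    intro g
    obtain ⟨l, hl⟩ := QuotientGroup.mk_out_eq_mul H g
    rw [hl, ← tr_tr hP, hX.mem_tr_self hP l.2]
  let Y : Submodule ℂ V :=
    (Finset.univ.erase (QuotientGroup.mk 1 : G ⧸ H)).sup fun q => tr P q.out X
  have htrY : ∀ g : G, tr P g X ≤ X ⊔ Y := by
    intro g
    by_cases hg : (QuotientGroup.mk g : G ⧸ H) = QuotientGroup.mk 1
    · rw [← hdep, hg, hdep, tr_one hP]; exact le_sup_left
    · rw [← hdep]
      exact le_sup_of_le_right (Finset.le_sup (f := fun q : G ⧸ H => tr P q.out X)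
        (Finset.mem_erase.mpr ⟨hg, Finset.mem_univ _⟩))
  have hXY : X ⊔ Y = ⊤ := by
    have heq : X ⊔ Y = ⨆ g : G, tr P g X := by
      refine le_antisymm (sup_le ?_ (Finset.sup_le fun q _ => le_iSup (fun g => tr P g X) _))
        (iSup_le htrY)
      exact le_trans (tr_one hP X).ge (le_iSup (fun g => tr P g X) 1)
    refine (hirr.2 _ ?_).resolve_left fun h => hXne (le_bot_iff.mp (h ▸ le_sup_left))
    rw [heq]
    intro g _ x hx
    have hle : (⨆ g : G, tr P g X) ≤ (⨆ g : G, tr P g X).comap (P g : V →ₗ[ℂ] V) :=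
      iSup_le fun g' y hy => mem_iSup_of_mem (g * g') (by
        rw [← tr_tr hP]; exact mem_tr.mpr ⟨y, hy, rfl⟩)
    exact hle hx
  have hdisj : X ⊓ Y = ⊥ := by
    have hY : finrank ℂ Y ≤ (H.index - 1) * finrank ℂ X := by
      refine (finrank_finset_sup_le _ _).trans (le_of_eq ?_)
      rw [Finset.sum_congr rfl fun q _ => finrank_tr q.out X, Finset.sum_const, smul_eq_mul,
        Finset.card_erase_of_mem (Finset.mem_univ _), Finset.card_univ, ← Nat.card_eq_fintype_card]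
      rfl
    have h := Submodule.finrank_sup_add_finrank_inf_eq X Y
    rw [hXY, finrank_top, hdim] at h
    apply Submodule.finrank_eq_zero.mp
    rw [Nat.sub_one_mul] at hY
    have := Nat.le_mul_of_pos_left (finrank ℂ X) (by omega : 0 < H.index)
    omega
  -- induction from `H` to `G` on the level of multiplicities
  haveI : Fintype M := Fintype.ofFinite M
  let T : (U →ₗ[ℂ] X) → M → (U →ₗ[ℂ] V) := fun g m =>
    (P (m : G) : V →ₗ[ℂ] V).comp (X.subtype.comp (g.comp ((rM m).symm : U →ₗ[ℂ] U)))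
  have hTapp : ∀ g m w, T g m w = P (m : G) (g ((rM m).symm w)) := fun _ _ _ => rfl
  have hTmem : ∀ g : U →ₗ[ℂ] X, ∑ m, T g m ∈ homN hU.inv ⊤ := by
    intro g w
    refine ⟨Submodule.mem_top, fun n => ?_⟩
    rw [LinearMap.sum_apply, LinearMap.sum_apply, map_sum]
    refine (Fintype.sum_equiv (Equiv.mulLeft n) _ _ fun m => ?_).symm
    obtain ⟨a, ha, hmul⟩ := hP (n : G) (m : G)
    show P (n : G) (T g m w) = T g (n * m) (res hU.inv n w)
    have hsymm : (rM (n * m)).symm (res hU.inv n w) = a • (rM m).symm w := by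
      apply (rM (n * m)).injective
      rw [LinearEquiv.apply_symm_apply, map_smul]
      apply Subtype.ext
      rw [Submodule.coe_smul, hrM', coe_res, Subgroup.coe_mul, ← hmul]
      congr 1
      rw [← hrM', LinearEquiv.apply_symm_apply]
    rw [hTapp, hTapp, hsymm, map_smul, Submodule.coe_smul, map_smul, Subgroup.coe_mul, hmul]
  let Φ : (U →ₗ[ℂ] X) →ₗ[ℂ] homN hU.inv ⊤ := LinearMap.codRestrict _
    { toFun := fun g => ∑ m, T g m
      map_add' := fun a b => by
        rw [← Finset.sum_add_distrib]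
        exact Finset.sum_congr rfl fun m _ => LinearMap.ext fun w => by simp [T]
      map_smul' := fun s a => by
        rw [RingHom.id_apply, Finset.smul_sum]
        exact Finset.sum_congr rfl fun m _ => LinearMap.ext fun w => by simp [T] } hTmem
  have hΦapp : ∀ g w, ((Φ g : homN hU.inv ⊤) : U →ₗ[ℂ] V) w = ∑ m, T g m w := fun g w => by
    show (∑ m, T g m) w = _
    rw [LinearMap.sum_apply]
  have hΦinj : Function.Injective Φ := by
    rw [← LinearMap.ker_eq_bot, LinearMap.ker_eq_bot']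
    intro g hg
    ext w
    have h0 : ∑ m, T g m w = 0 := by rw [← hΦapp, hg]; rfl
    rw [← Finset.sum_filter_add_sum_filter_not Finset.univ fun m : M => (m : G) ∈ L] at h0
    have hLpart : ∀ m ∈ Finset.univ.filter (fun m : M => (m : G) ∈ L), T g m w = (g w : V) := by
      intro m hm
      obtain ⟨s, hs⟩ := hLscal m (Finset.mem_filter.mp hm).2
      rw [hTapp, hs]
      have hw : w = s • (rM m).symm w := by
        apply Subtype.ext
        conv_lhs => rw [← (rM m).apply_symm_apply w]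
        rw [hrM', hs, Submodule.coe_smul]
      conv_rhs => rw [hw, map_smul, Submodule.coe_smul]
    rw [Finset.sum_congr rfl hLpart, Finset.sum_const, ← Nat.cast_smul_eq_nsmul ℂ] at h0
    have hrest : ∑ m ∈ Finset.univ.filter (fun m : M => (m : G) ∉ L), T g m w ∈ Y := by
      refine Submodule.sum_mem _ fun m hm => ?_
      have hne : (QuotientGroup.mk (m : G) : G ⧸ H) ≠ QuotientGroup.mk 1 := fun h =>
        (Finset.mem_filter.mp hm).2 (hMHL.le ⟨m.2, by
          rw [QuotientGroup.eq, mul_one] at h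
          exact H.inv_mem_iff.mp h⟩)
      refine Finset.le_sup (f := fun q : G ⧸ H => tr P q.out X)
        (Finset.mem_erase.mpr ⟨hne, Finset.mem_univ _⟩) ?_
      show T g m w ∈ tr P (QuotientGroup.mk (m : G) : G ⧸ H).out X
      rw [hdep]
      exact mem_tr.mpr ⟨_, (g _).2, rfl⟩
    set N₀ := (Finset.univ.filter (fun m : M => (m : G) ∈ L)).card with hN₀
    have hmem : (N₀ : ℂ) • (g w : V) ∈ X ⊓ Y :=
      ⟨X.smul_mem _ (g w).2, by
        rw [SetLike.mem_coe, eq_neg_of_add_eq_zero_left h0]; exact Y.neg_mem hrest⟩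
    rw [hdisj, Submodule.mem_bot, smul_eq_zero] at hmem
    rcases hmem with h | h
    · exfalso
      rw [Nat.cast_eq_zero, hN₀, Finset.card_eq_zero] at h
      exact Finset.notMem_empty (1 : M) (h ▸ Finset.mem_filter.mpr
        ⟨Finset.mem_univ _, by rw [Subgroup.coe_one]; exact L.one_mem⟩)
    · rw [h]; rfl
  -- equivariance
  have hequiv : ∀ (h : G) (hh : h ∈ H) (g g' : U →ₗ[ℂ] X),
      (∀ u, (g' u : V) = P h (g ((A h).symm u))) → PS h (Φ g) = Φ g' := by
    intro h hh g g' hg'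
    apply Subtype.ext
    ext w
    rw [hPSapp, hΦapp, hΦapp, map_sum]
    let σ : M ≃ M :=
      { toFun := fun m => ⟨h * m * h⁻¹, hMn.conj_mem m m.2 h⟩
        invFun := fun m => ⟨h⁻¹ * m * h, by simpa using hMn.conj_mem m m.2 h⁻¹⟩
        left_inv := fun m => Subtype.ext (by simp [mul_assoc])
        right_inv := fun m => Subtype.ext (by simp [mul_assoc]) }
    refine Fintype.sum_equiv σ _ _ fun m => ?_
    obtain ⟨s, hs, hrel⟩ := conj_rel hP h ((σ m : M) : G)
    have hm : (m : G) = h⁻¹ * ((σ m : M) : G) * h := by simp [σ, mul_assoc]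
    rw [← hm] at hrel
    have hAm := hA h (σ m) m s hm hrel ((rM m).symm ((A h).symm w))
    rw [← hrM, ← hrM, LinearEquiv.apply_symm_apply, LinearEquiv.apply_symm_apply] at hAm
    have hz : (rM (σ m)).symm w = s⁻¹ • A h ((rM m).symm ((A h).symm w)) := by
      apply (rM (σ m)).injective
      rw [LinearEquiv.apply_symm_apply, map_smul, hAm, smul_smul, inv_mul_cancel₀ hs, one_smul]
    rw [hTapp, hTapp, hz, map_smul, Submodule.coe_smul, hg', LinearEquiv.symm_apply_apply,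
      map_smul, hrel, smul_smul, inv_mul_cancel₀ hs, one_smul]
  have hconj : ∀ (h : G) (hh : h ∈ H) (g : U →ₗ[ℂ] X), ∃ g' : U →ₗ[ℂ] X,
      ∀ u, (g' u : V) = P h (g ((A h).symm u)) := fun h hh g =>
    ⟨((P h : V →ₗ[ℂ] V).comp (X.subtype.comp (g.comp ((A h).symm : U →ₗ[ℂ] U)))).codRestrict X
      fun u => hX h hh _ (g _).2, fun u => rfl⟩
  have hMstab : ∀ Z : Submodule ℂ (homN hU.inv ⊤), M ≤ stab hPS Z := fun Z m hm =>
    mem_stab_of_le hPS fun f hf => by
      obtain ⟨a, ha⟩ := hMS m hm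
      rw [ha]; exact Z.smul_mem _ hf
  -- `U →ₗ X` is the whole multiplicity space
  have hU0 : (⊤ : Submodule ℂ (U →ₗ[ℂ] X)) ≠ ⊥ := by
    intro h
    have h' := congrArg (fun Z : Submodule ℂ (U →ₗ[ℂ] X) => finrank ℂ Z) h
    simp only [finrank_top, finrank_bot, Module.finrank_linearMap] at h'
    rcases mul_eq_zero.mp h' with h | h
    · exact hc0 h
    · omega
  have hΦsurj : Function.Surjective Φ := by
    rw [← LinearMap.range_eq_top]
    refine hirrS.eq_top_of_stab hPS (fun h => hU0 ?_) (top_le_iff.mp ?_)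
    · rw [LinearMap.range_eq_bot] at h
      refine eq_bot_iff.mpr fun g _ => (Submodule.mem_bot ℂ).mpr (hΦinj ?_)
      rw [h]; simp
    · rw [← hsup]
      refine sup_le (hMstab _) fun h hh => mem_stab_of_le hPS ?_
      rintro _ ⟨g, rfl⟩
      obtain ⟨g', hg'⟩ := hconj h hh g
      exact ⟨g', (hequiv h hh g g' hg').symm⟩
  have hdimS : finrank ℂ (homN hU.inv ⊤) = c * finrank ℂ X := by
    rw [← (LinearEquiv.ofBijective Φ ⟨hΦinj, hΦsurj⟩).finrank_eq, Module.finrank_linearMap, hc]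
  have hc2 : c * c = H.index := by
    rw [hdimV, hdimS, ← mul_assoc] at hdim
    exact Nat.eq_of_mul_eq_mul_right hXpos hdim
  have hcp : c * c = p ^ k := by
    have hrel : H.relIndex M = L.relIndex M := by
      rw [← Subgroup.inf_relIndex_right H M, inf_comm, hMHL]
    obtain ⟨Z, hXZ, hZ, hZd, hZmin⟩ := exists_span_bound hP H M hX
    have hZtop : Z = ⊤ := by
      refine hirr.eq_top_of_stab hP (fun h => hXne (le_bot_iff.mp (h ▸ hXZ))) (top_le_iff.mp ?_)
      rw [← hsup]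
      refine sup_le ((inv_iff hP).mp hZ) fun h hh => ?_
      have hle : Z ≤ tr P h Z := hZmin _ (by
        conv_lhs => rw [← hX.mem_tr_self hP hh]
        exact Submodule.map_mono hXZ) (inv_tr_normal hP hZ h)
      exact mem_stab.mpr (eq_of_le_of_finrank_eq hle (finrank_tr h Z).symm).symm
    rw [hZtop, finrank_top, hdim] at hZd
    have h1 := Nat.le_of_mul_le_mul_right hZd hXpos
    have h2 : H.relIndex M ≤ H.index := by
      rw [← Subgroup.relIndex_top_right H]
      exact Subgroup.relIndex_le_of_le_right le_top (by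
        rw [Subgroup.relIndex_top_right]; exact Subgroup.index_ne_zero_of_finite)
    rw [hc2, ← hk, ← hrel]
    omega
  -- a chief factor above `M`
  by_cases hMtop : M = ⊤
  · obtain ⟨f, hf, hf0⟩ := Submodule.exists_mem_ne_zero_of_ne_bot hirrS.1
    have hline : Submodule.span ℂ {f} = ⊤ := by
      refine hirrS.eq_top_of_stab hPS (fun h => hf0 ?_) (top_le_iff.mp (hMtop.ge.trans (hMstab _)))
      have := h ▸ Submodule.mem_span_singleton_self f
      exact (Submodule.mem_bot ℂ).mp this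
    have h1 : finrank ℂ (homN hU.inv ⊤) = 1 := by
      rw [← finrank_top ℂ (homN hU.inv ⊤), ← hline, finrank_span_singleton hf0]
    rw [hdimS] at h1
    exact hc1 (Nat.eq_one_of_mul_eq_one_right h1)
  obtain ⟨K, q, hKn, hMK, hq, hKmin, hKcomm, hKpow, kK, hkK⟩ := exists_chief M hMtop
  haveI := hKn
  set Q := H ⊓ K with hQdef
  have hLQ : L ≤ Q := le_inf hLH (hLM.le.trans hMK.le)
  have hQH : Q ≤ H := inf_le_left
  have hHQ : ∀ h ∈ H, ∀ x ∈ Q, h * x * h⁻¹ ∈ Q := fun h hh x hx =>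
    ⟨H.mul_mem (H.mul_mem hh hx.1) (H.inv_mem hh), hKn.conj_mem x hx.2 h⟩
  have hQnot : ¬ ∀ x ∈ Q, ∀ m ∈ M, x * m * x⁻¹ * m⁻¹ ∈ L := by
    intro h
    have hQL := notcentral Q hLQ hQH hHQ h
    refine hMK.not_ge fun y hy => ?_
    obtain ⟨m, hm, x, hx, rfl⟩ := Subgroup.mem_sup_of_normal_left.mp (hsup.ge (Subgroup.mem_top y))
    refine M.mul_mem hm (hLM.le (hQL ⟨hx, ?_⟩))
    simpa using K.mul_mem (K.inv_mem (hMK.le hm)) hy
  -- coprimality
  have hqp' : q ≠ p := by
    rintro rfl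
    haveI := Fact.mk hp
    let π := QuotientGroup.mk' L
    have hker : π.ker = L := QuotientGroup.ker_mk' L
    let Kb := K.map π
    let Mb := (M.map π).subgroupOf Kb
    haveI : (M.map π).Normal := hMn.map π (QuotientGroup.mk'_surjective L)
    have hcardKb : Nat.card Kb = q ^ (k + kK) := by
      show Nat.card (K.map π) = _
      rw [← Subgroup.relIndex_bot_left, ← Subgroup.map_bot π, Subgroup.relIndex_map_map, hker,
        bot_sup_eq, sup_eq_left.mpr (hLM.le.trans hMK.le),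
        ← Subgroup.relIndex_mul_relIndex L M K hLM.le hMK.le, hk, hkK, pow_add]
    have hMb0 : Mb ≠ ⊥ := by
      intro h
      have h' : Disjoint (M.map π) Kb := Subgroup.subgroupOf_eq_bot.mp h
      have hb : M.map π = ⊥ :=
        le_bot_iff.mp ((le_inf le_rfl (Subgroup.map_mono hMK.le)).trans h'.le_bot)
      have := (Subgroup.map_eq_bot_iff M).mp hb
      rw [hker] at this
      exact hLM.not_ge this
    have hne := Cfsg.Lib.Transfer.inf_center_ne_bot (IsPGroup.of_card hcardKb) Mb hMb0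
    obtain ⟨z, hz, hz1⟩ : ∃ z ∈ Mb ⊓ Subgroup.center Kb, z ≠ 1 := by
      by_contra hcon
      push Not at hcon
      exact hne ((Subgroup.eq_bot_iff_forall _).mpr hcon)
    obtain ⟨z', hz', hzz'⟩ := Subgroup.mem_subgroupOf.mp hz.1
    let C : Subgroup G :=
      { carrier := {m | m ∈ M ∧ ∀ x ∈ K, π x * π m = π m * π x}
        one_mem' := ⟨M.one_mem, fun x _ => by simp⟩
        mul_mem' := fun {a b} ha hb => ⟨M.mul_mem ha.1 hb.1, fun x hx => by
          rw [map_mul, ← mul_assoc, ha.2 x hx, mul_assoc, hb.2 x hx, mul_assoc]⟩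
        inv_mem' := fun {a} ha => ⟨M.inv_mem ha.1, fun x hx => by
          rw [map_inv]; exact (show Commute (π x) (π a) from ha.2 x hx).inv_right⟩ }
    have hCn : C.Normal := ⟨fun a ha g => ⟨hMn.conj_mem a ha.1 g, fun x hx => by
      have h1 := ha.2 (g⁻¹ * x * g) (by simpa using hKn.conj_mem x hx g⁻¹)
      simp only [map_mul, map_inv] at h1 ⊢
      calc π x * (π g * π a * (π g)⁻¹) =
            π g * ((π g)⁻¹ * π x * π g * π a) * (π g)⁻¹ := by group
        _ = π g * (π a * ((π g)⁻¹ * π x * π g)) * (π g)⁻¹ := by rw [h1]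
        _ = π g * π a * (π g)⁻¹ * π x := by group⟩⟩
    have hLC : L ≤ C := fun l hl => ⟨hLM.le hl, fun x _ => by
      rw [MonoidHom.mem_ker.mp (show l ∈ π.ker by rw [hker]; exact hl), mul_one, one_mul]⟩
    rcases hMmin C hCn hLC (fun m hm => hm.1) with he | he
    · have hmem : z' ∈ C := ⟨hz', fun x hx => by
        have := Subgroup.mem_center_iff.mp hz.2 ⟨π x, ⟨x, hx, rfl⟩⟩
        have h2 := congrArg Subtype.val this
        simp only [Subgroup.coe_mul] at h2
        rw [← hzz'] at h2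
        exact h2⟩
      rw [he] at hmem
      refine hz1 (Subtype.ext ?_)
      show (z : G ⧸ L) = 1
      rw [← show π z' = (z : G ⧸ L) from hzz']
      exact MonoidHom.mem_ker.mp (show z' ∈ π.ker by rw [hker]; exact hmem)
    · refine hQnot fun x hx m hm => ?_
      have := (he.ge hm).2 x hx.2
      rw [← hker, MonoidHom.mem_ker, map_mul, map_mul, map_mul, this, map_inv, map_inv,
        mul_inv_cancel_right, mul_inv_cancel]
  -- commuting operators of `Q`
  have hAmul : ∀ g h : G, ∃ a : ℂ, a ≠ 0 ∧ ∀ u, A g (A h u) = a • A (g * h) u := fun g h =>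
    intertwines_unique hP hU (hA (g * h)) (intertwines_mul hP (hA g) (hA h))
  have hAproj : IsProj A := hAmul
  have hAscal : ∀ l ∈ L, ∃ a : ℂ, a ≠ 0 ∧ ∀ u, A l u = a • u := by
    intro l hl
    obtain ⟨b, hb, hb'⟩ := intertwines_unique hP hU
      (intertwines_self hU.inv ⟨l, hLM.le hl⟩ (A := rM ⟨l, hLM.le hl⟩) fun u => rfl) (hA l)
    obtain ⟨s, hs⟩ := hLscal l hl
    have hs0 : s ≠ 0 := by
      intro h0
      refine hirr.1 (eq_bot_iff.mpr fun v _ => (Submodule.mem_bot ℂ).mpr ?_)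
      have := hs v
      rw [h0, zero_smul] at this
      exact (P l).map_eq_zero_iff.mp this
    refine ⟨b * s, mul_ne_zero hb hs0, fun u => ?_⟩
    rw [hb', mul_smul]
    congr 1
    exact Subtype.ext (hs u)
  haveI : Nontrivial U := Submodule.nontrivial_iff_ne_bot.mpr hU.ne_bot
  have hcommA : ∀ x ∈ Q, ∀ y ∈ Q, ∀ u, A x (A y u) = A y (A x u) := by
    intro x hx y hy
    obtain ⟨a₁, ha₁, h₁⟩ := hAmul x y
    obtain ⟨a₂, ha₂, h₂⟩ := hAmul y x
    have hlmem : x * y * x⁻¹ * y⁻¹ ∈ L := hMHL.le ⟨hKcomm x hx.2 y hy.2,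
      H.mul_mem (H.mul_mem (H.mul_mem hx.1 hy.1) (H.inv_mem hx.1)) (H.inv_mem hy.1)⟩
    obtain ⟨a₃, ha₃, h₃⟩ := hAmul (x * y * x⁻¹ * y⁻¹) (y * x)
    obtain ⟨a₄, ha₄, h₄⟩ := hAscal _ hlmem
    rw [show x * y * x⁻¹ * y⁻¹ * (y * x) = x * y by group] at h₃
    set ω := a₁ * a₃⁻¹ * a₄ * a₂⁻¹ with hω
    have hω' : ∀ u, A x (A y u) = ω • A y (A x u) := by
      intro u
      rw [h₂, smul_smul, hω, mul_assoc _ a₂⁻¹, inv_mul_cancel₀ ha₂, mul_one, h₁]
      have := h₃ u
      rw [h₄] at this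
      rw [mul_smul, this, smul_smul, mul_assoc, inv_mul_cancel₀ ha₃, mul_one]
    have hωc : ω ^ c = 1 := by
      have hlin : (A x : U →ₗ[ℂ] U).comp (A y : U →ₗ[ℂ] U) =
          ω • (A y : U →ₗ[ℂ] U).comp (A x : U →ₗ[ℂ] U) := LinearMap.ext hω'
      have hdet := congrArg LinearMap.det hlin
      rw [LinearMap.det_smul, LinearMap.det_comp, LinearMap.det_comp, ← hc, mul_comm] at hdet
      have hne : LinearMap.det (A y : U →ₗ[ℂ] U) * LinearMap.det (A x : U →ₗ[ℂ] U) ≠ 0 :=
        mul_ne_zero (LinearEquiv.isUnit_det' _).ne_zero (LinearEquiv.isUnit_det' _).ne_zero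
      exact (mul_eq_right₀ hne).mp hdet.symm
    have hiter : ∀ (i : ℕ) u, (A x)^[i] (A y u) = ω ^ i • A y ((A x)^[i] u) := by
      intro i
      induction i with
      | zero => simp
      | succ i hi =>
        intro u
        rw [Function.iterate_succ_apply', Function.iterate_succ_apply', hi, map_smul, hω',
          smul_smul, pow_succ]
    have hiter2 : ∀ i : ℕ, ∃ a : ℂ, a ≠ 0 ∧ ∀ u, (A x)^[i] u = a • A (x ^ i) u := by
      intro i
      induction i with
      | zero =>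
        obtain ⟨b, hb, hb'⟩ := map_one_scalar hAproj
        refine ⟨b⁻¹, inv_ne_zero hb, fun u => ?_⟩
        rw [pow_zero, hb', smul_smul, inv_mul_cancel₀ hb, one_smul]
        rfl
      | succ i hi =>
        obtain ⟨a, ha, ha'⟩ := hi
        obtain ⟨b, hb, hb'⟩ := hAmul x (x ^ i)
        refine ⟨a * b, mul_ne_zero ha hb, fun u => ?_⟩
        rw [Function.iterate_succ_apply', ha', map_smul, hb', smul_smul, pow_succ']
    have hωq : ω ^ q = 1 := by
      obtain ⟨a, ha, ha'⟩ := hiter2 q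
      obtain ⟨b, hb, hb'⟩ := hAscal (x ^ q)
        (hMHL.le ⟨hKpow x hx.2, H.pow_mem hx.1 q⟩)
      obtain ⟨u, hu⟩ := exists_ne (0 : U)
      have h := hiter q u
      rw [ha', ha', hb', hb', map_smul, map_smul, smul_smul, smul_smul] at h
      have hne : A y u ≠ 0 := fun h0 => hu ((A y).map_eq_zero_iff.mp h0)
      have h2 := smul_left_injective ℂ hne h
      exact (mul_eq_right₀ (mul_ne_zero ha hb)).mp h2.symm
    have hω1 : ω = 1 := by
      have hcop : Nat.Coprime q c :=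
        ((Nat.coprime_primes hq hp).mpr hqp').pow_right k |>.coprime_dvd_right
          (hcp ▸ dvd_mul_right c c)
      have := (pow_gcd_eq_one (a := ω) (m := q) (n := c)).mpr ⟨hωq, hωc⟩
      rwa [Nat.Coprime.gcd_eq_one hcop, pow_one] at this
    intro u
    rw [hω' u, hω1, one_smul]
  -- a common eigenvector
  obtain ⟨Z₁, -, hZ₁⟩ := exists_minInv (N := Q) (bot_ne_top (α := Submodule ℂ U)).symm
    (inv_top (P := A) Q)
  have hsc : ∀ x : Q, ∃ a : ℂ, ∀ z ∈ Z₁, A (x : G) z = a • z := by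
    intro x
    obtain ⟨a, ha⟩ := schur hZ₁
      (((A (x : G) : U →ₗ[ℂ] U)).restrict fun z hz => hZ₁.inv x x.2 z hz)
      fun n hn z => Subtype.ext (hcommA x x.2 n hn z)
    exact ⟨a, fun z hz => congrArg Subtype.val (ha ⟨z, hz⟩)⟩
  choose χ₀ hχ₀ using hsc
  obtain ⟨u₀, hu₀Z, hu₀⟩ := Submodule.exists_mem_ne_zero_of_ne_bot hZ₁.ne_bot
  haveI : Fintype Q := Fintype.ofFinite Q
  -- the projections on common eigenspaces
  let Eig : (Q → ℂ) → Prop := fun χ => ∃ u : U, u ≠ 0 ∧ ∀ x : Q, A (x : G) u = χ x • u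
  let E : (Q → ℂ) → (U →ₗ[ℂ] U) := fun χ =>
    (Fintype.card Q : ℂ)⁻¹ • ∑ x : Q, (χ x)⁻¹ • (A (x : G) : U →ₗ[ℂ] U)
  have hE : ∀ χ u, E χ u = (Fintype.card Q : ℂ)⁻¹ • ∑ x : Q, (χ x)⁻¹ • A (x : G) u := fun χ u => by
    simp [E, LinearMap.sum_apply]
  have hQc : (Fintype.card Q : ℂ) ≠ 0 := Nat.cast_ne_zero.mpr Fintype.card_ne_zero
  have hχne : ∀ χ, Eig χ → ∀ x, χ x ≠ 0 := by
    rintro χ ⟨u, hu, hχ⟩ x h0
    have := hχ x
    rw [h0, zero_smul] at this
    exact hu ((A (x : G)).map_eq_zero_iff.mp this)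
  have hEfix : ∀ χ, Eig χ → ∀ u, (∀ x : Q, A (x : G) u = χ x • u) → E χ u = u := by
    intro χ hχ u hu
    rw [hE, Finset.sum_congr rfl fun (x : Q) _ => show (χ x)⁻¹ • A (x : G) u = u by
      rw [hu, smul_smul, inv_mul_cancel₀ (hχne χ hχ x), one_smul],
      Finset.sum_const, Finset.card_univ, ← Nat.cast_smul_eq_nsmul ℂ, smul_smul,
      inv_mul_cancel₀ hQc, one_smul]
  have hEeig : ∀ χ, Eig χ → ∀ (y : Q) u, A (y : G) (E χ u) = χ y • E χ u := by
    intro χ hχ y u
    rw [hE, map_smul, smul_comm (χ y), map_sum, Finset.smul_sum (r := χ y)]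
    congr 1
    refine Fintype.sum_equiv (Equiv.mulLeft y) _ _ fun x => ?_
    rw [map_smul]
    obtain ⟨s, hs, hs'⟩ := hAmul (y : G) (x : G)
    obtain ⟨v, hv, hv'⟩ := hχ
    have hrel : χ y * χ x = s * χ (y * x) := by
      refine smul_left_injective ℂ hv ?_
      show (χ y * χ x) • v = (s * χ (y * x)) • v
      rw [mul_smul, mul_smul, ← hv' (y * x), Subgroup.coe_mul, ← hs', hv', map_smul, hv',
        smul_comm]
    show (χ x)⁻¹ • A (y : G) (A (x : G) u) = χ y • (χ (y * x))⁻¹ • A ((y * x : Q) : G) u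
    rw [hs', Subgroup.coe_mul, smul_smul, smul_smul]
    congr 1
    have := hχne χ ⟨v, hv, hv'⟩ x
    have := hχne χ ⟨v, hv, hv'⟩ (y * x)
    field_simp
    linear_combination -hrel
  have hEcomm : ∀ χ (y : Q) u, E χ (A (y : G) u) = A (y : G) (E χ u) := by
    intro χ y u
    rw [hE, hE, map_smul, map_sum]
    congr 1
    refine Finset.sum_congr rfl fun x _ => ?_
    rw [map_smul, hcommA x x.2 y y.2]
  have hEorth : ∀ χ χ', Eig χ → Eig χ' → χ ≠ χ' → ∀ u, E χ (E χ' u) = 0 := by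
    intro χ χ' hχ hχ' hne u
    obtain ⟨y, hy⟩ := Function.ne_iff.mp hne
    have h1 := hEeig χ hχ y (E χ' u)
    rw [← hEcomm, hEeig χ' hχ' y, map_smul] at h1
    have h2 : (χ' y - χ y) • E χ (E χ' u) = 0 := by rw [sub_smul, h1, sub_self]
    exact (smul_eq_zero.mp h2).resolve_left (sub_ne_zero.mpr (Ne.symm hy))
  have hχ₀e : Eig χ₀ := ⟨u₀, hu₀, fun x => hχ₀ x u₀ hu₀Z⟩
  have hEne : E χ₀ ≠ LinearMap.id := by
    intro hid
    refine hQnot fun x hx m hm => ?_
    have hscal : ∀ u, A x u = χ₀ ⟨x, hx⟩ • u := fun u => by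
      have := hEeig χ₀ hχ₀e ⟨x, hx⟩ u
      rwa [hid] at this
    -- the part of `M` acting by scalars on `U`
    let N0 : Subgroup G :=
      { carrier := {z | z ∈ M ∧ ∃ a : ℂ, ∀ u : U, P z u = a • (u : V)}
        one_mem' := ⟨M.one_mem, by
          obtain ⟨a, -, ha⟩ := map_one_scalar hP
          exact ⟨a, fun u => ha u⟩⟩
        mul_mem' := fun {z z'} hz hz' => ⟨M.mul_mem hz.1 hz'.1, by
          obtain ⟨a, ha⟩ := hz.2
          obtain ⟨a', ha'⟩ := hz'.2
          obtain ⟨s, hs, hs'⟩ := hP z z'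
          refine ⟨s⁻¹ * (a' * a), fun u => ?_⟩
          have := hs' (u : V)
          rw [ha', map_smul, ha, smul_smul] at this
          rw [mul_smul, this, smul_smul, inv_mul_cancel₀ hs, one_smul]⟩
        inv_mem' := fun {z} hz => ⟨M.inv_mem hz.1, by
          obtain ⟨a, ha⟩ := hz.2
          obtain ⟨s, hs, hs'⟩ := hP z⁻¹ z
          obtain ⟨b, hb, hb'⟩ := map_one_scalar hP
          have ha0 : a ≠ 0 := by
            intro h0
            obtain ⟨u, hu⟩ := exists_ne (0 : U)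
            have := ha u
            rw [h0, zero_smul] at this
            exact hu (Subtype.ext ((P z).map_eq_zero_iff.mp this))
          refine ⟨a⁻¹ * (s * b), fun u => ?_⟩
          have := hs' (u : V)
          rw [ha, map_smul, inv_mul_cancel, hb', smul_smul] at this
          rw [mul_smul, ← this, smul_smul, inv_mul_cancel₀ ha0, one_smul]⟩ }
    have hN0n : N0.Normal := ⟨fun z hz g => ⟨hMn.conj_mem z hz.1 g, by
      obtain ⟨a, ha⟩ := hz.2
      let z' : M := ⟨g * z * g⁻¹, hMn.conj_mem z hz.1 g⟩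
      obtain ⟨s, hs, hrel⟩ := conj_rel hP g (z' : G)
      have hzz : z = g⁻¹ * (z' : G) * g := by simp [z', mul_assoc]
      rw [← hzz] at hrel
      refine ⟨s * a, fun u => ?_⟩
      obtain ⟨v, rfl⟩ := (A g).surjective u
      have := congrArg Subtype.val (hA g z' ⟨z, hz.1⟩ s hzz hrel v)
      rw [coe_res, show res hU.inv ⟨z, hz.1⟩ v = a • v from Subtype.ext (ha v), map_smul,
        smul_smul, Submodule.coe_smul] at this
      exact this⟩⟩
    have hN0 : N0 = L := by
      refine (hMmin N0 hN0n (fun l hl => ⟨hLM.le hl, (hLscal l hl).imp fun a ha u => ha u⟩)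
        fun z hz => hz.1).resolve_right fun he => hc1 ?_
      obtain ⟨u, hu⟩ := exists_ne (0 : U)
      have hline : Submodule.span ℂ {(u : V)} = U :=
        (hU.eq_bot_or_eq _ ((Submodule.span_singleton_le_iff_mem _ _).mpr u.2) (fun z hz v hv => by
          obtain ⟨a, ha⟩ := (he.ge hz).2
          obtain ⟨b, rfl⟩ := Submodule.mem_span_singleton.mp hv
          rw [map_smul, ha, smul_smul]
          exact Submodule.smul_mem _ _ (Submodule.mem_span_singleton_self _))).resolve_left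
            fun h => hu (Subtype.ext ((Submodule.mem_bot ℂ).mp
              (h ▸ Submodule.mem_span_singleton_self (u : V))))
      rw [hc, ← hline, finrank_span_singleton (fun h => hu (Subtype.ext h))]
    rw [← hN0]
    let m' : M := ⟨x * m * x⁻¹, hMn.conj_mem m hm x⟩
    obtain ⟨s, hs, hrel⟩ := conj_rel hP x (m' : G)
    have hmm : m = x⁻¹ * (m' : G) * x := by simp [m', mul_assoc]
    rw [← hmm] at hrel
    obtain ⟨t, ht, ht'⟩ := hP (m' : G) m⁻¹
    obtain ⟨r, hr, hr'⟩ := hP m m⁻¹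
    obtain ⟨b, hb, hb'⟩ := map_one_scalar hP
    refine ⟨M.mul_mem (hMn.conj_mem m hm x) (M.inv_mem hm), t⁻¹ * (s * (r * b)), fun u => ?_⟩
    have hχ0 := hχne χ₀ hχ₀e ⟨x, hx⟩
    have hinvU := hU.inv m⁻¹ (M.inv_mem hm) u u.2
    have h1 := congrArg Subtype.val (hA x m' ⟨m, hm⟩ s hmm hrel ⟨P m⁻¹ u, hinvU⟩)
    rw [hscal, hscal, map_smul, Submodule.coe_smul, Submodule.coe_smul, Submodule.coe_smul,
      coe_res, coe_res, smul_comm s] at h1
    have h2 : P (m' : G) (P m⁻¹ u) = s • P m (P m⁻¹ u) := smul_right_injective V hχ0 h1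
    rw [ht', hr', mul_inv_cancel, hb', smul_smul, smul_smul] at h2
    show P ((m' : G) * m⁻¹) u = _
    rw [mul_smul, ← mul_assoc, ← h2, smul_smul, inv_mul_cancel₀ ht, one_smul]
  -- the system of imprimitivity on the multiplicity space
  let Xc : (Q → ℂ) → Submodule ℂ (homN hU.inv ⊤) := fun χ =>
    LinearMap.range (Φ.comp (LinearMap.lcomp ℂ X (E χ)))
  have hXc : ∀ χ f, f ∈ Xc χ ↔ ∃ g : U →ₗ[ℂ] X, Φ (g.comp (E χ)) = f := fun χ f => Iff.rfl
  have htrans : ∀ h ∈ H, ∀ χ, Eig χ → ∃ χ', Eig χ' ∧ tr PS h (Xc χ) = Xc χ' := by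
    intro h hh χ hχ
    let σ : Q ≃ Q :=
      { toFun := fun x => ⟨h * x * h⁻¹, hHQ h hh x x.2⟩
        invFun := fun x => ⟨h⁻¹ * x * h, by simpa using hHQ h⁻¹ (H.inv_mem hh) x x.2⟩
        left_inv := fun x => Subtype.ext (by simp [mul_assoc])
        right_inv := fun x => Subtype.ext (by simp [mul_assoc]) }
    have hk : ∀ x : Q, ∃ a : ℂ, a ≠ 0 ∧ ∀ u, A (σ x : G) (A h u) = a • A h (A (x : G) u) := by
      intro x
      obtain ⟨a, ha, h1⟩ := hAmul (σ x : G) h
      obtain ⟨b, hb, h2⟩ := hAmul h (x : G)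
      refine ⟨a * b⁻¹, mul_ne_zero ha (inv_ne_zero hb), fun u => ?_⟩
      rw [h1, h2, smul_smul, mul_assoc, inv_mul_cancel₀ hb, mul_one,
        show ((σ x : Q) : G) * h = h * x by simp [σ, mul_assoc]]
    choose a ha ha' using hk
    let χ' : Q → ℂ := fun y => a (σ.symm y) * χ (σ.symm y)
    have hχ' : Eig χ' := by
      obtain ⟨v, hv, hv'⟩ := hχ
      refine ⟨A h v, fun h0 => hv ((A h).map_eq_zero_iff.mp h0), fun y => ?_⟩
      have := ha' (σ.symm y) v
      rw [Equiv.apply_symm_apply, hv', map_smul, smul_smul] at this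
      exact this
    have hEE : ∀ u, E χ ((A h).symm u) = (A h).symm (E χ' u) := by
      intro u
      apply (A h).injective
      rw [LinearEquiv.apply_symm_apply, hE, hE, map_smul, map_sum]
      congr 1
      refine Fintype.sum_equiv σ _ _ fun x => ?_
      rw [map_smul]
      show (χ x)⁻¹ • A h (A (x : G) ((A h).symm u)) = (χ' (σ x))⁻¹ • A (σ x : G) u
      have := ha' x ((A h).symm u)
      rw [LinearEquiv.apply_symm_apply] at this
      rw [this, smul_smul]
      congr 1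
      show (χ x)⁻¹ = (a (σ.symm (σ x)) * χ (σ.symm (σ x)))⁻¹ * a x
      rw [Equiv.symm_apply_apply, mul_inv, mul_comm (a x)⁻¹, mul_assoc, inv_mul_cancel₀ (ha x),
        mul_one]
    refine ⟨χ', hχ', le_antisymm ?_ fun f hf => ?_⟩
    · rintro _ ⟨f, hf, rfl⟩
      obtain ⟨g, rfl⟩ := (hXc χ f).mp hf
      obtain ⟨g₁, hg₁⟩ := hconj h hh g
      refine (hXc χ' _).mpr ⟨g₁, (hequiv h hh _ _ fun u => ?_).symm⟩
      show (g₁ (E χ' u) : V) = P h (g (E χ ((A h).symm u)))
      rw [hEE, hg₁]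
    · obtain ⟨g₁, rfl⟩ := (hXc χ' f).mp hf
      let g : U →ₗ[ℂ] X :=
        (((P h).symm : V →ₗ[ℂ] V).comp (X.subtype.comp (g₁.comp (A h : U →ₗ[ℂ] U)))).codRestrict X
          fun u => hX.symm_mem hP hh (g₁ _).2
      refine mem_tr.mpr ⟨Φ (g.comp (E χ)), (hXc χ _).mpr ⟨g, rfl⟩, hequiv h hh _ _ fun u => ?_⟩
      show (g₁ (E χ' u) : V) = P h ((P h).symm (g₁ (A h (E χ ((A h).symm u))) : V))
      rw [LinearEquiv.apply_symm_apply, hEE, LinearEquiv.apply_symm_apply]
  have hXc0 : Xc χ₀ ≠ ⊥ := by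
    intro h
    obtain ⟨g, -, hg⟩ := Submodule.exists_mem_ne_zero_of_ne_bot hU0
    obtain ⟨v, hv⟩ : ∃ v, g v ≠ 0 := by
      by_contra hcon
      push Not at hcon
      exact hg (LinearMap.ext hcon)
    obtain ⟨u', hu'⟩ : ∃ f : U →ₗ[ℂ] ℂ, f u₀ = 1 :=
      Module.Projective.exists_dual_ne_zero ℂ hu₀ |>.elim fun f hf =>
        ⟨(f u₀)⁻¹ • f, by simp [inv_mul_cancel₀ hf]⟩
    let g' : U →ₗ[ℂ] X := u'.smulRight (g v)
    have hmem : Φ (g'.comp (E χ₀)) ∈ Xc χ₀ := (hXc _ _).mpr ⟨g', rfl⟩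
    rw [h, Submodule.mem_bot, ← map_zero Φ] at hmem
    have := LinearMap.congr_fun (hΦinj hmem) u₀
    rw [LinearMap.comp_apply, hEfix χ₀ hχ₀e u₀ fun x => hχ₀ x u₀ hu₀Z, LinearMap.zero_apply] at this
    simp [g', hu', hv] at this
  let TT := stab hPS (Xc χ₀)
  have hTTne : TT ≠ ⊤ := by
    intro h
    have htop := hirrS.eq_top_of_stab hPS hXc0 h
    refine hEne (LinearMap.ext fun u => ?_)
    by_contra hne
    rw [LinearMap.id_apply] at hne
    obtain ⟨f, hf⟩ := Module.Projective.exists_dual_ne_zero ℂ (sub_ne_zero.mpr hne)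
    obtain ⟨g, -, hg⟩ := Submodule.exists_mem_ne_zero_of_ne_bot hU0
    obtain ⟨v, hv⟩ : ∃ v, g v ≠ 0 := by
      by_contra hcon
      push Not at hcon
      exact hg (LinearMap.ext hcon)
    let g' : U →ₗ[ℂ] X := f.smulRight (g v)
    obtain ⟨g₂, hg₂⟩ := (hXc χ₀ (Φ g')).mp (htop ▸ Submodule.mem_top)
    have heq := hΦinj hg₂
    have h2 : g' (E χ₀ u) = g' u := by
      rw [← heq, LinearMap.comp_apply, LinearMap.comp_apply,
        hEfix χ₀ hχ₀e (E χ₀ u) fun x => hEeig χ₀ hχ₀e x u]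
    rw [LinearMap.smulRight_apply, LinearMap.smulRight_apply, ← sub_eq_zero, ← sub_smul,
      ← map_sub, smul_eq_zero] at h2
    exact h2.elim hf hv
  refine ih (finrank ℂ (homN hU.inv ⊤)) ?_ _ PS rfl hPS hirrS hqpS ⟨TT, hTTne, Xc χ₀, hXc0,
    (inv_iff hPS).mpr le_rfl, le_antisymm (finrank_le_index hPS hirrS hXc0 ((inv_iff hPS).mpr le_rfl)) ?_⟩
  · rw [← hn, hdimV]
    have : 0 < finrank ℂ (homN hU.inv ⊤) := by rw [hdimS]; positivity
    exact lt_mul_left this (by omega)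
  -- independence of the translates
  haveI : Fintype (G ⧸ TT) := Fintype.ofFinite _
  have hrep : ∀ q : G ⧸ TT, ∃ χ, Eig χ ∧ tr PS q.out (Xc χ₀) = Xc χ := by
    intro q
    obtain ⟨m, hm, h, hh, hmh⟩ := Subgroup.mem_sup_of_normal_left.mp
      (hsup.ge (Subgroup.mem_top q.out))
    obtain ⟨χ, hχ, hχ'⟩ := htrans h hh χ₀ hχ₀e
    exact ⟨χ, hχ, by rw [← hmh, ← tr_tr hPS, hχ', mem_stab.mp (hMstab (Xc χ) hm)]⟩
  choose χq hχq hχq' using hrep
  have hinjχ : Function.Injective χq := by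
    intro q q' h
    have h2 := (hχq' q).trans ((congrArg Xc h).trans (hχq' q').symm)
    have h3 : q.out⁻¹ * q'.out ∈ TT := by
      refine mem_stab.mpr ?_
      rw [← tr_tr hPS, ← h2, tr_tr hPS, inv_mul_cancel, tr_one hPS]
    rw [← QuotientGroup.out_eq' q, ← QuotientGroup.out_eq' q']
    exact QuotientGroup.eq.mpr h3
  let Ψ : (∀ q : G ⧸ TT, Xc (χq q)) →ₗ[ℂ] homN hU.inv ⊤ :=
    ∑ q, (Xc (χq q)).subtype.comp (LinearMap.proj q)
  have hΨ : Function.Injective Ψ := by
    intro w w' hw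
    have hrep2 : ∀ (w : ∀ q : G ⧸ TT, Xc (χq q)) q,
        ∃ g : U →ₗ[ℂ] X, Φ (g.comp (E (χq q))) = w q := fun w q => (hXc _ _).mp (w q).2
    choose g hg using hrep2
    have h0 : ∑ q, (g w q).comp (E (χq q)) = ∑ q, (g w' q).comp (E (χq q)) := by
      apply hΦinj
      rw [map_sum, map_sum]
      simp only [hg]
      simpa [Ψ, LinearMap.sum_apply] using hw
    funext j
    apply Subtype.ext
    rw [← hg w j, ← hg w' j]
    congr 1
    ext u : 1
    have h1 := LinearMap.congr_fun h0 (E (χq j) u)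
    rw [LinearMap.sum_apply, LinearMap.sum_apply,
      Finset.sum_eq_single j (fun q _ hqj => by
        rw [LinearMap.comp_apply, hEorth _ _ (hχq q) (hχq j) (hinjχ.ne hqj), map_zero])
      (fun h => absurd (Finset.mem_univ j) h),
      Finset.sum_eq_single j (fun q _ hqj => by
        rw [LinearMap.comp_apply, hEorth _ _ (hχq q) (hχq j) (hinjχ.ne hqj), map_zero])
      (fun h => absurd (Finset.mem_univ j) h), LinearMap.comp_apply, LinearMap.comp_apply,
      hEfix _ (hχq j) _ fun x => hEeig _ (hχq j) x u] at h1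
    rw [LinearMap.comp_apply, LinearMap.comp_apply, h1]
  haveI : ∀ q : G ⧸ TT, Module.Free ℂ (Xc (χq q)) := fun q => Module.Free.of_divisionRing ℂ (Xc (χq q))
  have := LinearMap.finrank_le_finrank_of_injective hΨ
  rw [Module.finrank_pi_fintype, Finset.sum_congr rfl fun q _ =>
    show finrank ℂ (Xc (χq q)) = finrank ℂ (Xc χ₀) by rw [← hχq' q, finrank_tr],
    Finset.sum_const, Finset.card_univ, ← Nat.card_eq_fintype_card, smul_eq_mul] at this
  exact this

end Cfsg.Lib.Characters.Proj
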