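import Cfsg.Agent.S1516
import Cfsg.Agent.Lib.Characters.Coherence.Frobenius
import Cfsg.Agent.Lib.Blocks.Codegree

/-!
# Extending coherence along a section of the kernel
-/

set_option autoImplicit false
set_option linter.unusedSectionVars false
open Cfsg

namespace Cfsg.Lib.Characters.CoherenceStep

open Cfsg Cfsg.Lib.Characters Cfsg.Lib.Characters.Coherence
open scoped ComplexConjugate

universe u v

/-- Constituents of the restriction are trivial wherever the character is. -/
theorem exists_constituent_triv {X : Type u} [Group X] [Finite X] (C : Subgroup X) [Fintype C]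
    {θ : X → ℂ} (hθ : IsIrrCharacter X θ) :
    ∃ φ : C → ℂ, IsIrrCharacter C φ ∧ degC θ ≤ C.index * degC φ ∧
      ∀ c : C, θ c = θ 1 → φ c = φ 1 := by
  classical
  haveI := Fintype.ofFinite X
  obtain ⟨m, hm⟩ := exists_decomposition (isCharacter_restrict hθ.isCharacter C)
  obtain ⟨φ, hφ⟩ : ∃ φ : IrrCharacter C, m φ ≠ 0 := by
    by_contra hcon
    push Not at hcon
    refine hθ.one_ne_zero ?_
    have := congrFun hm 1
    simpa [hcon] using this
  refine ⟨φ, φ.2, ?_, ?_⟩
  · have hne : classInner (indFun C (φ : C → ℂ)) θ ≠ 0 := by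
      rw [classInner_indFun C _ hθ.isClassFunction, ← conj_classInner, hm, classInner_sum_irr]
      simpa using hφ
    refine (constituent_degree (isCharacter_indFun C φ.2.isCharacter) hθ hne
      (d := C.index * degC (φ : C → ℂ)) ?_ (degC_spec hθ.isCharacter)).1
    rw [indFun_one_apply, degC_spec φ.2.isCharacter, Nat.cast_mul]
  · intro c hc
    have hc' : (fun x : C => θ x) c = (fun x : C => θ x) 1 := by
      simpa using hc
    rw [hm] at hc'
    have hre : ∀ ψ : IrrCharacter C, ((ψ : C → ℂ) c).re ≤ ((ψ : C → ℂ) 1).re := fun ψ =>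
      (Complex.re_le_norm _).trans (char_norm_le_degree ψ.2.isCharacter c)
    have hsum : ∑ ψ : IrrCharacter C, (m ψ : ℝ) * ((ψ : C → ℂ) c).re =
        ∑ ψ : IrrCharacter C, (m ψ : ℝ) * ((ψ : C → ℂ) 1).re := by
      have h := congrArg Complex.re hc'
      simpa [Finset.sum_apply, Complex.re_sum] using h
    have h := (Finset.sum_eq_sum_iff_of_le
      fun ψ _ => mul_le_mul_of_nonneg_left (hre ψ) (Nat.cast_nonneg _)).mp hsum φ (Finset.mem_univ _)
    have h1 : ((φ : C → ℂ) c).re = ((φ : C → ℂ) 1).re :=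
      mul_left_cancel₀ (Nat.cast_ne_zero.mpr hφ) h
    have h2 := char_norm_le_degree φ.2.isCharacter c
    rw [← h1] at h2
    have h3 : ‖(φ : C → ℂ) c‖ = ((φ : C → ℂ) c).re := le_antisymm h2 (Complex.re_le_norm _)
    have h4 : (φ : C → ℂ) c = (‖(φ : C → ℂ) c‖ : ℂ) :=
      Complex.eq_coe_norm_of_nonneg (Complex.re_eq_norm.mp h3.symm)
    rw [h4, h3, h1, degC_spec φ.2.isCharacter]
    simp

/-- The degree bound for a character trivial on `B` when `D` is central in `C` modulo `B`. -/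
theorem degC_sq_le_index {X : Type u} [Group X] [Finite X] {φ : X → ℂ} (hφ : IsIrrCharacter X φ)
    (D B : Subgroup X) [B.Normal] (hB : ∀ b ∈ B, φ b = φ 1)
    (hcent : ∀ x ∈ D, ∀ y : X, x * y * x⁻¹ * y⁻¹ ∈ B) : degC φ ^ 2 ≤ D.index := by
  classical
  haveI := Fintype.ofFinite X
  obtain ⟨ψ, -, hirr, hψ⟩ := exists_of_quotient (N := B) hφ.isCharacter hB
  have hd : φ 1 = (degC φ : ℂ) := degC_spec hφ.isCharacter
  have hψ1 : ψ 1 = (degC φ : ℂ) := by rw [← QuotientGroup.mk_one, hψ, hd]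
  have h := Cfsg.Lib.Blocks.degree_sq_le hφ hd D fun z hz => by
    rw [← hψ z]
    refine norm_eq_of_mem_center (hirr hφ) hψ1 (Subgroup.mem_center_iff.mpr fun y => ?_)
    induction y using QuotientGroup.induction_on with
    | _ y =>
      have h1 : ((z * y * z⁻¹ * y⁻¹ : X) : X ⧸ B) = 1 :=
        (QuotientGroup.eq_one_iff _).mpr (hcent z hz y)
      rw [QuotientGroup.mk_mul, QuotientGroup.mk_mul, QuotientGroup.mk_mul, QuotientGroup.mk_inv,
        QuotientGroup.mk_inv, mul_inv_eq_one, mul_inv_eq_iff_eq_mul] at h1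
      exact h1.symm
  rw [← Subgroup.card_mul_index D] at h
  exact Nat.le_of_mul_le_mul_left h Nat.card_pos

/-- A solvable group with a proper normal subgroup has a nontrivial linear character trivial on it. -/
theorem exists_linear {X : Type u} [Group X] [Finite X] (hsolv : Group.IsSolvable X)
    (A : Subgroup X) [A.Normal] (hA : A ≠ ⊤) :
    ∃ θ : X → ℂ, IsIrrCharacter X θ ∧ θ ≠ (fun _ => 1) ∧ (∀ a ∈ A, θ a = θ 1) ∧ degC θ = 1 := by
  classical
  haveI : Group.IsSolvable (X ⧸ A) :=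
    solvable_of_surjective (f := QuotientGroup.mk' A) (QuotientGroup.mk'_surjective A)
  haveI : Nontrivial (X ⧸ A) := QuotientGroup.nontrivial_iff.mpr hA
  have hlt := Group.IsSolvable.commutator_lt_top_of_nontrivial (G := X ⧸ A)
  have hcard : 1 < Nat.card ((X ⧸ A) →* ℂˣ) := by
    rw [card_hom_units]
    exact Subgroup.one_lt_index_of_ne_top hlt.ne
  haveI : Finite ((X ⧸ A) →* ℂˣ) := Nat.finite_of_card_ne_zero (by omega)
  obtain ⟨lam, hlam⟩ : ∃ lam : (X ⧸ A) →* ℂˣ, lam ≠ 1 := by
    haveI := Finite.one_lt_card_iff_nontrivial.mp hcard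
    exact exists_ne 1
  refine ⟨fun x => ((lam.comp (QuotientGroup.mk' A) x : ℂˣ) : ℂ),
    isIrrCharacter_linear _, ?_, ?_, ?_⟩
  · intro h
    refine hlam (MonoidHom.ext fun q => ?_)
    induction q using QuotientGroup.induction_on with
    | _ x => exact Units.ext (congrFun h x)
  · intro a ha
    simp [(QuotientGroup.eq_one_iff a).mpr ha]
  · simp [degC]

variable {L : Type u} [Group L] [Fintype L] {G : Type v} [Group G] [Fintype G]

/-- The norm of a character as a natural number. -/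
noncomputable def nrm (φ : L → ℂ) : ℕ := ⌊(classInner φ φ).re⌋₊

theorem nrm_spec {φ : L → ℂ} (h : IsCharacter L φ) : classInner φ φ = (nrm φ : ℂ) := by
  obtain ⟨d, hd⟩ := classInner_nat h h
  simp [nrm, hd]

theorem isCoherent_subset {S S' : Set (L → ℂ)} {τ : (L → ℂ) → (G → ℂ)} (h : IsCoherent S' {1}ᶜ τ)
    (hsub : S ⊆ S') (hne : ∃ α ∈ zspanOn S {1}ᶜ, α ≠ 0) : IsCoherent S {1}ᶜ τ := by
  obtain ⟨-, τ₁, ⟨h1, h2, h3, h4⟩, ha⟩ := h
  have hz : zspan S ⊆ zspan S' := SetLike.coe_subset_coe.mpr (Submodule.span_mono hsub)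
  exact ⟨hne, τ₁, ⟨fun a ha b hb => h1 a (hz ha) b (hz hb), fun a ha n => h2 a (hz ha) n,
    fun a ha b hb => h3 a (hz ha) b (hz hb), fun a ha => h4 a (hz ha)⟩,
    fun a ha' => ha a ⟨hz ha'.1, ha'.2⟩⟩

theorem mem_bot_family {K A : Subgroup L} {φ : L → ℂ} (h : φ ∈ inducedIrrAbove K A) :
    φ ∈ inducedIrrAbove K ⊥ := by
  obtain ⟨θ, h1, h2, -, h4⟩ := h
  refine ⟨θ, h1, h2, fun a ha => ?_, h4⟩
  rw [Subgroup.mem_bot] at ha
  rw [show a = 1 from Subtype.ext ha]

theorem conj_mem_family {K A : Subgroup L} {φ : L → ℂ} (h : φ ∈ inducedIrrAbove K A) :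
    conjFun φ ∈ inducedIrrAbove K A := by
  obtain ⟨θ, h1, h2, h3, rfl⟩ := h
  refine ⟨fun k => conj (θ k), ?_, ?_, ?_, funext fun g => conj_indFun K θ g⟩
  · exact isIrrCharacter_conj h1
  · intro hc
    refine h2 (funext fun k => ?_)
    have := congrArg conj (congrFun hc k)
    simpa using this
  · intro a ha
    exact congrArg conj (h3 a ha)

theorem conjFun_conjFun' (φ : L → ℂ) : conjFun (conjFun φ) = φ := by
  funext x; simp [conjFun]

open Classical in
/-- The step: coherence above `A` passes to coherence above `B`. -/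
theorem step (K : Subgroup L) [hK : K.Normal] (hsolv : Group.IsSolvable K)
    (τ : (L → ℂ) → (G → ℂ)) (R : (L → ℂ) → Finset (G → ℂ))
    (hS : IsCoherenceSystem (inducedIrrAbove K ⊥) τ R) (A B C D : Subgroup L) [A.Normal] [B.Normal]
    [C.Normal] [D.Normal] (hAK : A < K) (hBK : B < K) (hBD : B ≤ D) (hDC : D ≤ C) (hCK : C ≤ K)
    (hcent : ∀ x ∈ D, ∀ y ∈ C, x * y * x⁻¹ * y⁻¹ ∈ B)
    (hA : IsCoherent (inducedIrrAbove K A) {1}ᶜ τ)
    (hlt : 4 * C.index ^ 2 * D.relIndex C < (A.relIndex K - 1) ^ 2) :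
    IsCoherent (inducedIrrAbove K B) {1}ᶜ τ := by
  haveI := Fintype.ofFinite K
  haveI : (A.subgroupOf K).Normal := inferInstance
  haveI : (B.subgroupOf K).Normal := inferInstance
  -- the family above `A`
  let T : Finset (K → ℂ) := (irrFin K).filter fun θ => θ ≠ (fun _ => 1) ∧ TrivOn (A.subgroupOf K) θ
  let SA : Finset (L → ℂ) := T.image (indFun K)
  have hT : ∀ θ, θ ∈ T ↔ IsIrrCharacter K θ ∧ θ ≠ (fun _ => 1) ∧ TrivOn (A.subgroupOf K) θ := by
    intro θ; simp [T, mem_irrFin]
  have hSA : (SA : Set (L → ℂ)) = inducedIrrAbove K A := by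
    ext φ
    simp only [SA, Finset.coe_image, Set.mem_image, Finset.mem_coe, hT]
    constructor
    · rintro ⟨θ, ⟨h1, h2, h3⟩, rfl⟩
      exact ⟨θ, h1, h2, fun a ha => h3 a ha, rfl⟩
    · rintro ⟨θ, h1, h2, h3, rfl⟩
      exact ⟨θ, ⟨h1, h2, fun a ha => h3 a ha⟩, rfl⟩
  have hchar : ∀ φ ∈ inducedIrrAbove K ⊥, IsCharacter L φ := fun φ h => hS.isCharacter φ h
  have hindex : ∀ θ : K → ℂ, IsCharacter K θ → degC (indFun K θ) = K.index * degC θ := by
    intro θ hθ
    have h1 := degC_spec (isCharacter_indFun K hθ)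
    rw [indFun_one_apply, degC_spec hθ] at h1
    exact_mod_cast h1.symm
  have he : 0 < K.index := Nat.pos_of_ne_zero K.index_ne_zero_of_finite
  -- the weighted sum over the family above `A`
  have hsum : (K.index : ℝ) * ((A.relIndex K : ℝ) - 1) ≤
      ∑ φ ∈ SA, ((degC φ : ℝ) ^ 2 / (nrm φ : ℝ)) := by
    have h1 := sum_sq_trivOn (A.subgroupOf K)
    have h2 : ∑ θ ∈ T, (degC θ : ℝ) ^ 2 = (A.relIndex K : ℝ) - 1 := by
      have hone : (fun _ => 1) ∈ (irrFin K).filter (TrivOn (A.subgroupOf K)) :=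
        Finset.mem_filter.mpr ⟨mem_irrFin.mpr isIrrCharacter_one, fun _ _ => rfl⟩
      have hTe : T = ((irrFin K).filter (TrivOn (A.subgroupOf K))).erase (fun _ => 1) := by
        ext θ
        simp only [hT, Finset.mem_erase, Finset.mem_filter, mem_irrFin]
        tauto
      rw [hTe, Finset.sum_erase_eq_sub hone]
      have h1' := congrArg (fun n : ℕ => (n : ℝ)) h1
      push_cast at h1'
      rw [h1', Subgroup.relIndex]
      simp [degC]
    rw [← h2, ← Finset.sum_fiberwise_of_maps_to (g := indFun K) (t := SA)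
      (fun θ hθ => Finset.mem_image_of_mem _ hθ), Finset.mul_sum]
    refine Finset.sum_le_sum fun φ hφ => ?_
    obtain ⟨θ, hθT, rfl⟩ := Finset.mem_image.mp hφ
    obtain ⟨hθ, -, -⟩ := (hT θ).mp hθT
    set s := Nat.card {g : L // conjFn K θ g = θ} with hs
    set o := (orbitFinset K θ).card with ho
    have hso : (s : ℝ) * o = K.index * Nat.card K := by
      rw [hs, ho]
      exact_mod_cast (card_stabilizer_mul_card_orbit (N := K) θ).trans
        (by rw [← K.card_mul_index, mul_comm])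
    have hn : (nrm (indFun K θ) : ℝ) = (s : ℝ) / Nat.card K := by
      have h3 := classInner_indFun_indFun hθ hθ
      rw [nrm_spec (isCharacter_indFun K hθ.isCharacter)] at h3
      have h4 := congrArg Complex.re h3
      rw [Complex.natCast_re, hs] at *
      rw [h4, ← Complex.ofReal_natCast, ← Complex.ofReal_natCast, ← Complex.ofReal_div,
        Complex.ofReal_re]
    have hfib : ∀ ψ ∈ T.filter (fun ψ => indFun K ψ = indFun K θ),
        ψ ∈ orbitFinset K θ ∧ degC ψ = degC θ := by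
      intro ψ hψ
      obtain ⟨hψT, hψe⟩ := Finset.mem_filter.mp hψ
      obtain ⟨hψi, -, -⟩ := (hT ψ).mp hψT
      have hne : classInner (indFun K θ) (indFun K ψ) ≠ 0 := by
        rw [hψe, nrm_spec (isCharacter_indFun K hθ.isCharacter)]
        have hspos : 0 < s := by
          rw [hs]
          haveI : Nonempty {g : L // conjFn K θ g = θ} := ⟨⟨1, conjFn_one θ⟩⟩
          exact Nat.card_pos
        intro h0
        have h00 : (nrm (indFun K θ) : ℝ) = 0 := by exact_mod_cast h0
        rw [hn] at h00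
        have : 0 < (s : ℝ) / Nat.card K := div_pos (by exact_mod_cast hspos)
          (by exact_mod_cast Nat.card_pos)
        linarith
      rw [classInner_indFun_indFun hθ hψi] at hne
      obtain ⟨g, hg⟩ : ∃ g : L, conjFn K θ g = ψ := by
        by_contra hcon
        push Not at hcon
        haveI : IsEmpty {g : L // conjFn K θ g = ψ} := ⟨fun g => hcon g.1 g.2⟩
        simp at hne
      refine ⟨mem_orbitFinset.mpr ⟨g, hg.symm⟩, ?_⟩
      rw [← hg]
      simp [degC, conjFn]
      rfl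
    rw [Finset.sum_congr rfl fun ψ hψ => by rw [(hfib ψ hψ).2], Finset.sum_const, nsmul_eq_mul,
      hindex θ hθ.isCharacter, hn]
    have hcard : ((T.filter fun ψ => indFun K ψ = indFun K θ).card : ℝ) ≤ o := by
      exact_mod_cast Finset.card_le_card fun ψ hψ => (hfib ψ hψ).1
    have hK0 : (0 : ℝ) < Nat.card K := by exact_mod_cast Nat.card_pos
    have ho0 : (0 : ℝ) < o := by
      rw [ho]
      exact_mod_cast Finset.card_pos.mpr ⟨θ, mem_orbitFinset.mpr ⟨1, (conjFn_one θ).symm⟩⟩
    have he' : (0 : ℝ) < K.index := by exact_mod_cast he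
    have hs0 : (0 : ℝ) < s := by
      by_contra h0
      have : (s : ℝ) * o ≤ 0 := mul_nonpos_of_nonpos_of_nonneg (not_lt.mp h0) ho0.le
      have := mul_pos he' hK0
      linarith
    rw [div_div_eq_mul_div, le_div_iff₀ hs0]
    push_cast
    calc (K.index : ℝ) * ((T.filter fun ψ => indFun K ψ = indFun K θ).card * (degC θ : ℝ) ^ 2) * s
        ≤ (K.index : ℝ) * (o * (degC θ : ℝ) ^ 2) * s := by gcongr
      _ = (K.index : ℝ) * (degC θ : ℝ) ^ 2 * ((s : ℝ) * o) := by ring
      _ = ((K.index : ℝ) * degC θ) ^ 2 * Nat.card K := by rw [hso]; ring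
  -- a member of smallest degree above `A`
  have hA' : A.subgroupOf K ≠ ⊤ := fun h => hAK.not_ge (Subgroup.subgroupOf_eq_top.mp h)
  obtain ⟨θ₁, hθ₁, hθ₁n, hθ₁t, hθ₁d⟩ := exists_linear hsolv (A.subgroupOf K) hA'
  have hχ₁ : indFun K θ₁ ∈ SA :=
    Finset.mem_image_of_mem _ ((hT θ₁).mpr ⟨hθ₁, hθ₁n, hθ₁t⟩)
  have hd₁ : degC (indFun K θ₁) = K.index := by rw [hindex θ₁ hθ₁.isCharacter, hθ₁d, mul_one]
  -- the inequality for members above `B`
  have hbound : ∀ θ : K → ℂ, IsIrrCharacter K θ → (∀ a : K, (a : L) ∈ B → θ a = θ 1) →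
      2 * (K.index * degC θ) + 1 < A.relIndex K := by
    intro θ hθ hθB
    haveI := Fintype.ofFinite (C.subgroupOf K)
    obtain ⟨φ, hφ, hdeg, htriv⟩ := exists_constituent_triv (C.subgroupOf K) hθ
    haveI : ((B.subgroupOf K).subgroupOf (C.subgroupOf K)).Normal := inferInstance
    have h1 := degC_sq_le_index hφ ((D.subgroupOf K).subgroupOf (C.subgroupOf K))
      ((B.subgroupOf K).subgroupOf (C.subgroupOf K)) (fun b hb => htriv b (hθB b.1 hb))
      (fun x hx y => hcent _ hx _ y.2)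
    have hDi : ((D.subgroupOf K).subgroupOf (C.subgroupOf K)).index = D.relIndex C := by
      show (D.subgroupOf K).relIndex (C.subgroupOf K) = _
      exact Subgroup.relIndex_subgroupOf hCK
    have hCi : (C.subgroupOf K).index = C.relIndex K := rfl
    rw [hDi] at h1
    rw [hCi] at hdeg
    have h2 : (2 * (K.index * degC θ)) ^ 2 ≤ 4 * C.index ^ 2 * D.relIndex C := by
      calc (2 * (K.index * degC θ)) ^ 2 ≤ (2 * (K.index * (C.relIndex K * degC φ))) ^ 2 := by
            gcongr
        _ = 4 * (C.relIndex K * K.index) ^ 2 * degC φ ^ 2 := by ring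
        _ ≤ 4 * C.index ^ 2 * D.relIndex C := by
            rw [Subgroup.relIndex_mul_index hCK]
            gcongr
    have h3 := lt_of_pow_lt_pow_left₀ 2 (Nat.zero_le _) (h2.trans_lt hlt)
    omega
  -- adjoin the members one pair at a time
  have key : ∀ F : Finset (L → ℂ), ↑F ⊆ inducedIrrAbove K B →
      ∃ S₁ : Finset (L → ℂ), SA ⊆ S₁ ∧ F ⊆ S₁ ∧ ↑S₁ ⊆ inducedIrrAbove K ⊥ ∧
        (∀ φ ∈ S₁, conjFun φ ∈ S₁) ∧ IsCoherent (↑S₁ : Set (L → ℂ)) {1}ᶜ τ := by
    intro F
    induction F using Finset.induction_on with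
    | empty =>
      intro _
      refine ⟨SA, subset_rfl, Finset.empty_subset _, ?_, ?_, by rw [hSA]; exact hA⟩
      · rw [hSA]; exact fun φ h => mem_bot_family h
      · intro φ hφ
        rw [← Finset.mem_coe, hSA] at hφ ⊢
        exact conj_mem_family hφ
    | @insert χ F' hχF ih =>
      intro hsub
      rw [Finset.coe_insert, Set.insert_subset_iff] at hsub
      obtain ⟨S₁, hA₁, hF₁, hS₁, hc₁, hcoh⟩ := ih hsub.2
      by_cases hχ : χ ∈ S₁
      · exact ⟨S₁, hA₁, Finset.insert_subset hχ hF₁, hS₁, hc₁, hcoh⟩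
      have hχc : conjFun χ ∉ S₁ := fun h => hχ (conjFun_conjFun' χ ▸ hc₁ _ h)
      have hχm := mem_bot_family hsub.1
      obtain ⟨θ, hθ, -, hθB, hθe⟩ := hsub.1
      have hdχ : degC χ = K.index * degC θ := by rw [hθe, hindex θ hθ.isCharacter]
      refine ⟨S₁ ∪ {χ, conjFun χ}, hA₁.trans Finset.subset_union_left, ?_, ?_, ?_, ?_⟩
      · exact Finset.insert_subset (by simp) (hF₁.trans Finset.subset_union_left)
      · rw [Finset.coe_union, Finset.coe_pair]
        refine Set.union_subset hS₁ (Set.insert_subset hχm (Set.singleton_subset_iff.mpr ?_))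
        exact conj_mem_family hχm
      · intro φ hφ
        simp only [Finset.mem_union, Finset.mem_insert, Finset.mem_singleton] at hφ ⊢
        rcases hφ with h | rfl | rfl
        · exact Or.inl (hc₁ φ h)
        · exact Or.inr (Or.inr rfl)
        · exact Or.inr (Or.inl (conjFun_conjFun' χ))
      · rw [Finset.coe_union, Finset.coe_pair]
        refine Cfsg.Agent.S1516.result (inducedIrrAbove K ⊥) τ R hS degC nrm
          (fun φ h => degC_spec (hchar φ h)) (fun φ h => nrm_spec (hchar φ h)) S₁ hS₁ hc₁ hcoh χ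
          hχm hχ hχc (indFun K θ₁) (hA₁ hχ₁) ?_ ?_
        · rw [hd₁, hdχ]; exact dvd_mul_right _ _
        · refine lt_of_lt_of_le ?_ (hsum.trans (Finset.sum_le_sum_of_subset_of_nonneg hA₁
            fun φ _ _ => by positivity))
          rw [hd₁, hdχ]
          have hb : ((2 * (K.index * degC θ) + 1 : ℕ) : ℝ) < (A.relIndex K : ℝ) := by
            exact_mod_cast hbound θ hθ hθB
          push_cast at hb ⊢
          have he' : (0 : ℝ) < K.index := by exact_mod_cast he
          nlinarith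
  -- conclusion
  have hfin : (inducedIrrAbove K B).Finite := by
    refine ((irrFin K).image (indFun K)).finite_toSet.subset ?_
    rintro φ ⟨θ, hθ, -, -, rfl⟩
    exact Finset.mem_coe.mpr (Finset.mem_image_of_mem _ (mem_irrFin.mpr hθ))
  obtain ⟨S₁, -, hF, -, -, hcoh⟩ := key hfin.toFinset (by rw [Set.Finite.coe_toFinset])
  refine isCoherent_subset hcoh (fun φ h => hF (hfin.mem_toFinset.mpr h)) ?_
  have hB' : B.subgroupOf K ≠ ⊤ := fun h => hBK.not_ge (Subgroup.subgroupOf_eq_top.mp h)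
  obtain ⟨θ, hθ, hθn, hθt, -⟩ := exists_linear hsolv (B.subgroupOf K) hB'
  have hmem : indFun K θ ∈ inducedIrrAbove K B := ⟨θ, hθ, hθn, fun a ha => hθt a ha, rfl⟩
  refine ⟨indFun K θ - conjFun (indFun K θ), ⟨?_, ?_⟩, ?_⟩
  · exact sub_mem (Submodule.subset_span hmem) (Submodule.subset_span (conj_mem_family hmem))
  · intro x hx
    simp only [Set.mem_compl_iff, Set.mem_singleton_iff, not_not] at hx
    subst hx
    simp [conjFun, degC_spec (isCharacter_indFun K hθ.isCharacter)]
  · rw [sub_ne_zero]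
    exact (hS.conj_ne _ (mem_bot_family hmem)).symm

end Cfsg.Lib.Characters.CoherenceStep
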