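import Cfsg.Agent.Lib.Characters.CoprimeCoset
import Cfsg.Agent.Lib.Characters.Induction
import Cfsg.Agent.Lib.Characters.Isometry
import Cfsg.Agent.Lib.Characters.Permutation
import Cfsg.Prelude.Def_OddOrderChar

/-!
# The Dade isometry
-/

set_option linter.unusedSectionVars false
set_option linter.style.haveILetI false

open scoped ComplexConjugate Pointwise

namespace Cfsg.Lib.Characters

universe u

variable {G : Type u} [Group G] [Finite G] {A : Set G} {L : Subgroup G} {H : G → Subgroup G}

theorem dade_self_mem_centralizer (hD : DadeHypothesis A L H) {a : G} (ha : a ∈ A) :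
    a ∈ L ⊓ Subgroup.centralizer ({a} : Set G) :=
  ⟨hD.subset ha, Subgroup.mem_centralizer_singleton_iff.mpr rfl⟩

/-- An element of `C_G(a)` of order prime to `|C_L(a)|` lies in `H a`. -/
theorem dade_mem_H (hD : DadeHypothesis A L H) {a : G} (ha : a ∈ A) {y : G}
    (hy : y ∈ Subgroup.centralizer ({a} : Set G))
    (hcop : Nat.Coprime (orderOf y) (Nat.card ↥(L ⊓ Subgroup.centralizer ({a} : Set G)))) :
    y ∈ H a := by
  set C := Subgroup.centralizer ({a} : Set G)
  set D := L ⊓ C
  have hHC : H a ≤ C := hD.le_centralizer a ha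
  haveI : ((H a).subgroupOf C).Normal :=
    Subgroup.Normal.mk fun n hn c => Subgroup.mem_subgroupOf.mpr
      (hD.conj_mem_H a ha c c.2 n (Subgroup.mem_subgroupOf.mp hn))
  have hidx : ((H a).subgroupOf C).index ∣ Nat.card D := by
    have hsup : (H a).subgroupOf C ⊔ D.subgroupOf C = ⊤ := by
      rw [← Subgroup.subgroupOf_sup hHC inf_le_right, hD.sup_eq a ha, Subgroup.subgroupOf_self]
    rw [← Subgroup.relIndex_top_right, ← hsup, sup_comm, Subgroup.relIndex_sup_right,
      ← Nat.card_congr (Subgroup.subgroupOfEquivOfLe (inf_le_right : D ≤ C)).toEquiv]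
    exact Subgroup.index_dvd_card _
  have h1 : ((⟨y, hy⟩ : C) : C ⧸ (H a).subgroupOf C) = 1 := by
    refine orderOf_eq_one_iff.mp (Nat.eq_one_of_dvd_coprimes hcop ?_ ?_)
    · rw [← Subgroup.orderOf_mk y hy]
      exact orderOf_map_dvd (QuotientGroup.mk' _) _
    · exact (orderOf_dvd_natCard _).trans hidx
  exact Subgroup.mem_subgroupOf.mp ((QuotientGroup.eq_one_iff _).mp h1)

theorem dade_coprime_order (hD : DadeHypothesis A L H) {a b u : G} (ha : a ∈ A) (hb : b ∈ A)
    (hu : u ∈ H b) : Nat.Coprime (orderOf a) (orderOf u) := by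
  refine Nat.Coprime.coprime_dvd_right (Subgroup.orderOf_dvd_natCard _ hu) ?_
  exact (hD.coprime b hb a ha).symm.coprime_dvd_left
    (Subgroup.orderOf_dvd_natCard _ (dade_self_mem_centralizer hD ha))

/-- The `π`-part of `a u` is `a`. -/
theorem dade_conj_eq (hD : DadeHypothesis A L H) {a b u v g : G} (ha : a ∈ A) (hb : b ∈ A)
    (hu : u ∈ H a) (hv : v ∈ H b) (h : g * (a * u) * g⁻¹ = b * v) : g * a * g⁻¹ = b := by
  have hcop : Nat.Coprime (orderOf a * orderOf b) (orderOf u * orderOf v) :=
    Nat.Coprime.mul_left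
      (Nat.Coprime.mul_right (dade_coprime_order hD ha ha hu) (dade_coprime_order hD ha hb hv))
      (Nat.Coprime.mul_right (dade_coprime_order hD hb ha hu) (dade_coprime_order hD hb hb hv))
  obtain ⟨e, he1, he0⟩ := exists_piExp hcop
  have hpart : ∀ {x y : G}, Commute x y → x ^ (orderOf a * orderOf b) = 1 →
      y ^ (orderOf u * orderOf v) = 1 → (x * y) ^ e = x := by
    intro x y hc hx hy
    rw [hc.mul_pow, pow_piExp_of_left he1 hx, pow_piExp_of_right he0 hy, mul_one]
  have hcom : ∀ {x y : G}, x ∈ A → y ∈ H x → Commute x y := fun hx hy =>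
    (Subgroup.mem_centralizer_singleton_iff.mp (hD.le_centralizer _ hx hy)).symm
  have h1 := hpart (hcom ha hu) (by rw [pow_mul, pow_orderOf_eq_one, one_pow])
    (by rw [pow_mul, pow_orderOf_eq_one, one_pow])
  have h2 := hpart (hcom hb hv) (by rw [mul_comm, pow_mul, pow_orderOf_eq_one, one_pow])
    (by rw [mul_comm, pow_mul, pow_orderOf_eq_one, one_pow])
  rw [← h1, ← conj_pow, h, h2]

theorem dade_H_conj (hD : DadeHypothesis A L H) {a : G} (ha : a ∈ A) {x : G} (hx : x ∈ L) :
    H (x * a * x⁻¹) = (H a).map (MulAut.conj x).toMonoidHom := by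
  have key : ∀ (a x : G), a ∈ A → x ∈ L → ∀ u ∈ H a, x * u * x⁻¹ ∈ H (x * a * x⁻¹) := by
    intro a x ha hx u hu
    refine dade_mem_H hD (hD.conj_mem x hx a ha) ?_ ?_
    · rw [Subgroup.mem_centralizer_singleton_iff]
      have := congrArg (MulAut.conj x)
        (Subgroup.mem_centralizer_singleton_iff.mp (hD.le_centralizer a ha hu))
      simpa using this
    · refine Nat.Coprime.coprime_dvd_left ?_ (hD.coprime a ha _ (hD.conj_mem x hx a ha))
      have h1 : orderOf (x * u * x⁻¹) = orderOf u :=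
        orderOf_injective (MulAut.conj x).toMonoidHom (MulEquiv.injective _) u
      rw [h1]
      exact Subgroup.orderOf_dvd_natCard _ hu
  ext y
  rw [Subgroup.mem_map]
  constructor
  · intro hy
    refine ⟨x⁻¹ * y * x, ?_, by simp [mul_assoc]⟩
    have := key _ x⁻¹ (hD.conj_mem x hx a ha) (L.inv_mem hx) y hy
    simpa [mul_assoc] using this
  · rintro ⟨u, hu, rfl⟩
    exact key a x ha hx u hu

theorem dade_fusion_coset (hD : DadeHypothesis A L H) {a b : G} (ha : a ∈ A) (hb : b ∈ A)
    (h : ∃ u ∈ H a, ∃ v ∈ H b, ∃ g : G, g * (a * u) * g⁻¹ = b * v) :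
    ∃ x ∈ L, x * a * x⁻¹ = b := by
  obtain ⟨u, hu, v, hv, g, hg⟩ := h
  have h1 := dade_conj_eq hD ha hb hu hv hg
  obtain ⟨x, hx, hxe⟩ := hD.fusion a ha g (h1 ▸ hb)
  exact ⟨x, hx, hxe.trans h1⟩

theorem dade_normalizer_coset (hD : DadeHypothesis A L H) {a : G} (ha : a ∈ A) :
    Subgroup.normalizer ((fun u : G => a * u) '' (H a : Set G)) =
      Subgroup.centralizer ({a} : Set G) := by
  ext g
  rw [Subgroup.mem_set_normalizer_iff]
  constructor
  · intro hg
    obtain ⟨v, hv, hv'⟩ := (hg a).mp ⟨1, (H a).one_mem, mul_one a⟩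
    rw [Subgroup.mem_centralizer_singleton_iff]
    exact mul_inv_eq_iff_eq_mul.mp
      (dade_conj_eq hD ha ha (H a).one_mem hv (by rw [mul_one]; exact hv'.symm))
  · intro hg n
    have key : ∀ c ∈ Subgroup.centralizer ({a} : Set G), ∀ n ∈ (fun u : G => a * u) '' (H a : Set G),
        c * n * c⁻¹ ∈ (fun u : G => a * u) '' (H a : Set G) := by
      rintro c hc _ ⟨u, hu, rfl⟩
      refine ⟨c * u * c⁻¹, hD.conj_mem_H a ha c hc u hu, ?_⟩
      show a * (c * u * c⁻¹) = c * (a * u) * c⁻¹
      rw [← mul_assoc c a u, Subgroup.mem_centralizer_singleton_iff.mp hc]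
      group
    refine ⟨key g hg n, fun h => ?_⟩
    have := key g⁻¹ (inv_mem hg) _ h
    simpa [mul_assoc] using this

variable [Fintype G] [Fintype L]

/-- `g` lies in the Dade support attached to `a`. -/
def DadeMem (H : G → Subgroup G) (g a : G) : Prop := ∃ x : G, ∃ u ∈ H a, x * g * x⁻¹ = a * u

theorem dade_apply_of_mem (hD : DadeHypothesis A L H) {α : L → ℂ} (hα : IsClassFunction L α)
    {g : G} {a : L} (ha : (a : G) ∈ A) (hm : DadeMem H g a) :
    dadeIsometry A L H α g = α a := by
  classical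
  have hex : ∃ a : L, (a : G) ∈ A ∧ ∃ x : G, ∃ u ∈ H (a : G), x * g * x⁻¹ = (a : G) * u := ⟨a, ha, hm⟩
  unfold dadeIsometry
  rw [dif_pos hex]
  obtain ⟨hb, y, v, hv, hy⟩ := Classical.choose_spec hex
  obtain ⟨x, u, hu, hx⟩ := hm
  obtain ⟨l, hl, hle⟩ := dade_fusion_coset hD ha hb ⟨u, hu, v, hv, y * x⁻¹, by
    rw [← hx, ← hy]; group⟩
  rw [← hα a ⟨l, hl⟩]
  exact congrArg α (Subtype.ext hle.symm)

theorem dade_apply_of_not_mem {α : L → ℂ} {g : G}
    (h : ∀ a : L, (a : G) ∈ A → ¬ DadeMem H g a) : dadeIsometry A L H α g = 0 := by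
  classical
  have hex : ¬ ∃ a : L, (a : G) ∈ A ∧ ∃ x : G, ∃ u ∈ H (a : G), x * g * x⁻¹ = (a : G) * u :=
    fun ⟨a, ha, hm⟩ => h a ha hm
  unfold dadeIsometry
  rw [dif_neg hex]

theorem dadeMem_conj {g a : G} (x : G) (h : DadeMem H g a) : DadeMem H (x * g * x⁻¹) a := by
  obtain ⟨y, u, hu, hy⟩ := h
  exact ⟨y * x⁻¹, u, hu, by rw [← hy]; group⟩

theorem isClassFunction_dade (hD : DadeHypothesis A L H) {α : L → ℂ} (hα : IsClassFunction L α) :
    IsClassFunction G (dadeIsometry A L H α) := by
  intro g x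
  by_cases h : ∃ a : L, (a : G) ∈ A ∧ DadeMem H g a
  · obtain ⟨a, ha, hm⟩ := h
    rw [dade_apply_of_mem hD hα ha hm, dade_apply_of_mem hD hα ha (dadeMem_conj x hm)]
  · push Not at h
    rw [dade_apply_of_not_mem h, dade_apply_of_not_mem fun a ha hm => h a ha (by
      have := dadeMem_conj x⁻¹ hm
      simpa [mul_assoc] using this)]

open Classical in
/-- Sum of a class function over the Dade support. -/
theorem sum_dade_support (hD : DadeHypothesis A L H) {F : G → ℂ} (hF : IsClassFunction G F)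
    (hF0 : ∀ g, (∀ a : L, (a : G) ∈ A → ¬ DadeMem H g a) → F g = 0) :
    ∑ g : G, F g = (Nat.card G : ℂ) / (Nat.card L : ℂ) *
      ∑ a : {a : L // (a : G) ∈ A}, (Nat.card (H (a.1 : G)) : ℂ)⁻¹ *
        ∑ u : H (a.1 : G), F ((a.1 : G) * u) := by
  set T := Σ a : {a : L // (a : G) ∈ A}, (G × H (a.1 : G))
  let π : T → G := fun t => t.2.1 * ((t.1.1 : G) * t.2.2) * t.2.1⁻¹
  let w : T → ℂ := fun t => ((Nat.card L : ℂ) * (Nat.card (H (t.1.1 : G)) : ℂ))⁻¹
  have hmem : ∀ t : T, DadeMem H (π t) (t.1.1 : G) := fun t =>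
    ⟨t.2.1⁻¹, t.2.2, t.2.2.2, by simp only [π]; group⟩
  have hfib : ∀ g : G, (∑ t ∈ Finset.univ.filter (fun t => π t = g), w t) * F g = F g := by
    intro g
    by_cases hg : ∃ a : L, (a : G) ∈ A ∧ DadeMem H g a
    swap
    · push Not at hg
      rw [hF0 g hg, mul_zero]
    obtain ⟨a₀, ha₀, x₀, u₀, hu₀, hx₀⟩ := hg
    suffices h : ∑ t ∈ Finset.univ.filter (fun t => π t = g), w t = 1 by rw [h, one_mul]
    have hcardH : ∀ t ∈ Finset.univ.filter (fun t => π t = g),
        w t = ((Nat.card L : ℂ) * (Nat.card (H (a₀ : G)) : ℂ))⁻¹ := by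
      intro t ht
      rw [Finset.mem_filter] at ht
      obtain ⟨l, hl, hle⟩ := dade_fusion_coset hD t.1.2 ha₀ ⟨t.2.2, t.2.2.2, u₀, hu₀, x₀ * t.2.1, by
        rw [← hx₀, ← ht.2]; simp only [π]; group⟩
      simp only [w]
      rw [← hle, dade_H_conj hD t.1.2 hl, Subgroup.card_map_of_injective (MulEquiv.injective _)]
    rw [Finset.sum_congr rfl hcardH, Finset.sum_const, nsmul_eq_mul]
    suffices hc : (Finset.univ.filter (fun t => π t = g)).card =
        Nat.card L * Nat.card (H (a₀ : G)) by
      rw [hc, Nat.cast_mul, mul_inv_cancel₀]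
      exact mul_ne_zero (Nat.cast_ne_zero.mpr Nat.card_pos.ne')
        (Nat.cast_ne_zero.mpr Nat.card_pos.ne')
    -- the fibre is in bijection with `H a₀ × L`
    rw [← Fintype.card_subtype, ← Nat.card_eq_fintype_card, mul_comm, ← Nat.card_prod]
    symm
    refine Nat.card_eq_of_bijective
      (fun p : H (a₀ : G) × L => (⟨⟨⟨⟨(p.2 : G)⁻¹ * a₀ * p.2, ?_⟩, ?_⟩,
        (x₀⁻¹ * (p.1 : G) * p.2, ⟨(p.2 : G)⁻¹ * ((p.1 : G)⁻¹ * u₀ * p.1) * p.2, ?_⟩)⟩, ?_⟩ :
          {t : T // π t = g})) ⟨?_, ?_⟩
    · exact L.mul_mem (L.mul_mem (L.inv_mem p.2.2) a₀.2) p.2.2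
    · have := hD.conj_mem _ (L.inv_mem p.2.2) _ ha₀
      simpa using this
    · have h1 := dade_H_conj hD ha₀ (L.inv_mem p.2.2)
      rw [inv_inv] at h1
      show _ ∈ H ((p.2 : G)⁻¹ * a₀ * p.2)
      rw [h1, Subgroup.mem_map]
      exact ⟨_, (H (a₀ : G)).mul_mem ((H (a₀ : G)).mul_mem ((H (a₀ : G)).inv_mem p.1.2) hu₀) p.1.2,
        by simp⟩
    · have hc : Commute (a₀ : G) (p.1 : G) :=
        (Subgroup.mem_centralizer_singleton_iff.mp (hD.le_centralizer _ ha₀ p.1.2)).symm
      show x₀⁻¹ * (p.1 : G) * p.2 * (((p.2 : G)⁻¹ * a₀ * p.2) *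
        ((p.2 : G)⁻¹ * ((p.1 : G)⁻¹ * u₀ * p.1) * p.2)) * (x₀⁻¹ * (p.1 : G) * p.2)⁻¹ = g
      calc _ = x₀⁻¹ * ((p.1 : G) * a₀) * (p.1 : G)⁻¹ * u₀ * x₀ := by group
        _ = x₀⁻¹ * ((a₀ : G) * p.1) * (p.1 : G)⁻¹ * u₀ * x₀ := by rw [hc.eq]
        _ = x₀⁻¹ * ((a₀ : G) * u₀) * x₀ := by group
        _ = g := by rw [← hx₀]; group
    · rintro ⟨h, l⟩ ⟨h', l'⟩ heq
      have h1 : (l : G)⁻¹ * a₀ * l = (l' : G)⁻¹ * a₀ * l' :=
        congrArg (fun t : {t : T // π t = g} => ((t.1.1.1 : L) : G)) heq
      have h2 : x₀⁻¹ * (h : G) * l = x₀⁻¹ * (h' : G) * l' :=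
        congrArg (fun t : {t : T // π t = g} => t.1.2.1) heq
      have h3 : (l : G) * (l' : G)⁻¹ = (h : G)⁻¹ * h' := by
        rw [mul_assoc, mul_assoc] at h2
        have h2' := mul_left_cancel h2
        calc (l : G) * (l' : G)⁻¹ = (h : G)⁻¹ * ((h : G) * l) * (l' : G)⁻¹ := by group
          _ = (h : G)⁻¹ * ((h' : G) * l') * (l' : G)⁻¹ := by rw [h2']
          _ = (h : G)⁻¹ * h' := by group
      have h4 : (l : G) * (l' : G)⁻¹ ∈ H (a₀ : G) ⊓ (L ⊓ Subgroup.centralizer ({(a₀ : G)} : Set G)) := by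
        have hm : (l : G) * (l' : G)⁻¹ ∈ H (a₀ : G) :=
          h3 ▸ (H (a₀ : G)).mul_mem ((H (a₀ : G)).inv_mem h.2) h'.2
        exact ⟨hm, L.mul_mem l.2 (L.inv_mem l'.2), hD.le_centralizer _ ha₀ hm⟩
      rw [hD.inf_eq_bot _ ha₀, Subgroup.mem_bot] at h4
      have hl : l = l' := Subtype.ext (mul_inv_eq_one.mp h4)
      rw [h4, eq_comm, inv_mul_eq_one] at h3
      rw [hl, show h = h' from Subtype.ext h3]
    · rintro ⟨⟨⟨a, ha⟩, x, ⟨u, hu⟩⟩, ht⟩
      have ht' : x * ((a : G) * u) * x⁻¹ = g := ht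
      have hconj : (x₀ * x) * ((a : G) * u) * (x₀ * x)⁻¹ = (a₀ : G) * u₀ := by
        rw [← hx₀, ← ht']; group
      have hca := dade_conj_eq hD ha ha₀ hu hu₀ hconj
      obtain ⟨l, hl, hle⟩ := dade_fusion_coset hD ha ha₀ ⟨u, hu, u₀, hu₀, x₀ * x, hconj⟩
      have hc : x₀ * x * l⁻¹ ∈ Subgroup.centralizer ({(a₀ : G)} : Set G) := by
        rw [Subgroup.mem_centralizer_singleton_iff]
        refine mul_inv_eq_iff_eq_mul.mp ?_
        calc (x₀ * x * l⁻¹) * a₀ * (x₀ * x * l⁻¹)⁻¹
            = (x₀ * x * l⁻¹) * (l * a * l⁻¹) * (x₀ * x * l⁻¹)⁻¹ := by rw [hle]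
          _ = (x₀ * x) * a * (x₀ * x)⁻¹ := by group
          _ = a₀ := hca
      rw [← hD.sup_eq _ ha₀] at hc
      haveI : ((H (a₀ : G)).subgroupOf (Subgroup.centralizer ({(a₀ : G)} : Set G))).Normal :=
        Subgroup.Normal.mk fun n hn c => Subgroup.mem_subgroupOf.mpr
          (hD.conj_mem_H _ ha₀ c c.2 n (Subgroup.mem_subgroupOf.mp hn))
      obtain ⟨h, hh, d, hd, hhd⟩ : ∃ h ∈ H (a₀ : G), ∃ d ∈ L ⊓ Subgroup.centralizer ({(a₀ : G)} : Set G),
          h * d = x₀ * x * l⁻¹ := by
        have hC : x₀ * x * l⁻¹ ∈ Subgroup.centralizer ({(a₀ : G)} : Set G) := hD.sup_eq _ ha₀ ▸ hc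
        have hm : (⟨_, hC⟩ : Subgroup.centralizer ({(a₀ : G)} : Set G)) ∈
            (H (a₀ : G)).subgroupOf _ ⊔ (L ⊓ Subgroup.centralizer ({(a₀ : G)} : Set G)).subgroupOf _ := by
          rw [← Subgroup.subgroupOf_sup (hD.le_centralizer _ ha₀) inf_le_right, hD.sup_eq _ ha₀,
            Subgroup.subgroupOf_self]
          exact Subgroup.mem_top _
        obtain ⟨h, hh, d, hd, hhd⟩ := Subgroup.mem_sup_of_normal_left.mp hm
        exact ⟨h, hh, d, hd, congrArg Subtype.val hhd⟩
      set L' : L := ⟨d * l, L.mul_mem hd.1 hl⟩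
      have hx : x₀⁻¹ * h * (L' : G) = x := by
        show x₀⁻¹ * h * (d * l) = x
        rw [show x₀⁻¹ * h * (d * l) = x₀⁻¹ * (h * d) * l by group, hhd]
        group
      have hA : (L' : G)⁻¹ * a₀ * (L' : G) = a := by
        show (d * l)⁻¹ * a₀ * (d * l) = a
        have hdc := Subgroup.mem_centralizer_singleton_iff.mp hd.2
        calc (d * l)⁻¹ * a₀ * (d * l) = l⁻¹ * (d⁻¹ * ((a₀ : G) * d)) * l := by group
          _ = l⁻¹ * (d⁻¹ * (d * a₀)) * l := by rw [hdc]
          _ = l⁻¹ * (l * a * l⁻¹) * l := by rw [hle]; group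
          _ = a := by group
      have hext : ∀ t t' : T, ((t.1.1 : L) : G) = ((t'.1.1 : L) : G) → t.2.1 = t'.2.1 →
          (t.2.2 : G) = (t'.2.2 : G) → t = t' := by
        rintro ⟨⟨⟨a, _⟩, _⟩, x, ⟨u, _⟩⟩ ⟨⟨⟨a', _⟩, _⟩, x', ⟨u', _⟩⟩ (rfl : a = a') (rfl : x = x')
          (rfl : u = u')
        rfl
      refine ⟨(⟨h, hh⟩, L'), Subtype.ext (hext _ _ hA hx ?_)⟩
      show (L' : G)⁻¹ * (h⁻¹ * u₀ * h) * (L' : G) = u
      refine mul_left_cancel (a := (a : G)) ?_
      have hc' : Commute (a₀ : G) h :=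
        (Subgroup.mem_centralizer_singleton_iff.mp (hD.le_centralizer _ ha₀ hh)).symm
      calc (a : G) * ((L' : G)⁻¹ * (h⁻¹ * u₀ * h) * (L' : G))
          = (L' : G)⁻¹ * (a₀ : G) * (L' : G) * ((L' : G)⁻¹ * (h⁻¹ * u₀ * h) * (L' : G)) := by
            rw [hA]
        _ = (L' : G)⁻¹ * ((a₀ : G) * h⁻¹) * u₀ * h * (L' : G) := by group
        _ = (L' : G)⁻¹ * (h⁻¹ * (a₀ : G)) * u₀ * h * (L' : G) := by rw [hc'.inv_right.eq]
        _ = (x₀⁻¹ * h * (L' : G))⁻¹ * g * (x₀⁻¹ * h * (L' : G)) := by
            rw [show (L' : G)⁻¹ * (h⁻¹ * (a₀ : G)) * u₀ * h * (L' : G) =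
              (L' : G)⁻¹ * h⁻¹ * ((a₀ : G) * u₀) * h * (L' : G) by group, ← hx₀]
            group
        _ = (a : G) * u := by rw [hx, ← ht']; group
  calc ∑ g : G, F g = ∑ g : G, (∑ t ∈ Finset.univ.filter (fun t => π t = g), w t) * F g :=
        Finset.sum_congr rfl fun g _ => (hfib g).symm
    _ = ∑ t : T, w t * F (π t) := by
        rw [← Finset.sum_fiberwise Finset.univ π (fun t => w t * F (π t))]
        refine Finset.sum_congr rfl fun g _ => ?_
        rw [Finset.sum_mul]
        exact Finset.sum_congr rfl fun t ht => by rw [(Finset.mem_filter.mp ht).2]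
    _ = _ := by
        rw [Fintype.sum_sigma, Finset.mul_sum]
        refine Finset.sum_congr rfl fun a _ => ?_
        rw [Fintype.sum_prod_type]
        have hF' : ∀ g h : G, F (h * g * h⁻¹) = F g := hF
        simp only [π, w, hF', Finset.sum_const, Finset.card_univ, nsmul_eq_mul, ← Finset.mul_sum,
          ← Nat.card_eq_fintype_card]
        ring

/-- The averaged restriction. -/
noncomputable def dadeAvg (H : G → Subgroup G) (χ : G → ℂ) (a : G) : ℂ :=
  (Nat.card (H a) : ℂ)⁻¹ * ∑ᶠ u ∈ (H a : Set G), χ (a * u)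

omit [Finite G] in
open Classical in
theorem finsum_mem_subgroup (K : Subgroup G) (f : G → ℂ) :
    ∑ᶠ u ∈ (K : Set G), f u = ∑ u : K, f u := by
  rw [finsum_mem_eq_sum_of_inter_support_eq (t := Finset.univ.filter (fun u : G => u ∈ K)) _
    (by ext; simp)]
  exact Finset.sum_subtype _ (fun x => by simp) f

open Classical in
theorem classInner_dade (hD : DadeHypothesis A L H) {α : L → ℂ} (hα : IsClassFunction L α)
    (hαA : ∀ x : L, (x : G) ∉ A → α x = 0) {χ : G → ℂ} (hχ : IsClassFunction G χ) :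
    classInner (dadeIsometry A L H α) χ =
      (Nat.card L : ℂ)⁻¹ * ∑ a : L, α a * conj (dadeAvg H χ a) := by
  unfold classInner
  rw [sum_dade_support hD (F := fun g => dadeIsometry A L H α g * conj (χ g))
    (fun g x => by simp only [isClassFunction_dade hD hα g x, hχ g x])
    (fun g hg => by rw [dade_apply_of_not_mem hg, zero_mul]), ← mul_assoc, div_eq_mul_inv,
    ← mul_assoc, inv_mul_cancel₀ (Nat.cast_ne_zero.mpr Nat.card_pos.ne'), one_mul]
  congr 1
  rw [← Finset.sum_subset (Finset.subset_univ (Finset.univ.filter fun a : L => (a : G) ∈ A))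
    (fun a _ ha => by rw [hαA a (by simpa using ha), zero_mul]),
    Finset.sum_subtype _ (p := fun a : L => (a : G) ∈ A) (fun a => by simp)]
  refine Finset.sum_congr rfl fun a _ => ?_
  have hval : ∀ u : H (a.1 : G), dadeIsometry A L H α ((a.1 : G) * u) = α a.1 := fun u =>
    dade_apply_of_mem hD hα a.2 ⟨1, u, u.2, by simp⟩
  simp only [hval, ← Finset.mul_sum, dadeAvg, finsum_mem_subgroup, map_mul, map_inv₀, map_natCast,
    map_sum]
  ring

theorem dadeAvg_dade (hD : DadeHypothesis A L H) {β : L → ℂ} (hβ : IsClassFunction L β) {a : L}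
    (ha : (a : G) ∈ A) : dadeAvg H (dadeIsometry A L H β) a = β a := by
  classical
  have hval : ∀ u : H (a : G), dadeIsometry A L H β ((a : G) * u) = β a := fun u =>
    dade_apply_of_mem hD hβ ha ⟨1, u, u.2, by simp⟩
  simp only [dadeAvg, finsum_mem_subgroup, hval, Finset.sum_const, Finset.card_univ, nsmul_eq_mul,
    ← Nat.card_eq_fintype_card]
  rw [← mul_assoc, inv_mul_cancel₀ (Nat.cast_ne_zero.mpr Nat.card_pos.ne'), one_mul]

theorem classInner_dade_dade (hD : DadeHypothesis A L H) {α β : L → ℂ}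
    (hα : IsClassFunction L α) (hαA : ∀ x : L, (x : G) ∉ A → α x = 0)
    (hβ : IsClassFunction L β) :
    classInner (dadeIsometry A L H α) (dadeIsometry A L H β) = classInner α β := by
  rw [classInner_dade hD hα hαA (isClassFunction_dade hD hβ)]
  unfold classInner
  congr 1
  refine Finset.sum_congr rfl fun a _ => ?_
  by_cases ha : (a : G) ∈ A
  · rw [dadeAvg_dade hD hβ ha]
  · rw [hαA a ha, zero_mul, zero_mul]

theorem dade_apply_one (hD : DadeHypothesis A L H) (α : L → ℂ) :
    dadeIsometry A L H α 1 = 0 := by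
  refine dade_apply_of_not_mem fun a ha ⟨x, u, hu, hx⟩ => ?_
  rw [mul_one, mul_inv_cancel] at hx
  have hbot : (a : G) ∈ H (a : G) ⊓ (L ⊓ Subgroup.centralizer ({(a : G)} : Set G)) :=
    ⟨(H (a : G)).inv_mem_iff.mp (by rw [inv_eq_of_mul_eq_one_right hx.symm]; exact hu),
      dade_self_mem_centralizer hD ha⟩
  rw [hD.inf_eq_bot _ ha, Subgroup.mem_bot] at hbot
  exact hD.one_not_mem (hbot ▸ ha)

open Classical in
theorem dade_isGeneralized (hD : DadeHypothesis A L H) {α : L → ℂ}
    (hαg : IsGeneralizedCharacter L α) (hαA : ∀ x : L, (x : G) ∉ A → α x = 0) :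
    IsGeneralizedCharacter G (dadeIsometry A L H α) := by
  have hα := isGeneralized_isClassFunction hαg
  refine isGeneralized_of_classInner (isClassFunction_dade hD hα) fun χ => ?_
  have hχ := χ.2.isClassFunction
  rw [classInner_dade hD hα hαA hχ]
  -- nonempty subsets of `A`
  let 𝓑 := {B : Finset G // B.Nonempty ∧ ∀ b ∈ B, b ∈ A}
  letI : MulAction L 𝓑 :=
    { smul := fun l B => ⟨B.1.image fun b => (l : G) * b * (l : G)⁻¹, B.2.1.image _, by
        intro c hc
        obtain ⟨b, hb, rfl⟩ := Finset.mem_image.mp hc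
        exact hD.conj_mem _ l.2 b (B.2.2 b hb)⟩
      one_smul := fun B => Subtype.ext (by
        show B.1.image (fun b => ((1 : L) : G) * b * ((1 : L) : G)⁻¹) = B.1
        simp)
      mul_smul := fun l m B => Subtype.ext (by
        show B.1.image (fun b => ((l * m : L) : G) * b * ((l * m : L) : G)⁻¹) =
          (B.1.image fun b => (m : G) * b * (m : G)⁻¹).image fun b => (l : G) * b * (l : G)⁻¹
        rw [Finset.image_image]
        refine Finset.image_congr fun b _ => ?_
        simp only [Function.comp_apply, Subgroup.coe_mul]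
        group) }
  have hsmul : ∀ (l : L) (B : 𝓑) (c : G),
      c ∈ (l • B : 𝓑).1 ↔ ∃ b ∈ B.1, (l : G) * b * (l : G)⁻¹ = c := fun l B c => Finset.mem_image
  haveI : Fintype 𝓑 := Fintype.ofFinite _
  let HB : 𝓑 → Subgroup G := fun B => ⨅ b ∈ B.1, H b
  have hHBle : ∀ (B : 𝓑) (b : G), b ∈ B.1 → HB B ≤ H b := fun B b hb => iInf₂_le b hb
  have hHBsmul : ∀ (l : L) (B : 𝓑), HB (l • B) = (HB B).map (MulAut.conj (l : G)).toMonoidHom := by
    intro l B
    ext y
    simp only [HB, Subgroup.mem_iInf, Subgroup.mem_map, hsmul]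
    constructor
    · intro hy
      refine ⟨(l : G)⁻¹ * y * l, fun b hb => ?_, by simp [mul_assoc]⟩
      have h1 := hy _ ⟨b, hb, rfl⟩
      rw [dade_H_conj hD (B.2.2 b hb) l.2, Subgroup.mem_map] at h1
      obtain ⟨z, hz, rfl⟩ := h1
      simpa [mul_assoc] using hz
    · rintro ⟨z, hz, rfl⟩ c ⟨b, hb, rfl⟩
      rw [dade_H_conj hD (B.2.2 b hb) l.2]
      exact Subgroup.mem_map_of_mem _ (hz b hb)
  let avg : 𝓑 → G → ℂ := fun B l =>
    (Nat.card (HB B) : ℂ)⁻¹ * ∑ h : HB B, χ.1 ((h : G) * l)
  let S : 𝓑 → ℂ := fun B => ∑ l : L, if l • B = B then α l * conj (avg B l) else 0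
  -- cancellation
  have hexp : ∑ a : L, α a * conj (dadeAvg H (χ : G → ℂ) a) =
      ∑ B : 𝓑, (-1 : ℂ) ^ (B.1.card + 1) * S B := by
    simp only [S, Finset.mul_sum, mul_ite, mul_zero]
    rw [Finset.sum_comm]
    refine Finset.sum_congr rfl fun l _ => ?_
    by_cases hl : (l : G) ∈ A
    swap
    · simp [hαA l hl]
    have hfix : l • (⟨{(l : G)}, Finset.singleton_nonempty _, by simpa using hl⟩ : 𝓑) =
        ⟨{(l : G)}, Finset.singleton_nonempty _, by simpa using hl⟩ := by
      refine Subtype.ext (Finset.ext fun c => ?_)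
      rw [hsmul]
      simp [eq_comm]
    set B₀ : 𝓑 := ⟨{(l : G)}, Finset.singleton_nonempty _, by simpa using hl⟩
    have hlc : (l : G) * l * (l : G)⁻¹ = l := mul_inv_cancel_right _ _
    rw [← Finset.add_sum_erase _ _ (Finset.mem_univ B₀)]
    have hB0 : avg B₀ l = dadeAvg H (χ : G → ℂ) l := by
      simp only [avg, dadeAvg, finsum_mem_subgroup]
      have hHB0 : HB B₀ = H (l : G) := by simp [HB, B₀]
      rw [hHB0]
      congr 1
      refine Finset.sum_congr rfl fun h _ => ?_
      rw [Subgroup.mem_centralizer_singleton_iff.mp (hD.le_centralizer _ hl h.2)]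
    rw [if_pos hfix, hB0, show B₀.1.card = 1 from Finset.card_singleton _]
    have hrest : ∑ B ∈ Finset.univ.erase B₀, (if l • B = B then
        (-1 : ℂ) ^ (B.1.card + 1) * (α l * conj (avg B l)) else 0) = 0 := by
      have hne : ∀ B ∈ Finset.univ.erase B₀, (l : G) ∈ B.1 → (B.1.erase (l : G)).Nonempty := by
        intro B hB hlB
        rw [← Finset.card_pos, Finset.card_erase_of_mem hlB]
        have h1 : 0 < B.1.card := Finset.card_pos.mpr B.2.1
        by_contra hlt
        obtain ⟨b, hb⟩ := Finset.card_eq_one.mp (show B.1.card = 1 by omega)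
        refine (Finset.mem_erase.mp hB).1 (Subtype.ext ?_)
        rw [hb, Finset.mem_singleton] at hlB
        rw [hb, ← hlB]
      let tog : ∀ B ∈ Finset.univ.erase B₀, 𝓑 := fun B hB =>
        if hlB : (l : G) ∈ B.1 then ⟨B.1.erase (l : G), hne B hB hlB, fun b hb =>
          B.2.2 b (Finset.mem_of_mem_erase hb)⟩
        else ⟨insert (l : G) B.1, Finset.insert_nonempty _ _, fun b hb => by
          rcases Finset.mem_insert.mp hb with rfl | hb
          · exact hl
          · exact B.2.2 b hb⟩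
      have havg : ∀ (B B' : 𝓑), (l : G) ∉ B.1 → B'.1 = insert (l : G) B.1 → l • B = B →
          avg B l = avg B' l := by
        intro B B' hlB hB' hfixB
        have hnorm : (l : G) ∈ Subgroup.normalizer (HB B : Set G) := by
          have hmap : (HB B).map (MulAut.conj (l : G)).toMonoidHom = HB B := by
            rw [← hHBsmul, hfixB]
          rw [Subgroup.mem_normalizer_iff]
          intro n
          conv_rhs => rw [← hmap]
          rw [Subgroup.mem_map]
          exact ⟨fun hn => ⟨n, hn, by simp⟩, fun ⟨z, hz, he⟩ => by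
            have : z = n := by simpa using he
            rwa [← this]⟩
        obtain ⟨b₁, hb₁⟩ := B.2.1
        have hcop : Nat.Coprime (orderOf (l : G)) (Nat.card (HB B)) := by
          refine Nat.Coprime.coprime_dvd_right (Subgroup.card_dvd_of_le (hHBle B b₁ hb₁)) ?_
          exact (hD.coprime b₁ (B.2.2 b₁ hb₁) l hl).symm.coprime_dvd_left
            (Subgroup.orderOf_dvd_natCard _ (dade_self_mem_centralizer hD hl))
        have hHB' : HB B' = HB B ⊓ Subgroup.centralizer ({(l : G)} : Set G) := by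
          refine le_antisymm (le_inf (le_iInf₂ fun b hb => ?_) ?_) ?_
          · exact hHBle B' b (hB' ▸ Finset.mem_insert_of_mem hb)
          · exact (hHBle B' l (hB' ▸ Finset.mem_insert_self _ _)).trans (hD.le_centralizer _ hl)
          · intro y hy
            simp only [HB, hB', Subgroup.mem_iInf, Finset.mem_insert]
            rintro b (rfl | hb)
            · refine dade_mem_H hD hl hy.2 ?_
              exact (hD.coprime b₁ (B.2.2 b₁ hb₁) l hl).coprime_dvd_left
                (Subgroup.orderOf_dvd_natCard _ (hHBle B b₁ hb₁ hy.1))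
            · exact hHBle B b hb hy.1
        set Z := HB B ⊓ Subgroup.centralizer ({(l : G)} : Set G) with hZ
        show (Nat.card (HB B) : ℂ)⁻¹ * _ = (Nat.card (HB B') : ℂ)⁻¹ * _
        rw [hHB']
        have hZle : Z ≤ HB B := inf_le_left
        -- double count `(n, c) ↦ n c l n⁻¹`
        let φ : HB B × Z → HB B := fun p =>
          ⟨(p.1 : G) * p.2 * ((l : G) * (p.1 : G)⁻¹ * (l : G)⁻¹),
            (HB B).mul_mem ((HB B).mul_mem p.1.2 (hZle p.2.2))
              ((Subgroup.mem_normalizer_iff.mp hnorm _).mp ((HB B).inv_mem p.1.2))⟩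
        have hval : ∀ p, χ.1 ((φ p : G) * l) = χ.1 ((p.2 : G) * l) := by
          intro p
          rw [show (φ p : G) * l = (p.1 : G) * ((p.2 : G) * l) * (p.1 : G)⁻¹ by
            simp only [φ]; group, hχ]
        have hfibZ : ∀ h : HB B, (Finset.univ.filter fun p => φ p = h).card = Nat.card Z := by
          intro h
          obtain ⟨n, hn, c, hc, hcl, hnc, i, hi⟩ :=
            exists_conj_coprime_coset hnorm hcop h.2
          have hcZ : c ∈ Z := ⟨hc, Subgroup.mem_centralizer_singleton_iff.mpr hcl⟩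
          rw [← Fintype.card_subtype, ← Nat.card_eq_fintype_card]
          symm
          refine Nat.card_eq_of_bijective (fun z => ⟨(⟨n⁻¹ * z, ?_⟩, ⟨(z : G)⁻¹ * c * z, ?_⟩), ?_⟩)
            ⟨?_, ?_⟩
          · exact (HB B).mul_mem ((HB B).inv_mem hn) z.2.1
          · exact Z.mul_mem (Z.mul_mem (Z.inv_mem z.2) hcZ) z.2
          · refine Subtype.ext ?_
            have hz : (z : G) * l = l * z := Subgroup.mem_centralizer_singleton_iff.mp z.2.2
            show n⁻¹ * z * ((z : G)⁻¹ * c * z) * ((l : G) * (n⁻¹ * z)⁻¹ * (l : G)⁻¹) = h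
            calc _ = n⁻¹ * c * ((z : G) * l) * (z : G)⁻¹ * n * (l : G)⁻¹ := by group
              _ = n⁻¹ * c * ((l : G) * z) * (z : G)⁻¹ * n * (l : G)⁻¹ := by rw [hz]
              _ = n⁻¹ * (c * l) * n * (l : G)⁻¹ := by group
              _ = n⁻¹ * (n * ((h : G) * l) * n⁻¹) * n * (l : G)⁻¹ := by rw [hnc]
              _ = h := by group
          · intro z z' hzz
            have := congrArg (fun q : {p // φ p = h} => ((q.1.1 : HB B) : G)) hzz
            exact Subtype.ext (mul_left_cancel this)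
          · rintro ⟨⟨m, d⟩, hmd⟩
            have hmd' : (m : G) * d * ((l : G) * (m : G)⁻¹ * (l : G)⁻¹) = h :=
              congrArg Subtype.val hmd
            have hconj : (n * m) * ((d : G) * l) * (n * m)⁻¹ = c * l := by
              rw [← hnc, ← hmd']; group
            have hnm : n * m ∈ Z := by
              refine ⟨(HB B).mul_mem hn m.2, Subgroup.mem_centralizer_singleton_iff.mpr ?_⟩
              -- `l` is the same power of `c l` and of `d l`
              have hdl : Commute (d : G) (l : G) :=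
                Subgroup.mem_centralizer_singleton_iff.mp d.2.2
              obtain ⟨e, he1, he0⟩ := exists_piExp hcop
              have hpow : ∀ y ∈ HB B, Commute y (l : G) → (y * l) ^ e = l := fun y hy hyl => by
                rw [hyl.mul_pow, pow_piExp_of_left he1 (pow_orderOf_eq_one _),
                  pow_piExp_of_right he0 (orderOf_dvd_iff_pow_eq_one.mp
                    (Subgroup.orderOf_dvd_natCard _ hy)), one_mul]
              have h5 := congrArg (fun y => y ^ e) hconj
              simp only [conj_pow] at h5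
              rw [hpow _ d.2.1 hdl, hpow _ hc hcl] at h5
              exact mul_inv_eq_iff_eq_mul.mp h5
            refine ⟨⟨n * m, hnm⟩, Subtype.ext (Prod.ext (Subtype.ext ?_) (Subtype.ext ?_))⟩
            · show n⁻¹ * (n * m) = (m : G)
              group
            · show (n * (m : G))⁻¹ * c * (n * m) = (d : G)
              have hzl : n * (m : G) * l = l * (n * m) :=
                Subgroup.mem_centralizer_singleton_iff.mp hnm.2
              have h6 : (n * m) * (d : G) * (n * m)⁻¹ * l = c * l := by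
                rw [← hconj]
                calc (n * m) * (d : G) * (n * m)⁻¹ * l
                    = (n * m) * (d : G) * (n * m)⁻¹ * ((l : G) * (n * m)) * (n * m)⁻¹ := by group
                  _ = (n * m) * (d : G) * (n * m)⁻¹ * ((n * m) * l) * (n * m)⁻¹ := by rw [hzl]
                  _ = (n * m) * ((d : G) * l) * (n * m)⁻¹ := by group
              rw [← mul_right_cancel h6]
              group
        have hcountid : (Nat.card Z : ℂ) * ∑ h : HB B, χ.1 ((h : G) * l) =
            (Nat.card (HB B) : ℂ) * ∑ d : Z, χ.1 ((d : G) * l) := by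
          have h1 : ∑ p : HB B × Z, χ.1 ((φ p : G) * l) =
              (Nat.card Z : ℂ) * ∑ h : HB B, χ.1 ((h : G) * l) := by
            rw [← Finset.sum_fiberwise Finset.univ φ, Finset.mul_sum]
            refine Finset.sum_congr rfl fun h _ => ?_
            rw [Finset.sum_congr rfl fun p hp => by rw [(Finset.mem_filter.mp hp).2],
              Finset.sum_const, nsmul_eq_mul, hfibZ]
          rw [← h1]
          simp only [hval]
          rw [Fintype.sum_prod_type]
          simp only [Finset.sum_const, Finset.card_univ, nsmul_eq_mul, Nat.card_eq_fintype_card]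
        have hH0 : (Nat.card (HB B) : ℂ) ≠ 0 := Nat.cast_ne_zero.mpr Nat.card_pos.ne'
        have hZ0 : (Nat.card Z : ℂ) ≠ 0 := Nat.cast_ne_zero.mpr Nat.card_pos.ne'
        field_simp
        linear_combination hcountid
      have hiff : ∀ (B B' : 𝓑), B'.1 = insert (l : G) B.1 → (l : G) ∉ B.1 →
          (l • B' = B' ↔ l • B = B) := by
        intro B B' hB' hlB
        have himg : (l • B' : 𝓑).1 = insert (l : G) (l • B : 𝓑).1 := by
          ext c
          simp only [hsmul, hB', Finset.mem_insert]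
          constructor
          · rintro ⟨b, rfl | hb, rfl⟩
            · exact Or.inl hlc
            · exact Or.inr ⟨b, hb, rfl⟩
          · rintro (rfl | ⟨b, hb, rfl⟩)
            · exact ⟨_, Or.inl rfl, hlc⟩
            · exact ⟨b, Or.inr hb, rfl⟩
        have hnot : (l : G) ∉ (l • B : 𝓑).1 := by
          rw [hsmul]
          rintro ⟨b, hb, he⟩
          refine hlB ?_
          have : b = (l : G) := by
            calc b = (l : G)⁻¹ * ((l : G) * b * (l : G)⁻¹) * l := by group
              _ = (l : G) := by rw [he]; group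
          rwa [← this]
        constructor
        · intro h
          have h1 := congrArg Subtype.val h
          rw [himg, hB'] at h1
          refine Subtype.ext ?_
          rw [← Finset.erase_insert hnot, h1, Finset.erase_insert hlB]
        · intro h
          refine Subtype.ext ?_
          rw [himg, hB', h]
      refine Finset.sum_involution tog (fun B hB => ?_) (fun B hB _ => ?_) (fun B hB => ?_)
        (fun B hB => ?_)
      · by_cases hlB : (l : G) ∈ B.1
        · set B' : 𝓑 := tog B hB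
          have hB' : B'.1 = B.1.erase (l : G) := by simp [B', tog, hlB]
          have hins : B.1 = insert (l : G) B'.1 := by rw [hB', Finset.insert_erase hlB]
          have hnot : (l : G) ∉ B'.1 := by rw [hB']; exact Finset.notMem_erase _ _
          by_cases hf : l • B = B
          · have hf' := (hiff B' B hins hnot).mp hf
            rw [if_pos hf, if_pos hf', havg B' B hnot hins hf', hins,
              Finset.card_insert_of_notMem hnot]
            ring
          · rw [if_neg hf, if_neg fun h => hf ((hiff B' B hins hnot).mpr h), add_zero]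
        · set B' : 𝓑 := tog B hB
          have hins : B'.1 = insert (l : G) B.1 := by simp [B', tog, hlB]
          by_cases hf : l • B = B
          · have hf' := (hiff B B' hins hlB).mpr hf
            rw [if_pos hf, if_pos hf', havg B B' hlB hins hf, hins,
              Finset.card_insert_of_notMem hlB]
            ring
          · rw [if_neg hf, if_neg fun h => hf ((hiff B B' hins hlB).mp h), add_zero]
      · intro he
        have := congrArg Subtype.val he
        by_cases hlB : (l : G) ∈ B.1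
        · simp only [tog, dif_pos hlB] at this
          exact Finset.notMem_erase (l : G) B.1 (this.symm ▸ hlB)
        · simp only [tog, dif_neg hlB] at this
          exact hlB (this ▸ Finset.mem_insert_self _ _)
      · rw [Finset.mem_erase]
        refine ⟨fun he => ?_, Finset.mem_univ _⟩
        have := congrArg Subtype.val he
        by_cases hlB : (l : G) ∈ B.1
        · simp only [tog, dif_pos hlB] at this
          have h1 : (l : G) ∈ B.1.erase (l : G) := by rw [this]; simp [B₀]
          exact Finset.notMem_erase _ _ h1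
        · simp only [tog, dif_neg hlB] at this
          refine (Finset.mem_erase.mp hB).1 (Subtype.ext ?_)
          obtain ⟨b, hb⟩ := B.2.1
          have h1 : b ∈ ({(l : G)} : Finset G) := by
            rw [show ({(l : G)} : Finset G) = B₀.1 from rfl, ← this]
            exact Finset.mem_insert_of_mem hb
          exact absurd (Finset.mem_singleton.mp h1 ▸ hb) hlB
      · by_cases hlB : (l : G) ∈ B.1
        · simp [tog, hlB]
        · simp [tog, hlB]
    rw [hrest]
    simp
  -- integrality, orbit by orbit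
  have hSint : ∀ B : 𝓑, ∃ k : ℤ, S B = (Nat.card (MulAction.stabilizer L B) : ℂ) * k := by
    intro B
    set N := (MulAction.stabilizer L B).map L.subtype with hN
    have hnormN : N ≤ Subgroup.normalizer (HB B : Set G) := by
      rintro _ ⟨l, hl, rfl⟩
      have hmap : (HB B).map (MulAut.conj (l : G)).toMonoidHom = HB B := by
        rw [← hHBsmul, MulAction.mem_stabilizer_iff.mp hl]
      rw [Subgroup.mem_normalizer_iff]
      intro n
      conv_rhs => rw [← hmap]
      rw [Subgroup.mem_map]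
      exact ⟨fun hn => ⟨n, hn, by simp⟩, fun ⟨z, hz, he⟩ => by
        have : z = n := by simpa using he
        rwa [← this]⟩
    obtain ⟨b₁, hb₁⟩ := B.2.1
    have hdisj : HB B ⊓ L = ⊥ := by
      rw [eq_bot_iff, ← hD.inf_eq_bot b₁ (B.2.2 b₁ hb₁)]
      rintro y ⟨hy1, hy2⟩
      exact ⟨hHBle B b₁ hb₁ hy1, hy2, hD.le_centralizer _ (B.2.2 b₁ hb₁) (hHBle B b₁ hb₁ hy1)⟩
    set M := HB B ⊔ N with hM
    haveI : ((HB B).subgroupOf M).Normal :=
      (Subgroup.normal_subgroupOf_iff_le_normalizer le_sup_left).mpr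
        (sup_le Subgroup.le_normalizer hnormN)
    let j : MulAction.stabilizer L B →* M ⧸ (HB B).subgroupOf M :=
      (QuotientGroup.mk' _).comp
        ((L.subtype.comp (MulAction.stabilizer L B).subtype).codRestrict M fun l =>
          le_sup_right (a := HB B) ⟨l.1, l.2, rfl⟩)
    have hjbij : Function.Bijective j := by
      constructor
      · intro l l' h
        have h1 : ((l.1 : L) : G)⁻¹ * ((l'.1 : L) : G) ∈ HB B :=
          Subgroup.mem_subgroupOf.mp (QuotientGroup.eq.mp h)
        have h2 : ((l.1 : L) : G)⁻¹ * ((l'.1 : L) : G) ∈ HB B ⊓ L :=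
          ⟨h1, L.mul_mem (L.inv_mem l.1.2) l'.1.2⟩
        rw [hdisj, Subgroup.mem_bot, inv_mul_eq_one] at h2
        exact Subtype.ext (Subtype.ext h2)
      · intro q
        induction q using QuotientGroup.induction_on with
        | _ m =>
          have hm : m ∈ (HB B).subgroupOf M ⊔ N.subgroupOf M := by
            rw [← Subgroup.subgroupOf_sup le_sup_left le_sup_right]
            exact Subgroup.mem_subgroupOf.mpr m.2
          obtain ⟨h, hh, n, hn, rfl⟩ := Subgroup.mem_sup_of_normal_left.mp hm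
          obtain ⟨l, hl, hln⟩ := Subgroup.mem_subgroupOf.mp hn
          refine ⟨⟨l, hl⟩, ?_⟩
          rw [QuotientGroup.mk_mul, (QuotientGroup.eq_one_iff h).mpr hh, one_mul]
          exact congrArg QuotientGroup.mk (show (⟨L.subtype l,
            le_sup_right (a := HB B) ⟨l, hl, rfl⟩⟩ : M) = n from Subtype.ext hln)
    let e := MulEquiv.ofBijective j hjbij
    let ret : M →* L :=
      ((MulAction.stabilizer L B).subtype.comp e.symm.toMonoidHom).comp (QuotientGroup.mk' _)
    haveI : Fintype M := Fintype.ofFinite _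
    obtain ⟨k, hk⟩ := classInner_int (isGeneralized_comp hαg ret)
      (isGeneralized_of_isCharacter (isCharacter_restrict χ.2.isCharacter M))
    refine ⟨k, ?_⟩
    let θ : HB B × MulAction.stabilizer L B → M := fun p =>
      ⟨(p.1 : G) * ((p.2.1 : L) : G),
        M.mul_mem (le_sup_left (b := N) p.1.2) (le_sup_right (a := HB B) ⟨p.2.1, p.2.2, rfl⟩)⟩
    have hret : ∀ p, ret (θ p) = p.2.1 := by
      intro p
      have : e.symm (QuotientGroup.mk' ((HB B).subgroupOf M) (θ p)) = p.2 := by
        rw [MulEquiv.symm_apply_eq]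
        show _ = j p.2
        have hθ : θ p = ⟨(p.1 : G), le_sup_left (b := N) p.1.2⟩ *
            ⟨((p.2.1 : L) : G), le_sup_right (a := HB B) ⟨p.2.1, p.2.2, rfl⟩⟩ := rfl
        rw [hθ, map_mul]
        have h1 : QuotientGroup.mk' ((HB B).subgroupOf M)
            ⟨(p.1 : G), le_sup_left (b := N) p.1.2⟩ = 1 :=
          (QuotientGroup.eq_one_iff _).mpr (Subgroup.mem_subgroupOf.mpr p.1.2)
        rw [h1, one_mul]
        rfl
      exact congrArg Subtype.val this
    have hθbij : Function.Bijective θ := by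
      constructor
      · intro p p' h
        have h2 : p.2 = p'.2 := Subtype.ext (by rw [← hret p, ← hret p', h])
        have h1 := congrArg Subtype.val h
        simp only [θ, h2] at h1
        exact Prod.ext (Subtype.ext (mul_right_cancel h1)) h2
      · intro m
        obtain ⟨l, hl⟩ := hjbij.surjective (QuotientGroup.mk' _ m)
        have h1 : (m : G) * ((l.1 : L) : G)⁻¹ ∈ HB B := by
          have h2 := Subgroup.mem_subgroupOf.mp (QuotientGroup.eq.mp hl)
          have h3 := (Subgroup.mem_normalizer_iff.mp (hnormN ⟨l.1, l.2, rfl⟩) _).mp h2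
          simpa [mul_assoc] using h3
        exact ⟨(⟨_, h1⟩, l), Subtype.ext (inv_mul_cancel_right _ _)⟩
    have hcardM : (Nat.card M : ℂ) = (Nat.card (HB B) : ℂ) *
        (Nat.card (MulAction.stabilizer L B) : ℂ) := by
      rw [← Nat.card_eq_of_bijective θ hθbij, Nat.card_prod, Nat.cast_mul]
    have hsumM : ∑ m : M, α (ret m) * conj (χ.1 m) = (Nat.card (HB B) : ℂ) * S B := by
      rw [← (Equiv.ofBijective θ hθbij).sum_comp, Fintype.sum_prod_type]
      simp only [Equiv.ofBijective_apply, hret]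
      rw [Finset.sum_comm, Finset.mul_sum]
      rw [← Finset.sum_subset (Finset.subset_univ (Finset.univ.filter fun l : L => l • B = B))
        (fun l _ hl => by rw [if_neg (by simpa using hl), mul_zero]),
        Finset.sum_subtype (p := fun l : L => l ∈ MulAction.stabilizer L B) _ (fun l => by simp)]
      refine Finset.sum_congr rfl fun l _ => ?_
      rw [if_pos (MulAction.mem_stabilizer_iff.mp l.2)]
      simp only [avg, θ, map_mul, map_inv₀, map_natCast, map_sum, ← Finset.mul_sum]
      field_simp [(Nat.cast_ne_zero (R := ℂ)).mpr (Nat.card_pos (α := HB B)).ne']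
    unfold classInner at hk
    rw [hsumM, hcardM] at hk
    have hH0 : (Nat.card (HB B) : ℂ) ≠ 0 := Nat.cast_ne_zero.mpr Nat.card_pos.ne'
    have hS0 : (Nat.card (MulAction.stabilizer L B) : ℂ) ≠ 0 :=
      Nat.cast_ne_zero.mpr Nat.card_pos.ne'
    field_simp at hk
    linear_combination hk
  have hSinv : ∀ (l : L) (B : 𝓑), S (l • B) = S B := by
    intro l B
    simp only [S]
    rw [← (MulAut.conj l).toEquiv.sum_comp]
    refine Finset.sum_congr rfl fun m _ => ?_
    have hc : (MulAut.conj l).toEquiv m = l * m * l⁻¹ := rfl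
    have hα' : ∀ g h : L, α (h * g * h⁻¹) = α g := hα
    simp only [hc, mul_smul, inv_smul_smul, smul_left_cancel_iff, hα']
    split_ifs with hf
    · congr 2
      simp only [avg]
      have hcard : Nat.card (HB (l • B)) = Nat.card (HB B) := by
        rw [hHBsmul]; exact Subgroup.card_map_of_injective (MulEquiv.injective _)
      rw [hcard]
      congr 1
      refine (Fintype.sum_bijective (fun h : HB B => (⟨(l : G) * h * (l : G)⁻¹, by
          rw [hHBsmul]; exact ⟨h, h.2, rfl⟩⟩ : HB (l • B))) ⟨?_, ?_⟩ _ _ fun h => ?_).symm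
      · intro h h' he
        exact Subtype.ext (by simpa using congrArg Subtype.val he)
      · rintro ⟨y, hy⟩
        rw [hHBsmul, Subgroup.mem_map] at hy
        obtain ⟨z, hz, rfl⟩ := hy
        exact ⟨⟨z, hz⟩, rfl⟩
      · rw [← hχ ((h : G) * m) (l : G)]
        congr 1
        simp only [Subgroup.coe_mul, Subgroup.coe_inv]
        group
    · rfl
  choose k hk using hSint
  haveI : Fintype (MulAction.orbitRel.Quotient L 𝓑) := Fintype.ofFinite _
  refine ⟨∑ ω : MulAction.orbitRel.Quotient L 𝓑, (-1) ^ ((Quotient.out ω).1.card + 1) *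
    k (Quotient.out ω), ?_⟩
  rw [hexp, ← (MulAction.selfEquivSigmaOrbitsQuotientStabilizer L 𝓑).symm.sum_comp,
    Fintype.sum_sigma, Finset.mul_sum]
  push_cast
  refine Finset.sum_congr rfl fun ω _ => ?_
  have hterm : ∀ q : L ⧸ MulAction.stabilizer L (Quotient.out ω),
      (-1 : ℂ) ^ (((MulAction.selfEquivSigmaOrbitsQuotientStabilizer L 𝓑).symm ⟨ω, q⟩).1.card + 1) *
        S ((MulAction.selfEquivSigmaOrbitsQuotientStabilizer L 𝓑).symm ⟨ω, q⟩) =
      (-1 : ℂ) ^ ((Quotient.out ω).1.card + 1) * S (Quotient.out ω) := by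
    intro q
    induction q using QuotientGroup.induction_on with
    | _ l =>
      have hq : (MulAction.selfEquivSigmaOrbitsQuotientStabilizer L 𝓑).symm ⟨ω, (l : _)⟩ =
          l • Quotient.out ω := rfl
      have hcard : (l • Quotient.out ω : 𝓑).1.card = (Quotient.out ω).1.card :=
        Finset.card_image_of_injective _ fun b c h => by simpa using h
      rw [hq, hSinv, hcard]
  rw [Finset.sum_congr rfl fun q _ => hterm q, Finset.sum_const, Finset.card_univ, nsmul_eq_mul,
    ← Nat.card_eq_fintype_card, hk, ← Subgroup.index]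
  have hL : (Nat.card L : ℂ) = (Nat.card (MulAction.stabilizer L (Quotient.out ω)) : ℂ) *
      ((MulAction.stabilizer L (Quotient.out ω)).index : ℂ) := by
    rw [← Nat.cast_mul, Subgroup.card_mul_index]
  have hL0 : (Nat.card L : ℂ) ≠ 0 := Nat.cast_ne_zero.mpr Nat.card_pos.ne'
  field_simp
  linear_combination (-(k (Quotient.out ω) : ℂ)) * hL

/-- A norm two virtual character vanishing at `1` and negated by conjugation is `μ - conj μ`. -/
theorem exists_sub_conj_of_norm_two {f : G → ℂ} (hf : IsGeneralizedCharacter G f) (h1 : f 1 = 0)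
    (hn : classInner f f = 2) (hc : conjFun f = -f) :
    ∃ μ : G → ℂ, IsIrrCharacter G μ ∧ f = μ - conjFun μ := by
  classical
  obtain ⟨a, b, ha, hb, hab, rfl⟩ := exists_sub_of_norm_two hf h1 hn
  have he : a - b = conjFun b - conjFun a := by
    have : conjFun (a - b) = conjFun a - conjFun b := funext fun g => map_sub conj (a g) (b g)
    rw [this] at hc
    linear_combination (norm := module) hc
  have h2 : classInner (a - b) (conjFun b - conjFun a) = 2 := he ▸ hn
  rw [classInner_irr_sub_sub (a' := conjFun b) (b' := conjFun a) ha hb (isIrrCharacter_conj hb)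
    (isIrrCharacter_conj ha)] at h2
  refine ⟨a, ha, ?_⟩
  have hb' : b = conjFun a := by
    by_contra hne
    split_ifs at h2 <;> norm_num at h2 <;> contradiction
  rw [hb']

end Cfsg.Lib.Characters
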