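import Cfsg.Agent.S1516
import Cfsg.Agent.Lib.Characters.Integrality

/-!
# Coherence of irreducible characters of equal degree
-/

set_option autoImplicit false
set_option linter.style.haveILetI false

open scoped ComplexConjugate

namespace Cfsg.Lib.Characters

open Cfsg Cfsg.Agent.S1516

universe u v

variable {L : Type u} [Group L] [Fintype L] {G : Type v} [Group G] [Fintype G]

/-- A norm two generalized character vanishing at the identity is a difference of irreducibles. -/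
theorem norm_two {f : G → ℂ} (hf : IsGeneralizedCharacter G f) (hn : classInner f f = 2)
    (h1 : f 1 = 0) : ∃ a b : G → ℂ, IsIrrCharacter G a ∧ IsIrrCharacter G b ∧ a ≠ b ∧ f = a - b := by
  classical
  obtain ⟨c, hc, hsq⟩ := exists_coeff hf
  rw [hn] at hsq
  have hs : ∑ χ, c χ ^ 2 = 2 := by exact_mod_cast hsq.symm
  set T := Finset.univ.filter fun χ => c χ ≠ 0 with hT
  have hu : ∀ χ ∈ T, c χ = 1 ∨ c χ = -1 := by
    intro χ hχ
    have h0 := (Finset.mem_filter.mp hχ).2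
    have h2 : c χ ^ 2 ≤ 2 := hs ▸ Finset.single_le_sum (fun φ _ => sq_nonneg (c φ)) (Finset.mem_univ χ)
    have h3 : -1 ≤ c χ ∧ c χ ≤ 1 := ⟨by nlinarith, by nlinarith⟩
    omega
  have hcard : T.card = 2 := by
    have e : ∑ χ ∈ T, c χ ^ 2 = 2 := by
      rw [← hs, hT, Finset.sum_filter]
      exact Finset.sum_congr rfl fun χ _ => by by_cases h : c χ = 0 <;> simp [h]
    rw [Finset.sum_congr rfl fun χ hχ => show c χ ^ 2 = 1 by
      rcases hu χ hχ with h | h <;> rw [h] <;> norm_num, Finset.sum_const, nsmul_eq_mul, mul_one] at e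
    exact_mod_cast e
  obtain ⟨p, q, hpq, hTe⟩ := Finset.card_eq_two.mp hcard
  have hfe : ∀ g, f g = (c p : ℂ) * (p : G → ℂ) g + (c q : ℂ) * (q : G → ℂ) g := by
    intro g
    rw [congrFun hc g, Finset.sum_apply]
    have : ∑ χ, ((c χ : ℂ) • (χ : G → ℂ)) g = ∑ χ ∈ T, ((c χ : ℂ) • (χ : G → ℂ)) g := by
      rw [hT, Finset.sum_filter]
      exact Finset.sum_congr rfl fun χ _ => by by_cases h : c χ = 0 <;> simp [h]
    rw [this, hTe, Finset.sum_pair hpq]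
    simp
  obtain ⟨dp, hdp0, hdp⟩ := p.2.exists_degree_pos
  obtain ⟨dq, hdq0, hdq⟩ := q.2.exists_degree_pos
  have hdeg : c p * dp + c q * dq = 0 := by
    have e := hfe 1
    rw [h1, hdp, hdq] at e
    exact_mod_cast e.symm
  have hpT : p ∈ T := by rw [hTe]; simp
  have hqT : q ∈ T := by rw [hTe]; simp
  have hne : (p : G → ℂ) ≠ q := fun h => hpq (Subtype.ext h)
  rcases hu p hpT with hp | hp <;> rcases hu q hqT with hq | hq <;> rw [hp, hq] at hdeg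
  · omega
  · exact ⟨p, q, p.2, q.2, hne, funext fun g => by rw [hfe g, hp, hq, Pi.sub_apply]; push_cast; ring⟩
  · exact ⟨q, p, q.2, p.2, hne.symm, funext fun g => by rw [hfe g, hp, hq, Pi.sub_apply]; push_cast; ring⟩
  · omega

/-- Irreducible characters of one degree form a coherent set. -/
theorem coherent_equal_degree (S : Finset (L → ℂ)) (hirr : ∀ χ ∈ S, IsIrrCharacter L χ)
    (hdeg : ∀ χ ∈ S, ∀ ψ ∈ S, χ 1 = ψ 1) (htwo : 2 ≤ S.card) (τ : (L → ℂ) → G → ℂ)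
    (hτ : IsLinearIsometryOn (zspanOn (↑S : Set (L → ℂ)) {1}ᶜ) τ)
    (hτ1 : ∀ α ∈ zspanOn (↑S : Set (L → ℂ)) {1}ᶜ, τ α 1 = 0) :
    IsCoherent (↑S : Set (L → ℂ)) {1}ᶜ τ := by
  classical
  obtain ⟨hadd, hsmul, hiso, hgen⟩ := hτ
  obtain ⟨χ₁, hχ₁⟩ := Finset.card_pos.mp (show 0 < S.card by omega)
  set S' := S.erase χ₁ with hS'
  have hS'm : ∀ χ ∈ S', χ ≠ χ₁ ∧ χ ∈ S := fun χ h => Finset.mem_erase.mp h
  obtain ⟨χ₂, hχ₂⟩ : S'.Nonempty := by
    rw [← Finset.card_pos, hS', Finset.card_erase_of_mem hχ₁]; omega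
  have hD : ∀ χ ∈ S, χ₁ - χ ∈ zspanOn (↑S : Set (L → ℂ)) {1}ᶜ := fun χ hχ =>
    ⟨Submodule.sub_mem _ (Submodule.subset_span hχ₁) (Submodule.subset_span hχ), fun x hx => by
      rw [show x = 1 by simpa using hx, Pi.sub_apply, hdeg χ₁ hχ₁ χ hχ, sub_self]⟩
  have hio : ∀ χ ∈ S, ∀ ψ ∈ S, χ ≠ ψ → classInner χ ψ = 0 := fun χ hχ ψ hψ h =>
    classInner_irr_ne (hirr χ hχ) (hirr ψ hψ) h
  have hII : ∀ χ ∈ S', ∀ ψ ∈ S', classInner (τ (χ₁ - χ)) (τ (χ₁ - ψ)) = if χ = ψ then 2 else 1 := by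
    intro χ hχ ψ hψ
    obtain ⟨hχ0, hχS⟩ := hS'm χ hχ
    obtain ⟨hψ0, hψS⟩ := hS'm ψ hψ
    rw [hiso _ (hD χ hχS) _ (hD ψ hψS), classInner_sub_left, classInner_sub_right, classInner_sub_right,
      classInner_irr_self (hirr χ₁ hχ₁), hio χ₁ hχ₁ ψ hψS hψ0.symm, hio χ hχS χ₁ hχ₁ hχ0]
    by_cases h : χ = ψ
    · rw [if_pos h, h, classInner_irr_self (hirr ψ hψS)]; norm_num
    · rw [if_neg h, hio χ hχS ψ hψS h]; norm_num
  choose! a b ha hb hab hDab using fun χ (hχ : χ ∈ S') =>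
    norm_two (hgen _ (hD χ (hS'm χ hχ).2)) (by rw [hII χ hχ χ hχ, if_pos rfl])
      (hτ1 _ (hD χ (hS'm χ hχ).2))
  have hpair : ∀ χ ∈ S', ∀ ψ ∈ S', χ ≠ ψ →
      (a χ = a ψ ∨ b χ = b ψ) ∧ ¬(a χ = a ψ ∧ b χ = b ψ) := by
    intro χ hχ ψ hψ hne
    have h := hII χ hχ ψ hψ
    rw [if_neg hne, hDab χ hχ, hDab ψ hψ, classInner_sub_left, classInner_sub_right, classInner_sub_right,
      classInner_irr (ha χ hχ) (ha ψ hψ), classInner_irr (ha χ hχ) (hb ψ hψ),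
      classInner_irr (hb χ hχ) (ha ψ hψ), classInner_irr (hb χ hχ) (hb ψ hψ)] at h
    refine ⟨?_, fun ⟨e1, e2⟩ => ?_⟩
    · by_contra hcon
      push Not at hcon
      rw [if_neg hcon.1, if_neg hcon.2] at h
      split_ifs at h <;> norm_num at h
    · rw [if_pos e1, if_pos e2, if_neg (e2 ▸ hab χ hχ), if_neg (e1 ▸ (hab χ hχ).symm)] at h
      norm_num at h
  -- the images
  obtain ⟨X₁, X, hXg, hX1, hX11, hXX, hXD⟩ : ∃ (X₁ : G → ℂ) (X : (L → ℂ) → G → ℂ),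
      (IsGeneralizedCharacter G X₁ ∧ ∀ χ ∈ S', IsGeneralizedCharacter G (X χ)) ∧
      (∀ χ ∈ S', classInner X₁ (X χ) = 0) ∧ classInner X₁ X₁ = 1 ∧
      (∀ χ ∈ S', ∀ ψ ∈ S', classInner (X χ) (X ψ) = if χ = ψ then 1 else 0) ∧
      ∀ χ ∈ S', τ (χ₁ - χ) = X₁ - X χ := by
    have hgi : ∀ f : G → ℂ, IsIrrCharacter G f → IsGeneralizedCharacter G f := fun f h =>
      isGeneralized_of_isCharacter h.isCharacter
    by_cases hA : ∀ χ ∈ S', a χ = a χ₂
    · refine ⟨a χ₂, b, ⟨hgi _ (ha χ₂ hχ₂), fun χ hχ => hgi _ (hb χ hχ)⟩,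
        fun χ hχ => classInner_irr_ne (ha χ₂ hχ₂) (hb χ hχ) (hA χ hχ ▸ hab χ hχ),
        classInner_irr_self (ha χ₂ hχ₂), fun χ hχ ψ hψ => ?_, fun χ hχ => by rw [hDab χ hχ, hA χ hχ]⟩
      by_cases h : χ = ψ
      · rw [if_pos h, h, classInner_irr_self (hb ψ hψ)]
      · rw [if_neg h, classInner_irr_ne (hb χ hχ) (hb ψ hψ) fun e =>
          (hpair χ hχ ψ hψ h).2 ⟨(hA χ hχ).trans (hA ψ hψ).symm, e⟩]
    · push Not at hA
      obtain ⟨χ₃, hχ₃, h3⟩ := hA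
      have h32 : χ₃ ≠ χ₂ := fun e => h3 (by rw [e])
      have hB : ∀ χ ∈ S', b χ = b χ₂ := by
        intro χ hχ
        by_contra hne
        have e1 : a χ = a χ₂ := (hpair χ hχ χ₂ hχ₂ fun e => hne (by rw [e])).1.resolve_right hne
        have e2 : b χ₃ = b χ₂ := (hpair χ₃ hχ₃ χ₂ hχ₂ h32).1.resolve_left h3
        have hne3 : χ ≠ χ₃ := fun e => hne (by rw [e, e2])
        rcases (hpair χ hχ χ₃ hχ₃ hne3).1 with e | e
        · exact h3 (e.symm.trans e1)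
        · exact hne (e.trans e2)
      refine ⟨-b χ₂, fun χ => -a χ, ⟨isGeneralized_neg (hgi _ (hb χ₂ hχ₂)),
        fun χ hχ => isGeneralized_neg (hgi _ (ha χ hχ))⟩, fun χ hχ => ?_, ?_, fun χ hχ ψ hψ => ?_,
        fun χ hχ => by rw [hDab χ hχ, hB χ hχ]; simp only; rw [neg_sub_neg]⟩
      · rw [classInner_neg_left, classInner_neg_right, neg_neg,
          classInner_irr_ne (hb χ₂ hχ₂) (ha χ hχ) (hB χ hχ ▸ (hab χ hχ).symm)]
      · rw [classInner_neg_left, classInner_neg_right, neg_neg, classInner_irr_self (hb χ₂ hχ₂)]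
      · simp only [classInner_neg_left, classInner_neg_right, neg_neg]
        by_cases h : χ = ψ
        · rw [if_pos h, h, classInner_irr_self (ha ψ hψ)]
        · rw [if_neg h, classInner_irr_ne (ha χ hχ) (ha ψ hψ) fun e =>
            (hpair χ hχ ψ hψ h).2 ⟨e, (hB χ hχ).trans (hB ψ hψ).symm⟩]
  let Z : (L → ℂ) → G → ℂ := fun φ => if φ = χ₁ then X₁ else X φ
  have hZ1 : Z χ₁ = X₁ := if_pos rfl
  have hZ : ∀ φ ∈ S', Z φ = X φ := fun φ hφ => if_neg (hS'm φ hφ).1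
  have hmem : ∀ φ ∈ S, φ = χ₁ ∨ φ ∈ S' := fun φ hφ => by
    by_cases h : φ = χ₁
    · exact Or.inl h
    · exact Or.inr (Finset.mem_erase.mpr ⟨h, hφ⟩)
  have hSn : ∀ φ ∈ S, classInner φ φ ≠ 0 := fun φ hφ => by
    rw [classInner_irr_self (hirr φ hφ)]; exact one_ne_zero
  have hZiso : ∀ φ ∈ S, ∀ ψ ∈ S, classInner (Z φ) (Z ψ) = classInner φ ψ := by
    intro φ hφ ψ hψ
    rcases hmem φ hφ with h | h <;> rcases hmem ψ hψ with h' | h'
    · rw [h, h', hZ1, hX11, classInner_irr_self (hirr χ₁ hχ₁)]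
    · rw [h, hZ1, hZ ψ h', hX1 ψ h', hio χ₁ hχ₁ ψ hψ (hS'm ψ h').1.symm]
    · rw [h', hZ1, hZ φ h, ← conj_classInner X₁, hX1 φ h, map_zero, hio φ hφ χ₁ hχ₁ (hS'm φ h).1]
    · rw [hZ φ h, hZ ψ h', hXX φ h ψ h', classInner_irr (hirr φ hφ) (hirr ψ hψ)]
  have hZg : ∀ φ ∈ S, IsGeneralizedCharacter G (Z φ) := fun φ hφ => by
    rcases hmem φ hφ with h | h
    · rw [h, hZ1]; exact hXg.1
    · rw [hZ φ h]; exact hXg.2 φ h
  refine ⟨⟨χ₁ - χ₂, hD χ₂ (hS'm χ₂ hχ₂).2, sub_ne_zero.mpr (hS'm χ₂ hχ₂).1.symm⟩, ext' S Z,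
    isometry_ext' hio hSn Z hZiso hZg, ?_⟩
  rintro f ⟨hf, hf0⟩
  set V := Submodule.span ℤ ((fun χ => χ₁ - χ) '' (↑S' : Set (L → ℂ))) with hV
  have hdec : ∀ f ∈ zspan (↑S : Set (L → ℂ)), ∃ m : ℤ, f - m • χ₁ ∈ V := by
    intro f hf
    induction hf using Submodule.span_induction with
    | mem φ hφ =>
      refine ⟨1, ?_⟩
      rcases hmem φ hφ with h | h
      · rw [h, one_smul, sub_self]; exact Submodule.zero_mem _
      · rw [one_smul, ← neg_sub]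
        exact Submodule.neg_mem _ (Submodule.subset_span ⟨φ, h, rfl⟩)
    | zero => exact ⟨0, by simp⟩
    | add f g _ _ i1 i2 =>
      obtain ⟨m, hm⟩ := i1
      obtain ⟨k, hk⟩ := i2
      refine ⟨m + k, ?_⟩
      rw [show f + g - (m + k) • χ₁ = (f - m • χ₁) + (g - k • χ₁) by module]
      exact Submodule.add_mem _ hm hk
    | smul c f _ i1 =>
      obtain ⟨m, hm⟩ := i1
      refine ⟨c * m, ?_⟩
      rw [show c • f - (c * m) • χ₁ = c • (f - m • χ₁) by module]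
      exact Submodule.smul_mem _ _ hm
  have hVon : ∀ g ∈ V, g ∈ zspanOn (↑S : Set (L → ℂ)) {1}ᶜ ∧ ext' S Z g = τ g := by
    intro g hg
    induction hg using Submodule.span_induction with
    | mem x hx =>
      obtain ⟨φ, hφ, rfl⟩ := hx
      refine ⟨hD φ (hS'm φ hφ).2, ?_⟩
      show ext' S Z (χ₁ - φ) = τ (χ₁ - φ)
      rw [hXD φ hφ, show χ₁ - φ = χ₁ + (-1 : ℤ) • φ by module, ext'_add, ext'_zsmul,
        ext'_apply hio hSn Z hχ₁, ext'_apply hio hSn Z (hS'm φ hφ).2, hZ1, hZ φ hφ, neg_one_smul,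
        ← sub_eq_add_neg]
    | zero =>
      refine ⟨⟨Submodule.zero_mem _, fun x _ => rfl⟩, ?_⟩
      have := hsmul _ (hD χ₁ hχ₁) 0
      rw [zero_smul, zero_smul] at this
      rw [ext'_zero, this]
    | add f g _ _ i1 i2 =>
      exact ⟨⟨Submodule.add_mem _ i1.1.1 i2.1.1, fun x hx => by
        rw [Pi.add_apply, i1.1.2 x hx, i2.1.2 x hx, add_zero]⟩, by
          rw [ext'_add, hadd _ i1.1 _ i2.1, i1.2, i2.2]⟩
    | smul c f _ i1 =>
      exact ⟨⟨Submodule.smul_mem _ _ i1.1.1, fun x hx => by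
        rw [Pi.smul_apply, i1.1.2 x hx, smul_zero]⟩, by rw [ext'_zsmul, hsmul _ i1.1, i1.2]⟩
  obtain ⟨m, hm⟩ := hdec f hf
  have hm0 : m = 0 := by
    have h := (hVon _ hm).1.2 1 (by simp)
    rw [Pi.sub_apply, Pi.smul_apply, hf0 1 (by simp), zsmul_eq_mul, zero_sub, neg_eq_zero] at h
    exact Int.cast_eq_zero.mp ((mul_eq_zero.mp h).resolve_right (hirr χ₁ hχ₁).one_ne_zero)
  rw [hm0, zero_smul, sub_zero] at hm
  exact (hVon f hm).2

end Cfsg.Lib.Characters
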