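import Cfsg.Prelude.Def_OddOrderChar
import Cfsg.Agent.Lib.Characters.TI
import Cfsg.Agent.Lib.Characters.Correspondence
import Cfsg.Agent.Lib.Characters.FixedChars
import Cfsg.Agent.Lib.Characters.Integrality

/-!
# Exceptional characters of a group with a CC-subgroup

`H` is normal in `L` and contains the centralisers in `L` of its non-identity elements.
-/

set_option linter.unusedSectionVars false
set_option linter.style.haveILetI false

open scoped ComplexConjugate

universe u

namespace Cfsg.Lib.Characters.Exceptional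

open Cfsg Cfsg.Lib.Characters

section inL

variable {L : Type u} [Group L] [Fintype L] (H : Subgroup L) [H.Normal] [Fintype H]

/-- An irreducible character that is not constant on `H`. -/
def IsExc (χ : L → ℂ) : Prop := IsIrrCharacter L χ ∧ ∃ k ∈ H, χ k ≠ χ 1

variable {H} (hC : ∀ k ∈ H, k ≠ 1 → Subgroup.centralizer ({k} : Set L) ≤ H)

include hC in
theorem exists_ind {χ : L → ℂ} (h : IsExc H χ) :
    ∃ θ : H → ℂ, IsIrrCharacter H θ ∧ θ ≠ (fun _ => 1) ∧ χ = indFun H θ := by
  classical
  obtain ⟨hirr, hnt⟩ := h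
  obtain ⟨θ, hθ, hne⟩ := classInner_res_ne_zero (N := H) hirr
  have hne1 : θ ≠ fun _ => 1 := by
    intro h1
    obtain ⟨k, hk, hk'⟩ := hnt
    refine hk' ?_
    have hcl := clifford hirr hθ hne
    have horb : orbitFinset H θ = {θ} := by
      refine Finset.eq_singleton_iff_unique_mem.mpr
        ⟨mem_orbitFinset.mpr ⟨1, (conjFn_one θ).symm⟩, fun x hx => ?_⟩
      obtain ⟨g, rfl⟩ := mem_orbitFinset.mp hx
      funext n; simp [conjFn, h1]
    rw [horb, Finset.sum_singleton] at hcl
    have e1 := congrFun hcl ⟨k, hk⟩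
    have e2 := congrFun hcl 1
    simp only [Pi.smul_apply, h1, OneMemClass.coe_one] at e1 e2
    rw [e1, e2]
  refine ⟨θ, hθ, hne1, ?_⟩
  have hind : IsIrrCharacter L (indFun H θ) :=
    (isIrrCharacter_indFun_iff hθ).mpr (inertia_eq_of_centralizer_le H hC hθ hne1)
  by_contra hne'
  refine hne ?_
  rw [← conj_classInner, ← classInner_indFun H θ hirr.isClassFunction,
    classInner_irr_ne hind hirr (Ne.symm hne'), map_zero]

include hC in
theorem vanish {χ : L → ℂ} (h : IsExc H χ) {x : L} (hx : x ∉ H) : χ x = 0 := by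
  obtain ⟨θ, -, -, rfl⟩ := exists_ind hC h
  exact indFun_apply_not_mem θ hx

include hC in
theorem isExc_indFun {θ : H → ℂ} (hθ : IsIrrCharacter H θ) (hne : θ ≠ fun _ => 1) :
    IsExc H (indFun H θ) := by
  classical
  have hirr : IsIrrCharacter L (indFun H θ) :=
    (isIrrCharacter_indFun_iff hθ).mpr (inertia_eq_of_centralizer_le H hC hθ hne)
  refine ⟨hirr, ?_⟩
  by_contra h
  push Not at h
  -- then the restriction is a multiple of the principal character
  have h0 : classInner (fun n : H => indFun H θ n) θ = 0 := by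
    have hc : (fun n : H => indFun H θ n) = indFun H θ 1 • fun _ => (1 : ℂ) :=
      funext fun n => by simp [h n n.2]
    rw [hc, classInner_smul_left, classInner_irr_ne isIrrCharacter_one hθ (Ne.symm hne), mul_zero]
  have h1 := classInner_indFun H θ hirr.isClassFunction
  rw [classInner_irr_self hirr, ← conj_classInner, h0, map_zero] at h1
  exact one_ne_zero h1

include hC in
/-- A class function with inner products proportional to the degrees of the exceptional characters
is constant on `H` away from the identity. -/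
theorem const_of_proportional {f : L → ℂ} (hf : IsClassFunction L f) {χ₀ : L → ℂ} (h₀ : IsExc H χ₀)
    (hprop : ∀ ξ, IsExc H ξ → χ₀ 1 * classInner f ξ = ξ 1 * classInner f χ₀)
    {a b : L} (ha : a ∈ H) (hb : b ∈ H) (ha1 : a ≠ 1) (hb1 : b ≠ 1) : f a = f b := by
  classical
  set c := classInner f χ₀ / χ₀ 1 with hc
  set g : L → ℂ := fun x => (if x ∈ H then f x else 0) +
    (if x = 1 then -c * (Nat.card L : ℂ) else 0) with hg
  have hgc : IsClassFunction L g := by
    intro x y
    have h1 : y * x * y⁻¹ ∈ H ↔ x ∈ H := ⟨fun h => by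
      simpa [mul_assoc] using ‹H.Normal›.conj_mem _ h y⁻¹, fun h => ‹H.Normal›.conj_mem x h y⟩
    have h2 : y * x * y⁻¹ = 1 ↔ x = 1 := by simp
    simp only [hg, h1, h2, hf x y]
  have hgξ : ∀ ξ, IsExc H ξ → classInner g ξ = 0 := by
    intro ξ hξ
    have e1 : classInner g ξ = classInner f ξ +
        (Nat.card L : ℂ)⁻¹ * (-c * (Nat.card L : ℂ) * conj (ξ 1)) := by
      simp only [classInner, hg, add_mul, Finset.sum_add_distrib, mul_add]
      congr 1
      · congr 1
        refine Finset.sum_congr rfl fun x _ => ?_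
        by_cases hx : x ∈ H
        · rw [if_pos hx]
        · rw [vanish hC hξ hx, map_zero, mul_zero, mul_zero]
      · congr 1
        rw [Finset.sum_eq_single (1 : L) (fun x _ hx => by simp [hx]) (by simp), if_pos rfl]
    have hL : (Nat.card L : ℂ) ≠ 0 := Nat.cast_ne_zero.mpr Nat.card_pos.ne'
    have h0' : χ₀ 1 ≠ 0 := h₀.1.one_ne_zero
    rw [e1, conj_char_one hξ.1.isCharacter, hc]
    field_simp
    linear_combination hprop ξ hξ
  have hexp := classFunction_expansion hgc
  have hconst : g a = g b := by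
    rw [hexp]
    simp only [Finset.sum_apply, Pi.smul_apply, smul_eq_mul]
    refine Finset.sum_congr rfl fun φ _ => ?_
    by_cases hφ : IsExc H φ.1
    · rw [hgξ φ.1 hφ, zero_mul, zero_mul]
    · have h := fun k hk => not_not.mp fun h => hφ ⟨φ.2, k, hk, h⟩
      rw [h a ha, h b hb]
  simpa [hg, ha, hb, ha1, hb1] using hconst

include hC in
/-- An exceptional character is not constant on the non-identity elements of `H`, when there is
another one. -/
theorem not_const {χ ξ : L → ℂ} (hχ : IsExc H χ) (hξ : IsExc H ξ) (hne : χ ≠ ξ) :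
    ∃ a ∈ H, ∃ b ∈ H, a ≠ 1 ∧ b ≠ 1 ∧ χ a ≠ χ b := by
  classical
  by_contra hcon
  push Not at hcon
  obtain ⟨k₀, hk₀, hk₀'⟩ := hχ.2
  have hk1 : k₀ ≠ 1 := fun h => hk₀' (by rw [h])
  obtain ⟨φ, hφ, hφne, rfl⟩ := exists_ind hC hξ
  have hres : (fun n : H => χ n) =
      fun n : H => χ k₀ * 1 + (χ 1 - χ k₀) * (if n = 1 then (1 : ℂ) else 0) := by
    funext n
    by_cases hn : n = 1
    · rw [if_pos hn, hn, OneMemClass.coe_one]; ring
    · rw [if_neg hn, hcon n n.2 k₀ hk₀ (fun h => hn (Subtype.ext h)) hk1]; ring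
  have hin : classInner (fun n : H => χ n) φ ≠ 0 := by
    have hsplit : classInner (fun n : H => χ n) φ = χ k₀ * classInner (fun _ : H => (1 : ℂ)) φ +
        (χ 1 - χ k₀) * ((Nat.card H : ℂ)⁻¹ * conj (φ 1)) := by
      rw [hres]
      simp only [classInner, add_mul, Finset.sum_add_distrib, mul_add]
      congr 1
      · rw [Finset.mul_sum, Finset.mul_sum, Finset.mul_sum]
        exact Finset.sum_congr rfl fun n _ => by ring
      · rw [Finset.sum_eq_single (1 : H) (fun n _ hn => by rw [if_neg hn]; ring) (by simp), if_pos rfl]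
        ring
    rw [hsplit, classInner_irr_ne isIrrCharacter_one hφ (Ne.symm hφne), mul_zero, zero_add]
    refine mul_ne_zero (sub_ne_zero.mpr hk₀'.symm) (mul_ne_zero ?_ ?_)
    · exact inv_ne_zero (Nat.cast_ne_zero.mpr Nat.card_pos.ne')
    · simpa using hφ.one_ne_zero
  refine hin ?_
  rw [← conj_classInner, ← classInner_indFun H φ hχ.1.isClassFunction,
    classInner_irr_ne hξ.1 hχ.1 (Ne.symm hne), map_zero]

end inL

section inG

variable {G : Type u} [Group G] [Fintype G] (K : Subgroup G)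

/-- The standing facts about an isometric extension of induction on degree-zero combinations. -/
theorem setup {S : Set (↥(Subgroup.normalizer (K : Set G)) → ℂ)}
    [Fintype ↥(Subgroup.normalizer (K : Set G))]
    (hTI : ∀ g : G, g ∉ Subgroup.normalizer (K : Set G) → ∀ k ∈ K, g * k * g⁻¹ ∈ K → k = 1)
    (hC : ∀ k ∈ K, k ≠ 1 → Subgroup.centralizer ({k} : Set G) ≤ K)
    (hS : ∀ χ, χ ∈ S ↔ IsExc (K.subgroupOf (Subgroup.normalizer (K : Set G))) χ)
    {star : (↥(Subgroup.normalizer (K : Set G)) → ℂ) → (G → ℂ)}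
    (hstar : Cfsg.IsLinearIsometryOn (Cfsg.zspan S) star)
    (hext : ∀ α ∈ Cfsg.zspanOn S ({1}ᶜ : Set ↥(Subgroup.normalizer (K : Set G))),
      star α = Cfsg.indFun (Subgroup.normalizer (K : Set G)) α) :
    (∀ χ ∈ S, ∀ ξ ∈ S, ξ 1 • star χ - χ 1 • star ξ =
        indFun (Subgroup.normalizer (K : Set G)) (ξ 1 • χ - χ 1 • ξ)) ∧
    (∀ χ ∈ S, ∀ ξ ∈ S, ∀ k : ↥(Subgroup.normalizer (K : Set G)), (k : G) ∈ K → k ≠ 1 →
        ξ 1 * (star χ k - χ k) = χ 1 * (star ξ k - ξ k)) ∧
    ∀ k ∈ K.subgroupOf (Subgroup.normalizer (K : Set G)), k ≠ 1 →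
      Subgroup.centralizer ({k} : Set ↥(Subgroup.normalizer (K : Set G))) ≤
        K.subgroupOf (Subgroup.normalizer (K : Set G)) := by
  classical
  haveI : (K.subgroupOf (Subgroup.normalizer (K : Set G))).Normal := Subgroup.normal_in_normalizer
  haveI : Fintype (K.subgroupOf (Subgroup.normalizer (K : Set G))) := Fintype.ofFinite _
  have hcent : ∀ k ∈ K.subgroupOf (Subgroup.normalizer (K : Set G)), k ≠ 1 → Subgroup.centralizer ({k} : Set (Subgroup.normalizer (K : Set G))) ≤ K.subgroupOf (Subgroup.normalizer (K : Set G)) := by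
    intro k hk hk1 x hx
    refine hC k hk (fun h => hk1 (Subtype.ext h)) (Subgroup.mem_centralizer_singleton_iff.mpr ?_)
    exact congrArg Subtype.val (Subgroup.mem_centralizer_singleton_iff.mp hx)
  obtain ⟨hadd, hsmul, -, -⟩ := hstar
  have hlin : ∀ χ ∈ S, ∀ ξ ∈ S, ξ 1 • star χ - χ 1 • star ξ =
      indFun (Subgroup.normalizer (K : Set G)) (ξ 1 • χ - χ 1 • ξ) := by
    intro χ hχ ξ hξ
    obtain ⟨a, ha⟩ := exists_degree ((hS χ).mp hχ).1.isCharacter
    obtain ⟨b, hb⟩ := exists_degree ((hS ξ).mp hξ).1.isCharacter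
    have hmem : ξ 1 • χ - χ 1 • ξ ∈ zspanOn S ({1}ᶜ : Set (Subgroup.normalizer (K : Set G))) := by
      refine ⟨?_, fun x hx => ?_⟩
      · rw [ha, hb, Nat.cast_smul_eq_nsmul, Nat.cast_smul_eq_nsmul, ← natCast_zsmul, ← natCast_zsmul]
        exact Submodule.sub_mem _ (Submodule.smul_mem _ _ (Submodule.subset_span hχ))
          (Submodule.smul_mem _ _ (Submodule.subset_span hξ))
      · rw [show x = 1 by simpa using hx]
        simp [mul_comm]
    rw [← hext _ hmem, eq_comm, eq_sub_iff_add_eq]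
    have e : ∀ (m : ℕ) (φ : (Subgroup.normalizer (K : Set G)) → ℂ), φ ∈ S → (m : ℂ) • star φ = star ((m : ℂ) • φ) := by
      intro m φ hφ
      rw [Nat.cast_smul_eq_nsmul, Nat.cast_smul_eq_nsmul, ← natCast_zsmul, ← natCast_zsmul,
        hsmul _ (Submodule.subset_span hφ)]
    rw [ha, hb] at hmem
    rw [ha, hb, e a ξ hξ, e b χ hχ, ← hadd _ hmem.1 _ ?_, sub_add_cancel]
    rw [Nat.cast_smul_eq_nsmul, ← natCast_zsmul]
    exact Submodule.smul_mem _ _ (Submodule.subset_span hξ)
  refine ⟨hlin, fun χ hχ ξ hξ k hk hk1 => ?_, hcent⟩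
  have hval : indFun (Subgroup.normalizer (K : Set G)) (ξ 1 • χ - χ 1 • ξ) (k : G) = (ξ 1 • χ - χ 1 • ξ) k := by
    refine indFun_eq_of_ti (T := (K : Set G)) ?_ ?_ ?_ k hk hk1
    · exact fun g hg t ht h => hTI g hg t ht h
    · intro x y
      simp [((hS χ).mp hχ).1.isClassFunction x y, ((hS ξ).mp hξ).1.isClassFunction x y]
    · intro x hx
      simp [vanish hcent ((hS χ).mp hχ) (x := x) hx, vanish hcent ((hS ξ).mp hξ) (x := x) hx]
  have h := congrFun (hlin χ hχ ξ hξ) (k : G)
  rw [hval] at h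
  simp only [Pi.sub_apply, Pi.smul_apply, smul_eq_mul] at h
  linear_combination h

/-- Characters orthogonal to the images agree with induction on the degree-zero combinations. -/
theorem inner_image {S : Set (↥(Subgroup.normalizer (K : Set G)) → ℂ)}
    [Fintype ↥(Subgroup.normalizer (K : Set G))]
    {star : (↥(Subgroup.normalizer (K : Set G)) → ℂ) → (G → ℂ)}
    (hlin : ∀ χ ∈ S, ∀ ξ ∈ S, ξ 1 • star χ - χ 1 • star ξ =
        indFun (Subgroup.normalizer (K : Set G)) (ξ 1 • χ - χ 1 • ξ))
    {ψ : G → ℂ} (hψ : IsClassFunction G ψ) {χ ξ : ↥(Subgroup.normalizer (K : Set G)) → ℂ}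
    (hχ : χ ∈ S) (hξ : ξ ∈ S) (hχc : IsCharacter _ χ) (hξc : IsCharacter _ ξ) :
    χ 1 * classInner ψ (star ξ) - ξ 1 * classInner ψ (star χ) =
      χ 1 * classInner (fun x : ↥(Subgroup.normalizer (K : Set G)) => ψ x) ξ -
        ξ 1 * classInner (fun x : ↥(Subgroup.normalizer (K : Set G)) => ψ x) χ := by
  have e := congrArg (classInner ψ) (hlin ξ hξ χ hχ)
  rw [classInner_indFun_right (Subgroup.normalizer (K : Set G)) _ hψ] at e
  simp only [classInner_sub_right, classInner_smul_right, conj_char_one hχc, conj_char_one hξc] at e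
  exact e

end inG

end Cfsg.Lib.Characters.Exceptional
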