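import Cfsg.Agent.Lib.Characters.EqualDegree
import Cfsg.Agent.Lib.Characters.Exceptional
import Cfsg.Agent.Lib.Characters.Gallagher
import Cfsg.Agent.S1526
import Cfsg.Agent.Lib.Solv.MinimalNonNilpotent
import Cfsg.Agent.Lib.Characters.ExtendOne

/-!
# Coherence for Frobenius kernels
-/

set_option autoImplicit false
set_option linter.style.haveILetI false
set_option linter.unusedSectionVars false

open scoped ComplexConjugate

namespace Cfsg.Lib.Characters

open Cfsg

universe u v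

section prod

variable {A B : Type*} [Group A] [Fintype A] [Group B] [Fintype B]

theorem classInner_prod (α α' : A → ℂ) (β β' : B → ℂ) :
    classInner (fun x : A × B => α x.1 * β x.2) (fun x : A × B => α' x.1 * β' x.2) =
      classInner α α' * classInner β β' := by
  simp only [classInner, Nat.card_prod, Nat.cast_mul, mul_inv, map_mul]
  rw [mul_mul_mul_comm, Finset.sum_mul_sum, Fintype.sum_prod_type]
  congr 1
  exact Finset.sum_congr rfl fun a _ => Finset.sum_congr rfl fun b _ => by ring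

theorem prod_irr {α : A → ℂ} {β : B → ℂ} (hα : IsIrrCharacter A α) (hβ : IsIrrCharacter B β) :
    IsIrrCharacter (A × B) (fun x => α x.1 * β x.2) :=
  isIrrCharacter_of_classInner_eq_one
    (isCharacter_mul (isCharacter_comp hα.isCharacter (MonoidHom.fst A B))
      (isCharacter_comp hβ.isCharacter (MonoidHom.snd A B)))
    (by rw [classInner_prod, classInner_irr_self hα, classInner_irr_self hβ, mul_one])

/-- The irreducible character of a product attached to a pair. -/
noncomputable def prodIrr (p : IrrCharacter A × IrrCharacter B) : IrrCharacter (A × B) :=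
  ⟨_, prod_irr p.1.2 p.2.2⟩

theorem prodIrr_injective : Function.Injective (prodIrr (A := A) (B := B)) := by
  rintro ⟨α, β⟩ ⟨α', β'⟩ h
  have h' : (fun x : A × B => (α : A → ℂ) x.1 * (β : B → ℂ) x.2) =
      fun x : A × B => (α' : A → ℂ) x.1 * (β' : B → ℂ) x.2 := congrArg Subtype.val h
  have e : classInner (α : A → ℂ) α' * classInner (β : B → ℂ) β' = 1 := by
    rw [← classInner_prod, ← h', classInner_prod, classInner_irr_self α.2, classInner_irr_self β.2,
      mul_one]
  refine Prod.ext (Subtype.ext (by_contra fun hne => ?_)) (Subtype.ext (by_contra fun hne => ?_))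
  · rw [classInner_irr_ne α.2 α'.2 hne, zero_mul] at e; exact zero_ne_one e
  · rw [classInner_irr_ne β.2 β'.2 hne, mul_zero] at e; exact zero_ne_one e

theorem prodIrr_surjective : Function.Surjective (prodIrr (A := A) (B := B)) := by
  classical
  intro χ
  by_contra hcon
  push Not at hcon
  choose d hd using fun ξ : IrrCharacter (A × B) => exists_degree ξ.2.isCharacter
  choose a ha using fun ξ : IrrCharacter A => exists_degree ξ.2.isCharacter
  choose b hb using fun ξ : IrrCharacter B => exists_degree ξ.2.isCharacter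
  have h1 : ∑ ξ, d ξ ^ 2 = Nat.card (A × B) := by
    have := sum_sq_degree (G := A × B)
    simp only [hd] at this
    exact_mod_cast this
  have h2 : ∑ p : IrrCharacter A × IrrCharacter B, d (prodIrr p) ^ 2 = Nat.card (A × B) := by
    have hA := sum_sq_degree (G := A)
    have hB := sum_sq_degree (G := B)
    simp only [ha] at hA
    simp only [hb] at hB
    have hA' : ∑ ξ, a ξ ^ 2 = Nat.card A := by exact_mod_cast hA
    have hB' : ∑ ξ, b ξ ^ 2 = Nat.card B := by exact_mod_cast hB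
    rw [Nat.card_prod, ← hA', ← hB', Finset.sum_mul_sum, Fintype.sum_prod_type]
    refine Finset.sum_congr rfl fun α _ => Finset.sum_congr rfl fun β _ => ?_
    rw [← mul_pow]
    congr 1
    have e : (d (prodIrr (α, β)) : ℂ) = (a α : ℂ) * (b β : ℂ) := by
      rw [← hd, ← ha, ← hb]; rfl
    exact_mod_cast e
  have h3 : ∑ ξ ∈ Finset.univ.image prodIrr, d ξ ^ 2 = Nat.card (A × B) := by
    rw [Finset.sum_image prodIrr_injective.injOn, h2]
  have h4 : ∑ ξ ∈ Finset.univ.image prodIrr, d ξ ^ 2 + d χ ^ 2 ≤ ∑ ξ, d ξ ^ 2 := by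
    rw [add_comm, ← Finset.sum_insert (s := Finset.univ.image prodIrr)
      (f := fun ξ => d ξ ^ 2) (by simpa [eq_comm] using hcon)]
    exact Finset.sum_le_sum_of_subset (Finset.subset_univ _)
  have h5 : d χ ≠ 0 := fun h => χ.2.one_ne_zero (by rw [hd, h, Nat.cast_zero])
  have : 0 < d χ ^ 2 := by positivity
  omega

end prod

/-- The degrees of the irreducible characters, as natural numbers. -/
noncomputable def deg {X : Type*} [Group X] (χ : IrrCharacter X) : ℕ :=
  (exists_degree χ.2.isCharacter).choose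

theorem deg_spec {X : Type*} [Group X] (χ : IrrCharacter X) : (χ : X → ℂ) 1 = (deg χ : ℂ) :=
  (exists_degree χ.2.isCharacter).choose_spec

theorem deg_pos {X : Type*} [Group X] [Finite X] (χ : IrrCharacter X) : 0 < deg χ :=
  Nat.pos_of_ne_zero fun h => χ.2.one_ne_zero (by rw [deg_spec, h, Nat.cast_zero])

theorem deg_dvd {X : Type*} [Group X] [Finite X] (χ : IrrCharacter X) : deg χ ∣ Nat.card X :=
  degree_dvd_card χ.2 (deg_spec χ)

theorem sum_deg_sq (X : Type*) [Group X] [Finite X] :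
    ∑ χ : IrrCharacter X, deg χ ^ 2 = Nat.card X := by
  haveI := Fintype.ofFinite X
  have := sum_sq_degree (G := X)
  simp only [deg_spec] at this
  exact_mod_cast this

theorem card_deg_one (X : Type*) [Group X] [Finite X] :
    (Finset.univ.filter fun χ : IrrCharacter X => deg χ = 1).card = (commutator X).index := by
  classical
  rw [← card_linear_irr, Nat.card_eq_fintype_card, Fintype.card_subtype]
  congr 1
  ext χ
  simp [deg_spec]

/-- In a `p`-group the squares of the degrees below a given degree add up to at least its square. -/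
theorem sum_below {X : Type*} [Group X] [Finite X] {p k : ℕ} (hp : p.Prime)
    (hX : Nat.card X = p ^ k) (χ : IrrCharacter X) (hχ : 1 < deg χ) :
    deg χ ^ 2 ≤ ∑ ξ ∈ Finset.univ.filter (fun ξ : IrrCharacter X => deg ξ < deg χ), deg ξ ^ 2 := by
  classical
  set t := deg χ
  have hpow : ∀ ξ : IrrCharacter X, ∃ i, deg ξ = p ^ i := fun ξ => by
    obtain ⟨i, -, hi⟩ := (Nat.dvd_prime_pow hp).mp (hX ▸ deg_dvd ξ)
    exact ⟨i, hi⟩
  obtain ⟨j, hj⟩ := hpow χ
  have hbig : ∀ ξ : IrrCharacter X, ¬ deg ξ < t → t ^ 2 ∣ deg ξ ^ 2 := by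
    intro ξ hξ
    obtain ⟨i, hi⟩ := hpow ξ
    have hji : j ≤ i := by
      by_contra hij
      exact hξ (show deg ξ < deg χ from hi ▸ hj ▸ Nat.pow_lt_pow_right hp.one_lt (by omega))
    exact pow_dvd_pow_of_dvd (show t ∣ deg ξ from (show t = p ^ j from hj) ▸ hi ▸ pow_dvd_pow p hji) 2
  have hcard : t ^ 2 ∣ Nat.card X := by
    have h : t ^ 2 ≤ Nat.card X := sum_deg_sq X ▸
      Finset.single_le_sum (fun ξ _ => Nat.zero_le (deg ξ ^ 2)) (Finset.mem_univ χ)
    rw [hX, show t = p ^ j from hj, ← pow_mul] at h ⊢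
    exact pow_dvd_pow p ((Nat.pow_le_pow_iff_right hp.one_lt).mp h)
  have hsplit := Finset.sum_filter_add_sum_filter_not (Finset.univ : Finset (IrrCharacter X))
    (fun ξ => deg ξ < t) (fun ξ => deg ξ ^ 2)
  rw [sum_deg_sq] at hsplit
  have hdvd : t ^ 2 ∣ ∑ ξ ∈ Finset.univ.filter (fun ξ : IrrCharacter X => deg ξ < t), deg ξ ^ 2 := by
    have h2 : t ^ 2 ∣ ∑ ξ ∈ Finset.univ.filter (fun ξ : IrrCharacter X => ¬ deg ξ < t), deg ξ ^ 2 :=
      Finset.dvd_sum fun ξ hξ => hbig ξ (Finset.mem_filter.mp hξ).2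
    exact (Nat.dvd_add_left h2).mp (hsplit ▸ hcard)
  refine Nat.le_of_dvd (Finset.sum_pos' (fun _ _ => Nat.zero_le _) ?_) hdvd
  let one : IrrCharacter X := ⟨fun _ => 1, isIrrCharacter_one⟩
  have hone : deg one = 1 := by
    have : (deg one : ℂ) = 1 := (deg_spec one).symm
    exact_mod_cast this
  exact ⟨one, Finset.mem_filter.mpr ⟨Finset.mem_univ _, by omega⟩, by rw [hone]; norm_num⟩

namespace FrobCoh

variable {N : Type u} [Group N] [Fintype N] (H : Subgroup N) [H.Normal] [Fintype H]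
  (hC : ∀ h ∈ H, h ≠ 1 → Subgroup.centralizer ({h} : Set N) ≤ H)

include hC in
theorem card_orbit {θ : H → ℂ} (hθ : IsIrrCharacter H θ) (hne : θ ≠ fun _ => 1) :
    (orbitFinset H θ).card = H.index := by
  have h := card_stabilizer_mul_card_orbit (N := H) θ
  rw [← card_inertia, inertia_eq_of_centralizer_le H hC hθ hne, ← H.card_mul_index] at h
  exact Nat.eq_of_mul_eq_mul_left Nat.card_pos h

include hC in
theorem ind_eq_iff {θ θ' : H → ℂ} (hθ : IsIrrCharacter H θ) (hne : θ ≠ fun _ => 1)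
    (hθ' : IsIrrCharacter H θ') : indFun H θ = indFun H θ' ↔ θ' ∈ orbitFinset H θ := by
  constructor
  · intro h
    have h1 : IsIrrCharacter N (indFun H θ) :=
      (isIrrCharacter_indFun_iff hθ).mpr (inertia_eq_of_centralizer_le H hC hθ hne)
    have e := classInner_indFun_indFun hθ hθ'
    rw [← h, classInner_irr_self h1] at e
    have hpos : Nat.card {g : N // conjFn H θ g = θ'} ≠ 0 := fun h0 => by
      rw [h0, Nat.cast_zero, zero_div] at e; exact one_ne_zero e
    obtain ⟨⟨g, hg⟩⟩ := (Nat.card_ne_zero.mp hpos).1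
    exact mem_orbitFinset.mpr ⟨g, hg.symm⟩
  · intro h
    obtain ⟨g, rfl⟩ := mem_orbitFinset.mp h
    exact (indFun_conjFn g).symm

/-- The non-principal irreducible characters of `H`. -/
noncomputable def nonone : Finset (IrrCharacter H) :=
  open Classical in Finset.univ.filter fun θ => (θ : H → ℂ) ≠ fun _ => 1

theorem mem_nonone {θ : IrrCharacter H} : θ ∈ nonone H ↔ (θ : H → ℂ) ≠ fun _ => 1 := by
  classical
  simp [nonone]

theorem sum_nonone_le (U : Finset (IrrCharacter H)) :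
    ∑ θ ∈ U, deg θ ^ 2 ≤ (∑ θ ∈ U ∩ nonone H, deg θ ^ 2) + 1 := by
  classical
  let one : IrrCharacter H := ⟨fun _ => 1, isIrrCharacter_one⟩
  have hone : deg one = 1 := by
    have : (deg one : ℂ) = 1 := (deg_spec one).symm
    exact_mod_cast this
  have hsub : U ⊆ (U ∩ nonone H) ∪ {one} := fun θ hθ => by
    by_cases h : (θ : H → ℂ) = fun _ => 1
    · exact Finset.mem_union_right _ (Finset.mem_singleton.mpr (Subtype.ext h))
    · exact Finset.mem_union_left _ (Finset.mem_inter.mpr ⟨hθ, (mem_nonone H).mpr h⟩)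
  refine (Finset.sum_le_sum_of_subset hsub).trans ((Finset.sum_union_inter (s₁ := U ∩ nonone H)
    (s₂ := {one}) (f := fun θ => deg θ ^ 2)).le.trans' (Nat.le_add_right _ _) |>.trans ?_)
  rw [Finset.sum_singleton, hone, one_pow]

variable {A B : Type u} [Group A] [Fintype A] [Group B] [Fintype B]

include hC in
/-- Characters of a coprime factor having the degree of a given non-principal one. -/
theorem card_factor (ι : A × B ≃* H) (hcop : Nat.Coprime (Nat.card A) (Nat.card B)) {β₀ : B → ℂ}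
    (hβ₀ : IsIrrCharacter B β₀) (hne : β₀ ≠ fun _ => 1) :
    ∃ T : Finset (IrrCharacter B), H.index ≤ T.card ∧
      ∀ β ∈ T, (β : B → ℂ) 1 = β₀ 1 ∧ (β : B → ℂ) ≠ fun _ => 1 := by
  classical
  set θ₀ : H → ℂ := fun h => β₀ (ι.symm h).2 with hθ₀
  have hA1 : IsIrrCharacter A (fun _ => (1 : ℂ)) := isIrrCharacter_one
  have hθi : IsIrrCharacter H θ₀ := by
    have := isIrrCharacter_mulEquiv (prod_irr hA1 hβ₀) ι.symm
    simpa [hθ₀] using this
  have hθne : θ₀ ≠ fun _ => 1 := fun h => hne (funext fun b => by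
    have := congrFun h (ι (1, b))
    simpa [hθ₀] using this)
  have hconjA : ∀ (g : N) (a : A), conjFn H θ₀ g (ι (a, 1)) = β₀ 1 := by
    intro g a
    rw [conjFn_apply]
    set y : H := ⟨g * (ι (a, 1) : H) * g⁻¹, _⟩ with hy
    have hy1 : y ^ Nat.card A = 1 := by
      refine Subtype.ext ?_
      rw [hy, Subgroup.coe_pow, conj_pow, ← Subgroup.coe_pow, ← map_pow, Prod.pow_mk, one_pow,
        pow_card_eq_one', show ((1 : A), (1 : B)) = 1 from rfl, map_one, Subgroup.coe_one, mul_one,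
        mul_inv_cancel]
    have h2 : (ι.symm y).2 = 1 := by
      rw [← orderOf_eq_one_iff]
      refine Nat.eq_one_of_dvd_coprimes hcop (orderOf_dvd_of_pow_eq_one ?_) (orderOf_dvd_natCard _)
      rw [← Prod.pow_snd, ← map_pow, hy1, map_one]; rfl
    show β₀ (ι.symm y).2 = β₀ 1
    rw [h2]
  have hfac : ∀ ψ : H → ℂ, IsIrrCharacter H ψ → (∀ a : A, ψ (ι (a, 1)) = β₀ 1) → ψ 1 = β₀ 1 →
      ψ ≠ (fun _ => 1) →
      ∃ β : IrrCharacter B, (β : B → ℂ) 1 = β₀ 1 ∧ (β : B → ℂ) ≠ (fun _ => 1) ∧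
        ψ = fun h => (β : B → ℂ) (ι.symm h).2 := by
    intro ψ hψ hA hψ1 hψne
    obtain ⟨⟨α, β⟩, hab⟩ := prodIrr_surjective ⟨_, isIrrCharacter_mulEquiv hψ ι⟩
    have hab' : ∀ x : A × B, (α : A → ℂ) x.1 * (β : B → ℂ) x.2 = ψ (ι x) := fun x =>
      congrFun (congrArg Subtype.val hab) x
    have hαc : ∀ a : A, (α : A → ℂ) a = (α : A → ℂ) 1 := fun a => by
      have e1 := hab' (a, 1)
      have e2 := hab' (1, 1)
      rw [hA] at e1
      rw [show ((1 : A), (1 : B)) = 1 from rfl, map_one, hψ1] at e2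
      exact mul_right_cancel₀ β.2.one_ne_zero (e1.trans e2.symm)
    have hα1 : (α : A → ℂ) = fun _ => 1 := by
      by_contra hα
      have h0 := classInner_irr_ne α.2 hA1 hα
      rw [show (α : A → ℂ) = (α : A → ℂ) 1 • fun _ => (1 : ℂ) from funext fun a => by simp [hαc a],
        classInner_smul_left, classInner_irr_self hA1, mul_one] at h0
      exact α.2.one_ne_zero h0
    have hψe : ψ = fun h => (β : B → ℂ) (ι.symm h).2 := funext fun h => by
      have e := hab' (ι.symm h)
      rw [hα1, MulEquiv.apply_symm_apply, one_mul] at e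
      exact e.symm
    refine ⟨β, ?_, fun hb => hψne ?_, hψe⟩
    · rw [← hψ1, hψe]; simp
    · rw [hψe, hb]
  have horb : ∀ ψ ∈ orbitFinset H θ₀, ∃ β : IrrCharacter B, (β : B → ℂ) 1 = β₀ 1 ∧
      (β : B → ℂ) ≠ (fun _ => 1) ∧ ψ = fun h => (β : B → ℂ) (ι.symm h).2 := by
    intro ψ hψ
    obtain ⟨g, rfl⟩ := mem_orbitFinset.mp hψ
    refine hfac _ (isIrrCharacter_conjFn hθi g) (hconjA g) ?_ fun h => hθne ?_
    · have := hconjA g 1
      rwa [show ((1 : A), (1 : B)) = 1 from rfl, map_one] at this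
    · have h2 := congrArg (fun f => conjFn H f g⁻¹) h
      simp only [conjFn_conjFn, mul_inv_cancel, conjFn_one] at h2
      rw [h2]; funext n; simp [conjFn]
  haveI : Nonempty (IrrCharacter B) := ⟨⟨β₀, hβ₀⟩⟩
  choose! f hf1 hf2 hf3 using horb
  refine ⟨(orbitFinset H θ₀).image f, ?_, fun β hβ => ?_⟩
  · rw [Finset.card_image_of_injOn (fun ψ hψ ψ' hψ' e => by rw [hf3 ψ hψ, hf3 ψ' hψ', e]),
      card_orbit H hC hθi hθne]
  · obtain ⟨ψ, hψ, rfl⟩ := Finset.mem_image.mp hβ
    exact ⟨hf1 ψ hψ, hf2 ψ hψ⟩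

include hC in
/-- A nilpotent non-trivial factor has more linear characters than the index. -/
theorem index_lt_linear (ι : A × B ≃* H) (hcop : Nat.Coprime (Nat.card A) (Nat.card B))
    [Group.IsNilpotent B] [Nontrivial B] : H.index + 1 ≤ (commutator B).index := by
  classical
  have hlt : 1 < (commutator B).index := by
    have h := Group.IsSolvable.commutator_lt_top_of_nontrivial B
    have h0 := Subgroup.index_ne_zero_of_finite (H := commutator B)
    by_contra hcon
    exact h.ne (Subgroup.index_eq_one.mp (by omega))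
  let one : IrrCharacter B := ⟨fun _ => 1, isIrrCharacter_one⟩
  obtain ⟨β₀, hβ₀, hne⟩ : ∃ β, β ∈ (Finset.univ.filter fun χ : IrrCharacter B => deg χ = 1) ∧ β ≠ one :=
    Finset.exists_mem_ne (by rw [card_deg_one]; exact hlt) one
  obtain ⟨T, hT, hTm⟩ := card_factor H hC ι hcop β₀.2 fun h => hne (Subtype.ext h)
  rw [← card_deg_one]
  have hsub : insert one T ⊆ Finset.univ.filter fun χ : IrrCharacter B => deg χ = 1 := by
    intro β hβ
    refine Finset.mem_filter.mpr ⟨Finset.mem_univ _, ?_⟩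
    rcases Finset.mem_insert.mp hβ with rfl | hβ
    · have : (deg one : ℂ) = 1 := (deg_spec one).symm
      exact_mod_cast this
    · have e : (deg β : ℂ) = ((deg β₀ : ℕ) : ℂ) := by rw [← deg_spec, (hTm β hβ).1, deg_spec]
      rw [Nat.cast_inj.mp e]
      exact (Finset.mem_filter.mp hβ₀).2
  refine le_trans ?_ (Finset.card_le_card hsub)
  rw [Finset.card_insert_of_notMem fun h => (hTm one h).2 rfl]
  omega

/-- The linear non-principal characters together with the principal one. -/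
theorem card_linear_nonone :
    (Finset.univ.filter fun θ : IrrCharacter H => deg θ = 1).card ≤
      ((nonone H).filter fun θ => deg θ = 1).card + 1 := by
  classical
  let one : IrrCharacter H := ⟨fun _ => 1, isIrrCharacter_one⟩
  refine le_trans (Finset.card_le_card (t := insert one ((nonone H).filter fun θ => deg θ = 1))
    fun θ hθ => ?_) (Finset.card_insert_le _ _)
  by_cases h : θ = one
  · exact h ▸ Finset.mem_insert_self _ _
  · exact Finset.mem_insert_of_mem (Finset.mem_filter.mpr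
      ⟨(mem_nonone H).mpr fun e => h (Subtype.ext e), (Finset.mem_filter.mp hθ).2⟩)

include hC in
/-- The degree condition used to extend coherence, in the coprime product case. -/
theorem product_ineq (ι : A × B ≃* H) (hcop : Nat.Coprime (Nat.card A) (Nat.card B))
    [Group.IsNilpotent B] [Nontrivial B] {p k : ℕ} (hp : p.Prime) (hA : Nat.card A = p ^ k)
    (hnotB : ¬ p ∣ Nat.card B) (θ : IrrCharacter H) (hpθ : p ∣ deg θ) :
    2 * H.index * deg θ < ∑ φ ∈ (nonone H).filter (fun φ => deg φ < deg θ), deg φ ^ 2 := by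
  classical
  set e := H.index with he
  obtain ⟨⟨α, β⟩, hab⟩ := prodIrr_surjective ⟨_, isIrrCharacter_mulEquiv θ.2 ι⟩
  have hdeg : ∀ q : IrrCharacter A × IrrCharacter B,
      ∀ φ : IrrCharacter H, (prodIrr q : A × B → ℂ) = (fun x => (φ : H → ℂ) (ι x)) →
        deg φ = deg q.1 * deg q.2 := by
    intro q φ hq
    have e1 := congrFun hq 1
    rw [map_one, deg_spec φ] at e1
    have e2 : (prodIrr q : A × B → ℂ) 1 = (deg q.1 : ℂ) * (deg q.2 : ℂ) := by
      rw [← deg_spec, ← deg_spec]; rfl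
    rw [e2] at e1
    exact_mod_cast e1.symm
  have hθd : deg θ = deg α * deg β := hdeg (α, β) θ (congrArg Subtype.val hab)
  have hβp : ¬ p ∣ deg β := fun h => hnotB (h.trans (deg_dvd β))
  have hpA : p ∣ deg α := (hp.dvd_mul.mp (hθd ▸ hpθ)).resolve_right hβp
  have hα1 : 1 < deg α := lt_of_lt_of_le hp.one_lt (Nat.le_of_dvd (deg_pos α) hpA)
  -- the characters of `B` of the degree of `β`
  obtain ⟨T, hTdeg, hTne, hT⟩ : ∃ T : Finset (IrrCharacter B), (∀ b ∈ T, deg b = deg β) ∧
      (deg β ≠ 1 → ∀ b ∈ T, (b : B → ℂ) ≠ fun _ => 1) ∧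
      (if deg β = 1 then e + 1 else e) ≤ T.card := by
    by_cases hb1 : deg β = 1
    · refine ⟨Finset.univ.filter fun b : IrrCharacter B => deg b = 1,
        fun b hb => by rw [hb1]; exact (Finset.mem_filter.mp hb).2, fun h => absurd hb1 h, ?_⟩
      rw [if_pos hb1, card_deg_one]
      exact index_lt_linear H hC ι hcop
    · obtain ⟨T, hT, hTm⟩ := card_factor H hC ι hcop β.2 fun h => hb1 (by
        have : (deg β : ℂ) = 1 := by rw [← deg_spec, h]
        exact_mod_cast this)
      refine ⟨T, fun b hb => ?_, fun _ b hb => (hTm b hb).2, by rw [if_neg hb1]; exact hT⟩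
      have e' : (deg b : ℂ) = (deg β : ℂ) := by rw [← deg_spec, (hTm b hb).1, deg_spec]
      exact_mod_cast e'
  set U := (Finset.univ.filter fun a : IrrCharacter A => deg a < deg α) ×ˢ T with hU
  let back : IrrCharacter A × IrrCharacter B → IrrCharacter H := fun q =>
    ⟨_, isIrrCharacter_mulEquiv (prodIrr q).2 ι.symm⟩
  have hback : ∀ q, (prodIrr q : A × B → ℂ) = fun x => (back q : H → ℂ) (ι x) := fun q =>
    funext fun x => by simp [back]
  have hbinj : Function.Injective back := fun q q' h => prodIrr_injective (Subtype.ext (by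
    rw [hback q, hback q', h]))
  have hsum : (∑ a ∈ Finset.univ.filter (fun a : IrrCharacter A => deg a < deg α), deg a ^ 2) *
      (T.card * deg β ^ 2) = ∑ φ ∈ U.image back, deg φ ^ 2 := by
    rw [Finset.sum_image hbinj.injOn, hU, Finset.sum_product, Finset.sum_mul]
    refine Finset.sum_congr rfl fun a _ => ?_
    rw [show T.card * deg β ^ 2 = ∑ _b ∈ T, deg β ^ 2 by simp, Finset.mul_sum]
    refine Finset.sum_congr rfl fun b hb => ?_
    rw [hdeg (a, b) (back (a, b)) (hback _), hTdeg b hb, mul_pow]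
  have hsub : U.image back ⊆ Finset.univ.filter fun φ => deg φ < deg θ := by
    intro φ hφ
    obtain ⟨⟨a, b⟩, hq, rfl⟩ := Finset.mem_image.mp hφ
    rw [hU, Finset.mem_product, Finset.mem_filter] at hq
    refine Finset.mem_filter.mpr ⟨Finset.mem_univ _, ?_⟩
    rw [hdeg _ _ (hback (a, b)), hθd, hTdeg b hq.2]
    exact Nat.mul_lt_mul_of_pos_right hq.1.2 (deg_pos β)
  have hbelow := sum_below hp hA α hα1
  have hge : deg θ ^ 2 * T.card ≤ ∑ φ ∈ U.image back, deg φ ^ 2 := by
    rw [← hsum, hθd, mul_pow]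
    calc deg α ^ 2 * deg β ^ 2 * T.card = deg α ^ 2 * (T.card * deg β ^ 2) := by ring
      _ ≤ _ := Nat.mul_le_mul_right _ hbelow
  have hdβ := deg_pos β
  have ht2 : 2 ≤ deg θ := by rw [hθd]; nlinarith
  by_cases hb1 : deg β = 1
  · rw [if_pos hb1] at hT
    have h1 := sum_nonone_le H (U.image back)
    have h2 : ∑ φ ∈ U.image back ∩ nonone H, deg φ ^ 2 ≤
        ∑ φ ∈ (nonone H).filter (fun φ => deg φ < deg θ), deg φ ^ 2 :=
      Finset.sum_le_sum_of_subset fun φ hφ => by
        rw [Finset.mem_inter] at hφ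
        exact Finset.mem_filter.mpr ⟨hφ.2, (Finset.mem_filter.mp (hsub hφ.1)).2⟩
    nlinarith [Nat.mul_le_mul_left (deg θ ^ 2) hT, Nat.mul_le_mul_left (e * deg θ) ht2, Nat.mul_le_mul ht2 ht2]
  · rw [if_neg hb1] at hT
    have h2 : ∑ φ ∈ U.image back, deg φ ^ 2 ≤
        ∑ φ ∈ (nonone H).filter (fun φ => deg φ < deg θ), deg φ ^ 2 :=
      Finset.sum_le_sum_of_subset fun φ hφ => by
        refine Finset.mem_filter.mpr ⟨(mem_nonone H).mpr fun h => ?_, (Finset.mem_filter.mp (hsub hφ)).2⟩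
        obtain ⟨⟨a, b⟩, hq, rfl⟩ := Finset.mem_image.mp hφ
        rw [hU, Finset.mem_product] at hq
        have hd : deg (back (a, b)) = 1 := by
          have : (deg (back (a, b)) : ℂ) = 1 := by rw [← deg_spec, h]
          exact_mod_cast this
        rw [hdeg _ _ (hback (a, b)), hTdeg b hq.2] at hd
        exact hb1 (Nat.eq_one_of_mul_eq_one_left hd)
    have h3 : 3 ≤ deg θ := by rw [hθd]; nlinarith [show 2 ≤ deg β by omega]
    have he0 : 0 < e := Nat.pos_of_ne_zero Subgroup.index_ne_zero_of_finite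
    nlinarith [Nat.mul_le_mul_left (deg θ ^ 2) hT, Nat.mul_le_mul_left (e * deg θ) h3]


section main

variable {G : Type v} [Group G] [Fintype G]

include hC in
/-- Coherence from the degree inequalities. -/
theorem coherent_of_ineq (hlin : H.index < ((nonone H).filter fun θ => deg θ = 1).card)
    (hineq : ∀ θ : IrrCharacter H, 1 < deg θ →
      2 * H.index * deg θ < ∑ φ ∈ (nonone H).filter (fun φ => deg φ < deg θ), deg φ ^ 2)
    (τ : (N → ℂ) → G → ℂ)
    (hτ : IsLinearIsometryOn (zspanOn {χ : N → ℂ | IsIrrCharacter N χ ∧ ∃ h ∈ H, χ h ≠ χ 1} {1}ᶜ) τ)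
    (hτ1 : ∀ α ∈ zspanOn {χ : N → ℂ | IsIrrCharacter N χ ∧ ∃ h ∈ H, χ h ≠ χ 1} {1}ᶜ, τ α 1 = 0) :
    IsCoherent {χ : N → ℂ | IsIrrCharacter N χ ∧ ∃ h ∈ H, χ h ≠ χ 1} {1}ᶜ τ := by
  classical
  set e := H.index with he
  set f : IrrCharacter H → N → ℂ := fun θ => indFun H (θ : H → ℂ) with hf
  set E := (nonone H).image f with hE
  have hEset : ({χ : N → ℂ | IsIrrCharacter N χ ∧ ∃ h ∈ H, χ h ≠ χ 1} : Set (N → ℂ)) = ↑E := by
    ext χ
    rw [hE, Finset.coe_image, Set.mem_image]
    constructor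
    · intro h
      obtain ⟨θ, hθ, hne, rfl⟩ := Exceptional.exists_ind hC (show Exceptional.IsExc H χ from h)
      exact ⟨⟨θ, hθ⟩, (mem_nonone H).mpr hne, rfl⟩
    · rintro ⟨θ, hθ, rfl⟩
      exact Exceptional.isExc_indFun hC θ.2 ((mem_nonone H).mp hθ)
  rw [hEset] at hτ hτ1 ⊢
  have hirr : ∀ χ ∈ E, IsIrrCharacter N χ := fun χ h => by
    have h' : χ ∈ ({χ : N → ℂ | IsIrrCharacter N χ ∧ ∃ h ∈ H, χ h ≠ χ 1} : Set (N → ℂ)) := by
      rw [hEset]; exact h
    exact h'.1
  choose! d hd using fun χ (h : χ ∈ E) => exists_degree (hirr χ h).isCharacter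
  have hdf : ∀ θ ∈ nonone H, d (f θ) = e * deg θ := by
    intro θ hθ
    have h := hd _ (Finset.mem_image_of_mem f hθ)
    rw [hf] at h ⊢
    simp only at h ⊢
    rw [indFun_one_apply, deg_spec] at h
    exact_mod_cast h.symm
  have he0 : 0 < e := Nat.pos_of_ne_zero Subgroup.index_ne_zero_of_finite
  have hfib : ∀ χ ∈ E, ∀ θ ∈ nonone H, f θ = χ →
      ((nonone H).filter fun φ => f φ = χ).card = e := by
    intro χ hχ θ hθ hθχ
    have hne := (mem_nonone H).mp hθ
    rw [he, ← card_orbit H hC θ.2 hne]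
    refine Finset.card_bij (fun φ _ => (φ : H → ℂ)) (fun φ hφ => ?_)
      (fun φ _ φ' _ h => Subtype.ext h) (fun ψ hψ => ?_)
    · exact (ind_eq_iff H hC θ.2 hne φ.2).mp (hθχ.trans (Finset.mem_filter.mp hφ).2.symm)
    · obtain ⟨g, rfl⟩ := mem_orbitFinset.mp hψ
      refine ⟨⟨_, isIrrCharacter_conjFn θ.2 g⟩, Finset.mem_filter.mpr ⟨(mem_nonone H).mpr fun h => ?_, ?_⟩, rfl⟩
      · apply hne
        have h2 := congrArg (fun F => conjFn H F g⁻¹) h
        simp only [conjFn_conjFn, mul_inv_cancel, conjFn_one] at h2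
        rw [h2]; funext x; simp [conjFn]
      · rw [← hθχ]; exact indFun_conjFn g
  set S₀ := E.filter fun χ => d χ = e with hS0
  have htwo : 2 ≤ S₀.card := by
    by_contra hlt
    obtain ⟨θ₀, hθ₀⟩ := Finset.card_pos.mp (lt_of_le_of_lt (Nat.zero_le _) hlin)
    rw [Finset.mem_filter] at hθ₀
    have hin : ∀ θ ∈ (nonone H).filter (fun θ => deg θ = 1), f θ ∈ S₀ := fun θ hθ => by
      rw [Finset.mem_filter] at hθ
      exact Finset.mem_filter.mpr ⟨Finset.mem_image_of_mem f hθ.1, by rw [hdf θ hθ.1, hθ.2, mul_one]⟩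
    have h1 := hfib _ (Finset.mem_image_of_mem f hθ₀.1) θ₀ hθ₀.1 rfl
    have h2 : (nonone H).filter (fun θ => deg θ = 1) ⊆ (nonone H).filter fun φ => f φ = f θ₀ := fun θ hθ =>
      Finset.mem_filter.mpr ⟨(Finset.mem_filter.mp hθ).1,
        Finset.card_le_one.mp (by omega : S₀.card ≤ 1) _ (hin θ hθ) _ (hin θ₀ (Finset.mem_filter.mpr hθ₀))⟩
    have := Finset.card_le_card h2
    omega
  have hmono : ∀ F : Finset (N → ℂ), F ⊆ E →
      zspanOn (↑F : Set (N → ℂ)) {1}ᶜ ⊆ zspanOn (↑E : Set (N → ℂ)) {1}ᶜ :=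
    fun F hF α hα => ⟨Submodule.span_mono (Finset.coe_subset.mpr hF) hα.1, hα.2⟩
  have hrest : ∀ F : Finset (N → ℂ), F ⊆ E → IsLinearIsometryOn (zspanOn (↑F : Set (N → ℂ)) {1}ᶜ) τ :=
    fun F hF => ⟨fun a ha b hb => hτ.1 a (hmono F hF ha) b (hmono F hF hb),
      fun a ha => hτ.2.1 a (hmono F hF ha), fun a ha b hb => hτ.2.2.1 a (hmono F hF ha) b (hmono F hF hb),
      fun a ha => hτ.2.2.2 a (hmono F hF ha)⟩
  suffices h : ∀ n : ℕ, ∀ F : Finset (N → ℂ), F.card = n → S₀ ⊆ F → F ⊆ E →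
      (∀ χ ∈ F, ∀ χ' ∈ E, d χ' < d χ → χ' ∈ F) → IsCoherent (↑F : Set (N → ℂ)) {1}ᶜ τ from
    h _ E rfl (Finset.filter_subset _ _) subset_rfl fun _ _ χ' h _ => h
  intro n
  induction n using Nat.strong_induction_on with
  | _ n ih =>
  intro F hn h0 hFE hclosed
  obtain ⟨χ₀, hχ₀⟩ := Finset.card_pos.mp (show 0 < S₀.card by omega)
  obtain ⟨χ, hχF, hmax⟩ := Finset.exists_max_image F d ⟨χ₀, h0 hχ₀⟩
  have hEe : ∀ φ ∈ E, ∃ θ ∈ nonone H, f θ = φ ∧ d φ = e * deg θ := fun φ hφ => by
    obtain ⟨θ, hθ, rfl⟩ := Finset.mem_image.mp hφ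
    exact ⟨θ, hθ, rfl, hdf θ hθ⟩
  obtain ⟨θ, hθ, hθχ, hdχ⟩ := hEe χ (hFE hχF)
  by_cases ht : deg θ = 1
  · have hall : F = S₀ := by
      refine subset_antisymm (fun φ hφ => Finset.mem_filter.mpr ⟨hFE hφ, ?_⟩) h0
      obtain ⟨η, -, -, hdφ⟩ := hEe φ (hFE hφ)
      have := hmax φ hφ
      rw [hdχ, ht, mul_one, hdφ] at this
      have := deg_pos η
      rw [hdφ]
      nlinarith
    rw [hall]
    refine coherent_equal_degree S₀ (fun φ hφ => hirr φ (Finset.mem_filter.mp hφ).1) (fun φ hφ ψ hψ => ?_)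
      htwo τ (hrest S₀ (Finset.filter_subset _ _)) fun α hα => hτ1 α (hmono S₀ (Finset.filter_subset _ _) hα)
    rw [Finset.mem_filter] at hφ hψ
    rw [hd φ hφ.1, hd ψ hψ.1, hφ.2, hψ.2]
  · have ht1 : 1 < deg θ := by have := deg_pos θ; omega
    have hχ0 : χ ∉ S₀ := fun h => by
      have := (Finset.mem_filter.mp h).2
      rw [hdχ] at this
      exact ht (Nat.eq_of_mul_eq_mul_left he0 (this.trans (mul_one e).symm))
    set T := F.erase χ with hT
    have hTE : T ⊆ E := (Finset.erase_subset _ _).trans hFE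
    have h0T : S₀ ⊆ T := fun φ hφ => Finset.mem_erase.mpr ⟨fun h => hχ0 (h ▸ hφ), h0 hφ⟩
    have hTclosed : ∀ φ ∈ T, ∀ χ' ∈ E, d χ' < d φ → χ' ∈ T := fun φ hφ χ' hχ' hlt => by
      refine Finset.mem_erase.mpr ⟨fun h => ?_, hclosed φ (Finset.mem_of_mem_erase hφ) χ' hχ' hlt⟩
      have := hmax φ (Finset.mem_of_mem_erase hφ)
      rw [h] at hlt
      omega
    have hcoh := ih _ (by rw [← hn]; exact Finset.card_erase_lt_of_mem hχF) T rfl h0T hTE hTclosed
    have hins : insert χ T = F := Finset.insert_erase hχF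
    have hψ : χ₀ ∈ T := h0T hχ₀
    have hd0 : d χ₀ = e := (Finset.mem_filter.mp hχ₀).2
    have hsum : e * ∑ φ ∈ (nonone H).filter (fun φ => f φ ∈ T), deg φ ^ 2 = ∑ φ ∈ T, d φ ^ 2 := by
      rw [← Finset.sum_fiberwise_of_maps_to (g := f) (t := T) (fun φ hφ => (Finset.mem_filter.mp hφ).2),
        Finset.mul_sum]
      refine Finset.sum_congr rfl fun φ hφ => ?_
      obtain ⟨η, hη, hηφ, hdφ⟩ := hEe φ (hTE hφ)
      rw [Finset.filter_filter, Finset.filter_congr (q := fun x => f x = φ)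
        (fun x _ => ⟨fun h => h.2, fun h => ⟨h ▸ hφ, h⟩⟩)]
      rw [Finset.sum_congr rfl fun x hx => show deg x ^ 2 = deg η ^ 2 by
        rw [Finset.mem_filter] at hx
        have e1 := hdf x hx.1
        rw [hx.2, hdφ] at e1
        rw [Nat.eq_of_mul_eq_mul_left he0 e1], Finset.sum_const, hfib φ (hTE hφ) η hη hηφ, smul_eq_mul,
        hdφ]
      ring
    have hsub : (nonone H).filter (fun φ => deg φ < deg θ) ⊆ (nonone H).filter (fun φ => f φ ∈ T) := by
      intro φ hφ
      rw [Finset.mem_filter] at hφ ⊢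
      refine ⟨hφ.1, Finset.mem_erase.mpr ⟨fun h => ?_, hclosed χ hχF _ (Finset.mem_image_of_mem f hφ.1) ?_⟩⟩
      · have := hdf φ hφ.1
        rw [h, hdχ] at this
        have := Nat.eq_of_mul_eq_mul_left he0 this
        omega
      · rw [hdf φ hφ.1, hdχ]
        exact Nat.mul_lt_mul_of_pos_left hφ.2 he0
    have hle := Finset.sum_le_sum_of_subset (f := fun φ => deg φ ^ 2) hsub
    have hlt : 2 * d χ₀ * d χ < ∑ φ ∈ T, d φ ^ 2 := by
      rw [← hsum, hd0, hdχ]
      have h1 := Nat.mul_lt_mul_of_pos_left ((hineq θ ht1).trans_le hle) he0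
      calc 2 * e * (e * deg θ) = e * (2 * e * deg θ) := by ring
        _ < _ := h1
    rw [← hins]
    exact extend_one T χ (fun φ hφ => hirr φ (hTE hφ)) (hirr χ (hFE hχF)) (Finset.notMem_erase _ _) d
      (fun φ hφ => hd φ (hFE (hins ▸ hφ))) τ (hins.symm ▸ hrest F hFE)
      (fun α hα => hτ1 α (hmono F hFE (hins ▸ hα))) hcoh χ₀ hψ
      (by rw [hd0, hdχ]; exact dvd_mul_right _ _) hlt

end main

end FrobCoh

end Cfsg.Lib.Characters
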