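import Mathlib

/-!
# Fixed points of a Frobenius group acting coprimely on a vector space
-/

set_option linter.unusedSectionVars false
set_option linter.style.haveILetI false

open scoped TensorProduct

namespace Cfsg.Lib.Characters.FrobFormula

variable {X : Type*} [Group X] [Finite X]

/-- The averaging projection of a subgroup. -/
noncomputable def avg {K M : Type*} [Field K] [AddCommGroup M] [Module K M]
    (σ : X →* Module.End K M) (A : Subgroup X) : Module.End K M :=
  letI := Fintype.ofFinite A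
  (Nat.card A : K)⁻¹ • ∑ a : A, σ a

section Linear

variable {K M : Type*} [Field K] [AddCommGroup M] [Module K M] (σ : X →* Module.End K M)

theorem avg_def (A : Subgroup X) [Fintype A] : avg σ A = (Nat.card A : K)⁻¹ • ∑ a : A, σ a := by
  unfold avg
  congr 1
  exact Finset.sum_congr (by ext; simp) fun _ _ => rfl

theorem mul_avg {A : Subgroup X} {a : X} (ha : a ∈ A) : σ a * avg σ A = avg σ A := by
  haveI := Fintype.ofFinite A
  rw [avg_def, mul_smul_comm, Finset.mul_sum]
  congr 1
  exact Fintype.sum_equiv (Equiv.mulLeft (⟨a, ha⟩ : A)) _ _ fun b => by simp [← map_mul]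

theorem avg_apply_fixed {A : Subgroup X} (hA : (Nat.card A : K) ≠ 0) {x : M}
    (h : ∀ a ∈ A, σ a x = x) : avg σ A x = x := by
  haveI := Fintype.ofFinite A
  rw [avg_def, LinearMap.smul_apply, LinearMap.coe_sum, Finset.sum_apply,
    Finset.sum_congr rfl fun (a : A) _ => h a a.2, Finset.sum_const, Finset.card_univ,
    ← Nat.cast_smul_eq_nsmul K, ← Nat.card_eq_fintype_card, inv_smul_smul₀ hA]

theorem mem_range_avg {A : Subgroup X} (hA : (Nat.card A : K) ≠ 0) {x : M} :
    x ∈ LinearMap.range (avg σ A) ↔ ∀ a ∈ A, σ a x = x := by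
  refine ⟨?_, fun h => ⟨x, avg_apply_fixed σ hA h⟩⟩
  rintro ⟨y, rfl⟩ a ha
  rw [← Module.End.mul_apply, mul_avg σ ha]

variable [FiniteDimensional K M]

/-- The formula over a field with enough roots of unity, in the layer where `U` acts through an
abelian quotient. -/
theorem linear_formula (U E U' : Subgroup X) (hU'U : U' ≤ U) (htriv : ∀ u ∈ U', σ u = 1)
    (hU'n : ∀ u ∈ U, ∀ v ∈ U', u * v * u⁻¹ ∈ U')
    (hab : ∀ u ∈ U, ∀ v ∈ U, u * v * u⁻¹ * v⁻¹ ∈ U')
    (hEU : ∀ e ∈ E, ∀ u ∈ U, e * u * e⁻¹ ∈ U) (hEU' : ∀ e ∈ E, ∀ u ∈ U', e * u * e⁻¹ ∈ U')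
    (hfpf : ∀ e ∈ E, e ≠ 1 → ∀ u ∈ U, e * u * e⁻¹ * u⁻¹ ∈ U' → u ∈ U')
    (hU : (Nat.card U : K) ≠ 0) (hE : (Nat.card E : K) ≠ 0)
    (hroots : ∀ n, n ∣ Nat.card U → HasEnoughRootsOfUnity K n) :
    Nat.card E * Module.finrank K (LinearMap.range (avg σ U * avg σ E)) + Module.finrank K M =
      Nat.card E * Module.finrank K (LinearMap.range (avg σ E)) +
        Module.finrank K (LinearMap.range (avg σ U)) := by
  classical
  haveI := Fintype.ofFinite U
  haveI := Fintype.ofFinite E
  set N := U'.subgroupOf U with hN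
  haveI : N.Normal := ⟨fun n hn g => Subgroup.mem_subgroupOf.mpr
    (hU'n g g.2 n (Subgroup.mem_subgroupOf.mp hn))⟩
  have hmk : ∀ u v : U, (u : U ⧸ N) * v = (v : U ⧸ N) * u := fun u v => by
    rw [← QuotientGroup.mk_mul, ← QuotientGroup.mk_mul, QuotientGroup.eq_iff_div_mem, div_eq_mul_inv]
    refine Subgroup.mem_subgroupOf.mpr ?_
    rw [mul_inv_rev, ← mul_assoc]
    exact hab u u.2 v v.2
  letI : CommGroup (U ⧸ N) := { (inferInstance : Group (U ⧸ N)) with
    mul_comm := fun a b => by
      induction a using QuotientGroup.induction_on with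
      | H u =>
        induction b using QuotientGroup.induction_on with
        | H v => exact hmk u v }
  haveI : Fintype (U ⧸ N) := Fintype.ofFinite _
  haveI : HasEnoughRootsOfUnity K (Monoid.exponent (U ⧸ N)) :=
    hroots _ (Group.exponent_dvd_nat_card.trans (Subgroup.card_quotient_dvd_card _))
  let L := (U ⧸ N) →* Kˣ
  haveI : Finite L := by
    have h := CommGroup.monoidHom_mulEquiv_of_hasEnoughRootsOfUnity (U ⧸ N) K
    exact Finite.of_equiv _ h.some.toEquiv.symm
  haveI : Fintype L := Fintype.ofFinite L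
  -- the eigenprojections
  let Q : L → Module.End K M := fun l =>
    (Nat.card U : K)⁻¹ • ∑ u : U, ((l u)⁻¹ : Kˣ).val • σ u
  have hσQ : ∀ (l : L) (v : U), σ v * Q l = (l v).val • Q l := by
    intro l v
    simp only [Q, mul_smul_comm, Finset.mul_sum]
    rw [smul_comm]
    congr 1
    rw [Finset.smul_sum]
    refine Fintype.sum_equiv (Equiv.mulLeft v) _ _ fun u => ?_
    simp only [Equiv.coe_mulLeft, smul_smul, Subgroup.coe_mul, ← map_mul]
    congr 1
    rw [← Units.val_mul, QuotientGroup.mk_mul, map_mul, mul_inv, mul_inv_cancel_left]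
  have hQQ : ∀ l m : L, Q l * Q m = if l = m then Q l else 0 := by
    intro l m
    have h1 : Q l * Q m = ((Nat.card U : K)⁻¹ *
        ∑ u : U, ((l u)⁻¹ : Kˣ).val * (m u).val) • Q m := by
      conv_lhs => arg 1; simp only [Q]
      rw [smul_mul_assoc, Finset.sum_mul, mul_smul, Finset.sum_smul]
      congr 1
      refine Finset.sum_congr rfl fun u _ => ?_
      rw [smul_mul_assoc, hσQ, smul_smul]
    rw [h1]
    split_ifs with h
    · subst h
      rw [Finset.sum_congr rfl (g := fun _ => (1 : K)) fun u _ => by simp, Finset.sum_const,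
        Finset.card_univ, nsmul_eq_mul, mul_one, ← Nat.card_eq_fintype_card, inv_mul_cancel₀ hU,
        one_smul]
    · have hne : (l⁻¹ * m).comp (QuotientGroup.mk' N) ≠ 1 := by
        intro h0
        refine h (MonoidHom.ext fun q => ?_)
        induction q using QuotientGroup.induction_on with
        | H u =>
          have := DFunLike.congr_fun h0 u
          simp only [MonoidHom.comp_apply, QuotientGroup.mk'_apply, MonoidHom.mul_apply,
            MonoidHom.inv_apply, MonoidHom.one_apply] at this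
          exact inv_mul_eq_one.mp this
      have hz : ∑ u : U, ((l u)⁻¹ : Kˣ).val * (m u).val = 0 := by
        have := sum_hom_units_eq_zero ((Units.coeHom K).comp ((l⁻¹ * m).comp (QuotientGroup.mk' N)))
          (fun h0 => hne (MonoidHom.ext fun u => Units.ext (DFunLike.congr_fun h0 u)))
        refine Eq.trans (Finset.sum_congr rfl fun u _ => ?_) this
        rw [← Units.val_mul]
        rfl
      rw [hz, mul_zero, zero_smul]
  have hQsum : ∑ l : L, Q l = 1 := by
    have hcol : ∀ q : U ⧸ N, ∑ l : L, (l q).val = if q = 1 then (Fintype.card L : K) else 0 := by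
      intro q
      split_ifs with hq
      · simp [hq]
      · obtain ⟨l₀, hl₀⟩ := CommGroup.exists_apply_ne_one_of_hasEnoughRootsOfUnity (U ⧸ N) K hq
        have h : ∑ l : L, (l q).val = (l₀ q).val * ∑ l : L, (l q).val := by
          rw [Finset.mul_sum]
          exact (Fintype.sum_equiv (Equiv.mulLeft l₀) _ _ fun l =>
            (Units.val_mul (l₀ q) (l q)).symm).symm
        have hne : (l₀ q).val ≠ 1 := fun h1 => hl₀ (Units.ext h1)
        by_contra h0
        exact hne (mul_eq_right₀ h0 |>.mp h.symm)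
    simp only [Q]
    rw [← Finset.smul_sum, Finset.sum_comm]
    have hterm : ∀ u : U, ∑ l : L, ((l u)⁻¹ : Kˣ).val • σ u =
        if u ∈ N then (Fintype.card L : K) • (1 : Module.End K M) else 0 := by
      intro u
      rw [← Finset.sum_smul, Finset.sum_congr rfl (g := fun l : L => (l ((u : U ⧸ N))⁻¹).val)
        fun l _ => by rw [map_inv], hcol]
      by_cases hu : u ∈ N
      · rw [if_pos hu, if_pos (inv_eq_one.mpr ((QuotientGroup.eq_one_iff u).mpr hu)),
          htriv u (Subgroup.mem_subgroupOf.mp hu)]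
      · rw [if_neg hu, if_neg (fun h => hu ((QuotientGroup.eq_one_iff u).mp (inv_eq_one.mp h))),
          zero_smul]
    rw [Finset.sum_congr rfl fun u _ => hterm u, ← Finset.sum_filter, Finset.sum_const,
      ← Nat.cast_smul_eq_nsmul K, smul_smul, smul_smul, ← Fintype.card_subtype,
      ← Nat.card_eq_fintype_card, ← Nat.card_eq_fintype_card (α := L),
      CommGroup.card_monoidHom_of_hasEnoughRootsOfUnity (U ⧸ N) K, ← Subgroup.index_eq_card,
      mul_assoc, ← Nat.cast_mul, N.card_mul_index, inv_mul_cancel₀ hU, one_smul]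
  have hQ1 : Q 1 = avg σ U := by
    rw [avg_def]
    simp [Q, show ∀ q, (1 : L) q = 1 from fun q => rfl]
  -- the action of `E` on the characters
  have hcU : ∀ e : E, ∀ u : U, (e : X)⁻¹ * u * e ∈ U := fun e u => by
    have := hEU (e : X)⁻¹ (inv_mem e.2) u u.2
    rwa [inv_inv] at this
  let c : E → (U ⧸ N) →* (U ⧸ N) := fun e => QuotientGroup.map N N
    { toFun := fun u => ⟨(e : X)⁻¹ * u * e, hcU e u⟩
      map_one' := Subtype.ext (by simp)
      map_mul' := fun a b => Subtype.ext (by simp [mul_assoc]) }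
    (fun u hu => Subgroup.mem_comap.mpr (Subgroup.mem_subgroupOf.mpr (by
      have := hEU' (e : X)⁻¹ (inv_mem e.2) u (Subgroup.mem_subgroupOf.mp hu)
      rwa [inv_inv] at this)))
  have hc : ∀ (e : E) (u : U), c e (u : U ⧸ N) =
      ((⟨(e : X)⁻¹ * u * e, hcU e u⟩ : U) : U ⧸ N) := fun e u => rfl
  letI act : MulAction E L :=
    { smul := fun e l => l.comp (c e)
      one_smul := fun l => MonoidHom.ext fun q => by
        induction q using QuotientGroup.induction_on with
        | H u =>
          show l (c 1 u) = l u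
          rw [hc]; congr 2; exact Subtype.ext (by simp)
      mul_smul := fun e f l => MonoidHom.ext fun q => by
        induction q using QuotientGroup.induction_on with
        | H u =>
          show l (c (e * f) u) = l (c f (c e u))
          rw [hc, hc, hc]; congr 2; exact Subtype.ext (by simp [mul_assoc]) }
  have hconjQ : ∀ (e : E) (l : L), σ e * Q l = Q (e • l) * σ e := by
    intro e l
    simp only [Q, mul_smul_comm, smul_mul_assoc, Finset.mul_sum, Finset.sum_mul]
    congr 1
    let φ : U ≃ U :=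
      { toFun := fun u => ⟨(e : X) * u * (e : X)⁻¹, hEU e e.2 u u.2⟩
        invFun := fun u => ⟨(e : X)⁻¹ * u * e, hcU e u⟩
        left_inv := fun u => Subtype.ext (by simp [mul_assoc])
        right_inv := fun u => Subtype.ext (by simp [mul_assoc]) }
    refine Fintype.sum_equiv φ _ _ fun u => ?_
    have h1 : (e • l) ((φ u : U) : U ⧸ N) = l u := by
      show l (c e _) = l u
      rw [hc]; congr 2; exact φ.left_inv u
    rw [h1, ← map_mul, ← map_mul]
    congr 2
    show (e : X) * u = (e : X) * u * (e : X)⁻¹ * e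
    group
  have he1 : ∀ e : E, e • (1 : L) = 1 := fun e => MonoidHom.one_comp _
  have hfree : ∀ (e : E) (l : L), e • l = l → e ≠ 1 → l = 1 := by
    intro e l hl he
    have hcomm : ∀ a b : U ⧸ N, c e (a * b) * (a * b)⁻¹ = c e a * a⁻¹ * (c e b * b⁻¹) := fun a b => by
      rw [map_mul, mul_inv, mul_mul_mul_comm]
    let g : (U ⧸ N) →* (U ⧸ N) := MonoidHom.mk' (fun q => c e q * q⁻¹) hcomm
    have hinj : Function.Injective g := by
      rw [injective_iff_map_eq_one]
      intro q hq
      induction q using QuotientGroup.induction_on with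
      | H u =>
        change c e (u : U ⧸ N) * (u : U ⧸ N)⁻¹ = 1 at hq
        rw [hc, ← QuotientGroup.mk_inv, ← QuotientGroup.mk_mul, QuotientGroup.eq_one_iff,
          Subgroup.mem_subgroupOf] at hq
        rw [QuotientGroup.eq_one_iff, Subgroup.mem_subgroupOf]
        refine hfpf (e : X)⁻¹ (inv_mem e.2) (fun h => he (Subtype.ext (inv_eq_one.mp h))) u u.2 ?_
        simpa using hq
    refine MonoidHom.ext fun q => ?_
    obtain ⟨p, rfl⟩ := Finite.surjective_of_injective hinj q
    show l (c e p * p⁻¹) = 1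
    rw [map_mul, map_inv, show l (c e p) = l p from DFunLike.congr_fun hl p, mul_inv_cancel]
  -- a transversal of the non-trivial characters
  haveI : Fintype (MulAction.orbitRel.Quotient E L) := Fintype.ofFinite _
  let R : Finset L := ((Finset.univ : Finset (MulAction.orbitRel.Quotient E L)).image
    Quotient.out).erase 1
  have hR1 : ∀ l ∈ R, l ≠ 1 := fun l hl => (Finset.mem_erase.mp hl).1
  have hinjR : ∀ e f : E, ∀ l ∈ R, ∀ m ∈ R, e • l = f • m → e = f ∧ l = m := by
    intro e f l hl m hm h
    obtain ⟨ql, -, rfl⟩ := Finset.mem_image.mp (Finset.mem_erase.mp hl).2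
    obtain ⟨qm, -, rfl⟩ := Finset.mem_image.mp (Finset.mem_erase.mp hm).2
    have hq : ql = qm := by
      rw [← Quotient.out_eq ql, ← Quotient.out_eq qm]
      refine Quotient.sound (MulAction.orbitRel_apply.mpr ⟨e⁻¹ * f, ?_⟩)
      show (e⁻¹ * f) • qm.out = ql.out
      rw [mul_smul, ← h, inv_smul_smul]
    subst hq
    refine ⟨?_, rfl⟩
    by_contra hne
    refine hR1 _ hl (hfree (f⁻¹ * e) _ ?_ fun h0 => hne (inv_mul_eq_one.mp h0).symm)
    rw [mul_smul, h, inv_smul_smul]
  have hcover : ∀ l : L, l ≠ 1 → ∃ e : E, ∃ m ∈ R, e • m = l := by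
    intro l hl
    obtain ⟨e, he⟩ := MulAction.orbitRel_apply.mp
      (Quotient.mk_out (s := MulAction.orbitRel E L) l)
    refine ⟨e⁻¹, _, Finset.mem_erase.mpr ⟨?_, Finset.mem_image_of_mem _ (Finset.mem_univ ⟦l⟧)⟩, ?_⟩
    · intro h
      rw [h] at he
      change e • l = 1 at he
      exact hl (by rw [← he1 e⁻¹, ← he, inv_smul_smul])
    · change e • l = _ at he
      rw [← he, inv_smul_smul]
  let P : E → Module.End K M := fun e => ∑ l ∈ R, Q (e • l)
  have hPsum : Q 1 + ∑ e : E, P e = 1 := by
    rw [← hQsum, ← Finset.add_sum_erase _ _ (Finset.mem_univ (1 : L))]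
    congr 1
    simp only [P]
    rw [← Finset.sum_product']
    refine Finset.sum_bij (fun p _ => p.1 • p.2) (fun p hp => ?_) (fun p hp q hq h => ?_)
      (fun l hl => ?_) fun p _ => rfl
    · refine Finset.mem_erase.mpr ⟨fun h => hR1 p.2 (Finset.mem_product.mp hp).2 ?_, Finset.mem_univ _⟩
      rw [← inv_smul_smul p.1 p.2, h, he1]
    · obtain ⟨h1, h2⟩ := hinjR p.1 q.1 p.2 (Finset.mem_product.mp hp).2 q.2
        (Finset.mem_product.mp hq).2 h
      exact Prod.ext h1 h2
    · obtain ⟨e, m, hm, he⟩ := hcover l (Finset.mem_erase.mp hl).1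
      exact ⟨(e, m), Finset.mem_product.mpr ⟨Finset.mem_univ _, hm⟩, he⟩
  have hPP : ∀ e f : E, P e * P f = if e = f then P e else 0 := by
    intro e f
    simp only [P, Finset.sum_mul, Finset.mul_sum, hQQ]
    split_ifs with h
    · subst h
      refine Finset.sum_congr rfl fun l hl => ?_
      rw [Finset.sum_eq_single l]
      · rw [if_pos rfl]
      · intro m hm hne
        refine if_neg fun h => hne ?_
        exact (hinjR e e m hm l hl h).2
      · exact fun h => absurd hl h
    · refine Finset.sum_eq_zero fun l hl => Finset.sum_eq_zero fun m hm => if_neg fun h' => h ?_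
      exact (hinjR e f m hm l hl h').1
  have hQP : ∀ e : E, Q 1 * P e = 0 ∧ P e * Q 1 = 0 := by
    intro e
    have hne : ∀ l ∈ R, e • l ≠ 1 := fun l hl h => hR1 l hl (by
      rw [← inv_smul_smul e l, h, he1])
    simp only [P, Finset.mul_sum, Finset.sum_mul, hQQ]
    exact ⟨Finset.sum_eq_zero fun l hl => if_neg (hne l hl).symm,
      Finset.sum_eq_zero fun l hl => if_neg (hne l hl)⟩
  have hPconj : ∀ e f : E, σ e * P f = P (e * f) * σ e := by
    intro e f
    simp only [P, Finset.mul_sum, Finset.sum_mul, hconjQ, mul_smul]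
  have hQ1conj : ∀ e : E, σ e * Q 1 = Q 1 * σ e := fun e => by rw [hconjQ, he1]
  set W := LinearMap.range (P 1)
  have hWfix : ∀ w ∈ W, P 1 w = w := by
    rintro _ ⟨x, rfl⟩
    rw [← Module.End.mul_apply, hPP, if_pos rfl]
  have hsum_apply : ∀ x, Q 1 x + ∑ e : E, P e x = x := fun x => by
    have := congrArg (fun T : Module.End K M => T x) hPsum
    simpa [LinearMap.sum_apply] using this
  have hPe : ∀ (e : E) (x : M), P e x = σ e (P 1 (σ (e : X)⁻¹ x)) := fun e x => by
    rw [← Module.End.mul_apply, ← Module.End.mul_apply, hPconj, mul_one, mul_assoc,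
      ← map_mul, mul_inv_cancel, map_one, mul_one]
  -- the whole space
  have hdimM : Module.finrank K M =
      Module.finrank K (LinearMap.range (Q 1)) + Nat.card E * Module.finrank K W := by
    let Φ : M →ₗ[K] LinearMap.range (Q 1) × (E → W) :=
      (Q 1).rangeRestrict.prod (LinearMap.pi fun e : E => (P 1).rangeRestrict ∘ₗ σ ((e : X)⁻¹))
    have hbij : Function.Bijective Φ := by
      refine ⟨fun x y hxy => ?_, ?_⟩
      · have h1 : Q 1 x = Q 1 y := congrArg (fun z => ((z.1 : LinearMap.range (Q 1)) : M)) hxy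
        have h2 : ∀ e : E, P 1 (σ (e : X)⁻¹ x) = P 1 (σ (e : X)⁻¹ y) := fun e =>
          congrArg (fun z => ((z.2 e : W) : M)) hxy
        rw [← hsum_apply x, ← hsum_apply y, h1]
        refine congrArg _ (Finset.sum_congr rfl fun e _ => ?_)
        rw [hPe e x, hPe e y, h2]
      · rintro ⟨⟨z, hz⟩, f⟩
        obtain ⟨z₀, rfl⟩ := hz
        refine ⟨Q 1 z₀ + ∑ e : E, σ e (f e : M), Prod.ext (Subtype.ext ?_) (funext fun g => Subtype.ext ?_)⟩
        · show Q 1 (Q 1 z₀ + ∑ e : E, σ e (f e : M)) = Q 1 z₀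
          rw [map_add, map_sum, Finset.sum_eq_zero, add_zero, ← Module.End.mul_apply, hQQ, if_pos rfl]
          intro e _
          rw [← Module.End.mul_apply, ← hQ1conj, Module.End.mul_apply, ← hWfix _ (f e).2,
            ← Module.End.mul_apply (Q 1), (hQP 1).1, LinearMap.zero_apply, map_zero]
        · show P 1 (σ (g : X)⁻¹ (Q 1 z₀ + ∑ e : E, σ e (f e : M))) = (f g : M)
          rw [map_add, map_sum, map_add, map_sum, Finset.sum_eq_single g]
          · rw [← Module.End.mul_apply (σ (g : X)⁻¹) (Q 1), show σ (g : X)⁻¹ = σ ((g⁻¹ : E) : X)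
              from rfl, hQ1conj, Module.End.mul_apply, ← Module.End.mul_apply (P 1) (Q 1), (hQP 1).2,
              LinearMap.zero_apply, zero_add, ← Module.End.mul_apply (σ ((g⁻¹ : E) : X)), ← map_mul,
              Subgroup.coe_inv, inv_mul_cancel, map_one, Module.End.one_apply, hWfix _ (f g).2]
          · intro e _ hne
            rw [← Module.End.mul_apply (σ _) (σ _), ← map_mul,
              show (g : X)⁻¹ * e = ((g⁻¹ * e : E) : X) by simp, ← hWfix _ (f e).2,
              ← Module.End.mul_apply (σ _), hPconj, Module.End.mul_apply,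
              ← Module.End.mul_apply (P 1), hPP, if_neg, LinearMap.zero_apply]
            intro h
            exact hne (inv_mul_eq_one.mp (by simpa using h.symm)).symm
          · exact fun h => absurd (Finset.mem_univ g) h
    rw [(LinearEquiv.ofBijective Φ hbij).finrank_eq, Module.finrank_prod, Module.finrank_pi_fintype,
      Finset.sum_const, Finset.card_univ, smul_eq_mul, ← Nat.card_eq_fintype_card]
  -- the fixed points of `E`
  have hdimE : Module.finrank K (LinearMap.range (avg σ E)) =
      Module.finrank K (LinearMap.range (avg σ U * avg σ E)) + Module.finrank K W := by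
    let Ψ : LinearMap.range (avg σ E) →ₗ[K] LinearMap.range (avg σ U * avg σ E) × W :=
      (((avg σ U) ∘ₗ (LinearMap.range (avg σ E)).subtype).codRestrict _ fun x => by
        obtain ⟨y, hy⟩ := x.2
        exact ⟨y, by rw [Module.End.mul_apply, hy]; rfl⟩).prod
        ((P 1).rangeRestrict ∘ₗ (LinearMap.range (avg σ E)).subtype)
    have hfixE : ∀ x ∈ LinearMap.range (avg σ E), ∀ e : E, σ e x = x := fun x hx e =>
      (mem_range_avg σ hE).mp hx e e.2
    have hQ1 : ∀ x, avg σ U x = Q 1 x := fun x => by rw [hQ1]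
    have hbij : Function.Bijective Ψ := by
      refine ⟨fun x y hxy => Subtype.ext ?_, ?_⟩
      · have h1 : Q 1 (x : M) = Q 1 (y : M) := by
          rw [← hQ1, ← hQ1]
          exact congrArg (fun z => ((z.1 : LinearMap.range (avg σ U * avg σ E)) : M)) hxy
        have h2 : P 1 (x : M) = P 1 (y : M) := congrArg (fun z => ((z.2 : W) : M)) hxy
        rw [← hsum_apply (x : M), ← hsum_apply (y : M), h1]
        refine congrArg _ (Finset.sum_congr rfl fun e _ => ?_)
        rw [hPe e x, hPe e y, show σ (e : X)⁻¹ (x : M) = x from hfixE _ x.2 e⁻¹,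
          show σ (e : X)⁻¹ (y : M) = y from hfixE _ y.2 e⁻¹, h2]
      · rintro ⟨⟨z, hz⟩, ⟨w, hw⟩⟩
        obtain ⟨z₀, rfl⟩ := hz
        have hmem : Q 1 (avg σ E z₀) + ∑ e : E, σ e w ∈ LinearMap.range (avg σ E) := by
          refine (mem_range_avg σ hE).mpr fun f hf => ?_
          rw [map_add, map_sum]
          congr 1
          · rw [← Module.End.mul_apply, hQ1conj ⟨f, hf⟩, Module.End.mul_apply,
              ← Module.End.mul_apply (σ _), mul_avg σ hf]
          · exact Fintype.sum_equiv (Equiv.mulLeft (⟨f, hf⟩ : E)) _ _ fun e => by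
              rw [← Module.End.mul_apply, ← map_mul]; rfl
        refine ⟨⟨_, hmem⟩, Prod.ext (Subtype.ext ?_) (Subtype.ext ?_)⟩
        · show avg σ U (Q 1 (avg σ E z₀) + ∑ e : E, σ e w) = (avg σ U * avg σ E) z₀
          rw [hQ1, Module.End.mul_apply, hQ1, map_add, map_sum, Finset.sum_eq_zero, add_zero,
            ← Module.End.mul_apply (Q 1) (Q 1), hQQ, if_pos rfl]
          intro e _
          rw [← Module.End.mul_apply, ← hQ1conj, Module.End.mul_apply, ← hWfix _ hw,
            ← Module.End.mul_apply (Q 1), (hQP 1).1, LinearMap.zero_apply, map_zero]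
        · show P 1 (Q 1 (avg σ E z₀) + ∑ e : E, σ e w) = w
          rw [map_add, ← Module.End.mul_apply, (hQP 1).2, LinearMap.zero_apply, zero_add, map_sum,
            Finset.sum_eq_single 1, OneMemClass.coe_one, map_one, Module.End.one_apply, hWfix w hw]
          · intro e _ hne
            rw [← hWfix w hw, ← Module.End.mul_apply (σ _), hPconj, mul_one, Module.End.mul_apply,
              ← Module.End.mul_apply (P 1), hPP, if_neg (Ne.symm hne), LinearMap.zero_apply]
          · exact fun h => absurd (Finset.mem_univ _) h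
    rw [(LinearEquiv.ofBijective Ψ hbij).finrank_eq, Module.finrank_prod]
  rw [hdimM, hdimE, hQ1]
  ring

end Linear

/-- Base change does not alter the rank of an idempotent. -/
theorem finrank_range_baseChange {F K M : Type*} [Field F] [Field K] [Algebra F K] [AddCommGroup M]
    [Module F M] [FiniteDimensional F M] (T : M →ₗ[F] M) (hT : ∀ x, T (T x) = T x) :
    Module.finrank K (LinearMap.range (T.baseChange K)) = Module.finrank F (LinearMap.range T) := by
  set π := T.rangeRestrict
  set ι := (LinearMap.range T).subtype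
  have hπι : π ∘ₗ ι = LinearMap.id := by
    refine LinearMap.ext fun x => Subtype.ext ?_
    obtain ⟨y, hy⟩ := x.2
    show T (x : M) = x
    rw [← hy, hT]
  have hfac : T.baseChange K = ι.baseChange K ∘ₗ π.baseChange K := by
    rw [← LinearMap.baseChange_comp]; rfl
  have hid : ∀ x, π.baseChange K (ι.baseChange K x) = x := fun x => by
    rw [← LinearMap.comp_apply, ← LinearMap.baseChange_comp, hπι, LinearMap.baseChange_id,
      LinearMap.id_apply]
  rw [hfac, LinearMap.range_comp_of_range_eq_top _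
    (LinearMap.range_eq_top.mpr fun x => ⟨_, hid x⟩),
    ← (LinearEquiv.ofInjective (ι.baseChange K) (Function.LeftInverse.injective hid)).finrank_eq,
    Module.finrank_baseChange]

/-- The formula over a prime field. -/
theorem prime_formula {r : ℕ} [Fact r.Prime] {M : Type*} [AddCommGroup M] [Module (ZMod r) M]
    [FiniteDimensional (ZMod r) M] (σ : X →* Module.End (ZMod r) M) (U E U' : Subgroup X)
    (hU'U : U' ≤ U) (htriv : ∀ u ∈ U', σ u = 1)
    (hU'n : ∀ u ∈ U, ∀ v ∈ U', u * v * u⁻¹ ∈ U')
    (hab : ∀ u ∈ U, ∀ v ∈ U, u * v * u⁻¹ * v⁻¹ ∈ U')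
    (hEU : ∀ e ∈ E, ∀ u ∈ U, e * u * e⁻¹ ∈ U) (hEU' : ∀ e ∈ E, ∀ u ∈ U', e * u * e⁻¹ ∈ U')
    (hfpf : ∀ e ∈ E, e ≠ 1 → ∀ u ∈ U, e * u * e⁻¹ * u⁻¹ ∈ U' → u ∈ U')
    (hU : ¬ r ∣ Nat.card U) (hE : ¬ r ∣ Nat.card E) :
    Nat.card E * Module.finrank (ZMod r) (LinearMap.range (avg σ U * avg σ E)) +
        Module.finrank (ZMod r) M =
      Nat.card E * Module.finrank (ZMod r) (LinearMap.range (avg σ E)) +
        Module.finrank (ZMod r) (LinearMap.range (avg σ U)) := by
  classical
  set K := AlgebraicClosure (ZMod r)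
  haveI : CharP K r := charP_of_injective_algebraMap (algebraMap (ZMod r) K).injective r
  let σK : X →* Module.End K (K ⊗[ZMod r] M) :=
    { toFun := fun x => (σ x).baseChange K
      map_one' := by rw [map_one]; exact LinearMap.baseChange_one _ _
      map_mul' := fun a b => by rw [map_mul]; exact LinearMap.baseChange_mul _ _ }
  have havg : ∀ A : Subgroup X, avg σK A = (avg σ A).baseChange K := by
    intro A
    haveI := Fintype.ofFinite A
    refine TensorProduct.AlgebraTensorModule.ext fun k m => ?_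
    rw [avg_def, avg_def]
    simp only [σK, MonoidHom.coe_mk, OneHom.coe_mk, LinearMap.baseChange_tmul, LinearMap.smul_apply,
      LinearMap.coe_sum, Finset.sum_apply, TensorProduct.tmul_smul, TensorProduct.tmul_sum]
    rw [← algebraMap_smul K ((Nat.card A : ZMod r)⁻¹), map_inv₀, map_natCast]
  have hUK : (Nat.card U : K) ≠ 0 := fun h => hU ((CharP.cast_eq_zero_iff K r _).mp h)
  have hEK : (Nat.card E : K) ≠ 0 := fun h => hE ((CharP.cast_eq_zero_iff K r _).mp h)
  have h := linear_formula σK U E U' hU'U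
    (fun u hu => by show (σ u).baseChange K = 1; rw [htriv u hu]; exact LinearMap.baseChange_one _ _)
    hU'n hab hEU hEU' hfpf hUK hEK fun n hn => by
      haveI : NeZero ((n : ℕ) : ZMod r) :=
        ⟨fun h => hU (((ZMod.natCast_eq_zero_iff _ _).mp h).trans hn)⟩
      infer_instance
  have hE0 : (Nat.card E : ZMod r) ≠ 0 := fun h => hE ((ZMod.natCast_eq_zero_iff _ _).mp h)
  have hU0 : (Nat.card U : ZMod r) ≠ 0 := fun h => hU ((ZMod.natCast_eq_zero_iff _ _).mp h)
  have hidem : ∀ (A : Subgroup X), (Nat.card A : ZMod r) ≠ 0 → ∀ x, avg σ A (avg σ A x) = avg σ A x :=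
    fun A hA x => avg_apply_fixed σ hA ((mem_range_avg σ hA).mp ⟨x, rfl⟩)
  have hUE : ∀ x, (avg σ U * avg σ E) ((avg σ U * avg σ E) x) = (avg σ U * avg σ E) x := by
    intro x
    have hfixE : ∀ e ∈ E, σ e (avg σ U (avg σ E x)) = avg σ U (avg σ E x) := by
      intro e he
      haveI := Fintype.ofFinite U
      rw [avg_def, LinearMap.smul_apply, map_smul, LinearMap.coe_sum, Finset.sum_apply, map_sum]
      congr 1
      refine Fintype.sum_equiv
        ({ toFun := fun u : U => ⟨e * u * e⁻¹, hEU e he u u.2⟩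
           invFun := fun u : U => ⟨e⁻¹ * u * e, by
             have := hEU e⁻¹ (inv_mem he) u u.2; rwa [inv_inv] at this⟩
           left_inv := fun u => Subtype.ext (by simp [mul_assoc])
           right_inv := fun u => Subtype.ext (by simp [mul_assoc]) } : U ≃ U) _ _ fun u => ?_
      show σ e (σ u _) = σ (e * u * e⁻¹) _
      have hfix : σ e⁻¹ (avg σ E x) = avg σ E x :=
        (mem_range_avg σ hE0).mp ⟨x, rfl⟩ e⁻¹ (inv_mem he)
      rw [map_mul, map_mul, Module.End.mul_apply, Module.End.mul_apply, hfix]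
    simp only [Module.End.mul_apply]
    rw [avg_apply_fixed σ hE0 hfixE, hidem U hU0]
  rw [havg, havg, show (avg σ U).baseChange K * (avg σ E).baseChange K =
      (avg σ U * avg σ E).baseChange K from (LinearMap.baseChange_mul _ _).symm,
    finrank_range_baseChange _ hUE, finrank_range_baseChange _ (hidem E hE0),
    finrank_range_baseChange _ (hidem U hU0), Module.finrank_baseChange] at h
  exact h

/-- The same with numbers of fixed points. -/
theorem card_formula {r : ℕ} [Fact r.Prime] {M : Type*} [AddCommGroup M] [Module (ZMod r) M]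
    [Finite M] (σ : X →* Module.End (ZMod r) M) (U E U' : Subgroup X)
    (hU'U : U' ≤ U) (htriv : ∀ u ∈ U', σ u = 1)
    (hU'n : ∀ u ∈ U, ∀ v ∈ U', u * v * u⁻¹ ∈ U')
    (hab : ∀ u ∈ U, ∀ v ∈ U, u * v * u⁻¹ * v⁻¹ ∈ U')
    (hEU : ∀ e ∈ E, ∀ u ∈ U, e * u * e⁻¹ ∈ U) (hEU' : ∀ e ∈ E, ∀ u ∈ U', e * u * e⁻¹ ∈ U')
    (hfpf : ∀ e ∈ E, e ≠ 1 → ∀ u ∈ U, e * u * e⁻¹ * u⁻¹ ∈ U' → u ∈ U')
    (hU : ¬ r ∣ Nat.card U) (hE : ¬ r ∣ Nat.card E) :
    Nat.card {x : M // (∀ u ∈ U, σ u x = x) ∧ ∀ e ∈ E, σ e x = x} ^ Nat.card E * Nat.card M =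
      Nat.card {x : M // ∀ e ∈ E, σ e x = x} ^ Nat.card E *
        Nat.card {x : M // ∀ u ∈ U, σ u x = x} := by
  classical
  haveI : FiniteDimensional (ZMod r) M := Module.Finite.of_finite
  have hE0 : (Nat.card E : ZMod r) ≠ 0 := fun h => hE ((ZMod.natCast_eq_zero_iff _ _).mp h)
  have hU0 : (Nat.card U : ZMod r) ≠ 0 := fun h => hU ((ZMod.natCast_eq_zero_iff _ _).mp h)
  have hcard : ∀ {V : Submodule (ZMod r) M} (p : M → Prop), (∀ x, x ∈ V ↔ p x) →
      Nat.card {x : M // p x} = r ^ Module.finrank (ZMod r) V := by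
    intro V p hp
    rw [← Nat.card_congr (Equiv.subtypeEquivRight hp), Module.natCard_eq_pow_finrank (K := ZMod r),
      Nat.card_zmod]
  have hM : Nat.card M = r ^ Module.finrank (ZMod r) M := by
    rw [Module.natCard_eq_pow_finrank (K := ZMod r), Nat.card_zmod]
  have hUE : ∀ x, x ∈ LinearMap.range (avg σ U * avg σ E) ↔
      (∀ u ∈ U, σ u x = x) ∧ ∀ e ∈ E, σ e x = x := by
    intro x
    constructor
    · rintro ⟨y, rfl⟩
      refine ⟨(mem_range_avg σ hU0).mp ⟨_, rfl⟩, fun e he => ?_⟩
      haveI := Fintype.ofFinite U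
      rw [Module.End.mul_apply, avg_def, LinearMap.smul_apply, map_smul, LinearMap.coe_sum,
        Finset.sum_apply, map_sum]
      congr 1
      refine Fintype.sum_equiv
        ({ toFun := fun u : U => ⟨e * u * e⁻¹, hEU e he u u.2⟩
           invFun := fun u : U => ⟨e⁻¹ * u * e, by
             have := hEU e⁻¹ (inv_mem he) u u.2; rwa [inv_inv] at this⟩
           left_inv := fun u => Subtype.ext (by simp [mul_assoc])
           right_inv := fun u => Subtype.ext (by simp [mul_assoc]) } : U ≃ U) _ _ fun u => ?_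
      show σ e (σ u _) = σ (e * u * e⁻¹) _
      have hfix : σ e⁻¹ (avg σ E y) = avg σ E y :=
        (mem_range_avg σ hE0).mp ⟨y, rfl⟩ e⁻¹ (inv_mem he)
      rw [map_mul, map_mul, Module.End.mul_apply, Module.End.mul_apply, hfix]
    · rintro ⟨h1, h2⟩
      exact ⟨x, by rw [Module.End.mul_apply, avg_apply_fixed σ hE0 h2, avg_apply_fixed σ hU0 h1]⟩
  rw [hcard _ hUE, hcard _ (fun x => mem_range_avg σ hE0), hcard _ (fun x => mem_range_avg σ hU0),
    hM, ← pow_mul, ← pow_add, ← pow_mul, ← pow_add, mul_comm _ (Nat.card E), mul_comm _ (Nat.card E),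
    prime_formula σ U E U' hU'U htriv hU'n hab hEU hEU' hfpf hU hE]

end Cfsg.Lib.Characters.FrobFormula
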