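import Mathlib

/-!
# The five virtual characters in the `GL(2, 3)` centralizer problem: shape
-/

set_option autoImplicit false
set_option maxHeartbeats 1000000
set_option linter.constructorNameAsVariable false

namespace Cfsg.Lib.Characters.GLTwoThree

open scoped ComplexConjugate

/-- The Gram matrix of the five virtual characters. -/
def gram : Fin 5 → Fin 5 → ℤ :=
  ![![3, 1, 0, 0, 2], ![1, 3, 0, 0, 2], ![0, 0, 2, -1, 0], ![0, 0, -1, 2, -1], ![2, 2, 0, -1, 4]]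

theorem support_small {I : Type*} [Fintype I] [DecidableEq I] (m : I → ℤ) {n : ℕ} (hn : n ≤ 3)
    (h : ∑ x, m x * m x = n) :
    (∀ x, m x = 0 ∨ m x = 1 ∨ m x = -1) ∧ (Finset.univ.filter fun x => m x ≠ 0).card = n := by
  have hsmall : ∀ x, m x = 0 ∨ m x = 1 ∨ m x = -1 := by
    intro x
    have h1 : m x * m x ≤ 3 := by
      have := Finset.single_le_sum (f := fun y => m y * m y) (fun y _ => mul_self_nonneg (m y)) (Finset.mem_univ x)
      linarith [show (n : ℤ) ≤ 3 by exact_mod_cast hn]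
    have h2 : m x ≤ 1 := by nlinarith
    have h3 : -1 ≤ m x := by nlinarith
    omega
  refine ⟨hsmall, ?_⟩
  have h1 : ∀ x, m x * m x = if m x ≠ 0 then 1 else 0 := fun x => by
    rcases hsmall x with e | e | e <;> simp [e]
  rw [Finset.sum_congr rfl fun x _ => h1 x, Finset.sum_boole] at h
  exact_mod_cast h

theorem sum_eight {I M : Type*} [DecidableEq I] [AddCommMonoid M] {a b c d e f g h : I}
    (hnd : [a, b, c, d, e, f, g, h].Nodup) (F : I → M) :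
    ∑ x ∈ ({a, b, c, d, e, f, g, h} : Finset I), F x =
      F a + (F b + (F c + (F d + (F e + (F f + (F g + F h)))))) := by
  have : ({a, b, c, d, e, f, g, h} : Finset I) = [a, b, c, d, e, f, g, h].toFinset := by simp
  rw [this, List.sum_toFinset F hnd]
  simp

theorem sign_key (c₀ a₀ b₀ p q : ℤ)
    (h : 2 * (c₀ * c₀) + (c₀ - 1) * (c₀ - 1) + a₀ * a₀ + b₀ * b₀ + p * p + q * q ≤ 4)
    (hb : a₀ + b₀ = 2) (hq : a₀ + (p + q) = 2) :
    c₀ = 0 ∧ a₀ = 1 ∧ b₀ = 1 ∧ ((p = 1 ∧ q = 0) ∨ (p = 0 ∧ q = 1)) := by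
  obtain rfl : b₀ = 2 - a₀ := by omega
  obtain rfl : q = 2 - a₀ - p := by omega
  obtain ⟨_, _⟩ : -1 ≤ c₀ ∧ c₀ ≤ 2 := ⟨by nlinarith, by nlinarith⟩
  obtain ⟨_, _⟩ : 0 ≤ a₀ ∧ a₀ ≤ 2 := ⟨by nlinarith, by nlinarith⟩
  obtain ⟨_, _⟩ : -2 ≤ p ∧ p ≤ 2 := ⟨by nlinarith, by nlinarith⟩
  interval_cases c₀ <;> interval_cases a₀ <;> interval_cases p <;> omega

/-- The shape of the decompositions. -/
theorem shape {I : Type*} [Fintype I] [DecidableEq I] (i₁ : I) (m : Fin 5 → I → ℤ) (f : I → ℕ)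
    (hf : ∀ x, 0 < f x) (hf₁ : f i₁ = 1) (hone : ∀ i, m i i₁ = (![1, 0, 0, 0, 0] : Fin 5 → ℤ) i)
    (hgram : ∀ i j, ∑ x, m i x * m j x = gram i j) (hdeg : ∀ i, ∑ x, m i x * (f x : ℤ) = 0) :
    ∃ a b c d e : ℤ, a ≠ 0 ∧ b ≠ 0 ∧ c ≠ 0 ∧ d ≠ 0 ∧ e ≠ 0 ∧ 1 + a + b = 0 ∧ a + c + d = 0 ∧ c = 1 + e ∧
      ∀ F : (Fin 5 → ℂ) → ℂ, F 0 = 0 → (∀ (z : ℤ) (v : Fin 5 → ℂ), (z = 1 ∨ z = -1) → F ((z : ℂ) • v) = (z : ℂ) * F v) →
        ∑ x, F (fun i => (m i x : ℂ)) / (f x : ℂ) =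
          F ![1, 0, 0, 0, 0] + F ![1, 1, 0, 0, 1] / a + F ![1, 0, 0, 0, 1] / b + F ![0, 1, 0, 0, 1] / c +
            F ![0, 1, 0, 0, 0] / d + (F ![0, 0, 1, -1, 0] + F ![0, 0, -1, 0, 0] + F ![0, 0, 0, 1, -1]) / e := by
  obtain ⟨h3v, h3c⟩ := support_small (m 2) (n := 2) (by norm_num) (by rw [hgram]; rfl)
  obtain ⟨h4v, h4c⟩ := support_small (m 3) (n := 2) (by norm_num) (by rw [hgram]; rfl)
  obtain ⟨h1v, h1c⟩ := support_small (m 0) (n := 3) (by norm_num) (by rw [hgram]; rfl)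
  obtain ⟨h2v, h2c⟩ := support_small (m 1) (n := 3) (by norm_num) (by rw [hgram]; rfl)
  have hsum : ∀ (i : Fin 5) (s : Finset I), (∀ x, x ∉ s → m i x = 0) → ∀ g : I → ℤ,
      ∑ x, m i x * g x = ∑ x ∈ s, m i x * g x := fun i s hs g =>
    (Finset.sum_subset (Finset.subset_univ s) fun x _ hx => by rw [hs x hx, zero_mul]).symm
  -- the two characters of norm two
  obtain ⟨A, B, hAB, hsupp3⟩ := Finset.card_eq_two.mp h3c
  have h3out : ∀ x, x ∉ ({A, B} : Finset I) → m 2 x = 0 := fun x hx => by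
    by_contra h
    exact hx (hsupp3 ▸ Finset.mem_filter.mpr ⟨Finset.mem_univ _, h⟩)
  have h34 : m 2 A * m 3 A + m 2 B * m 3 B = -1 := by
    rw [← Finset.sum_pair hAB (f := fun x => m 2 x * m 3 x), ← hsum 2 _ h3out, hgram]; rfl
  have h3A : m 2 A ≠ 0 := (Finset.mem_filter.mp (hsupp3.symm ▸ Finset.mem_insert_self A _ : A ∈ Finset.univ.filter _)).2
  have h3B : m 2 B ≠ 0 := (Finset.mem_filter.mp
    (hsupp3.symm ▸ Finset.mem_insert_of_mem (Finset.mem_singleton_self B) : B ∈ Finset.univ.filter _)).2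
  wlog hB0 : m 3 B = 0 generalizing A B with H
  · refine H B A hAB.symm (by rw [hsupp3, Finset.pair_comm]) (fun x hx => h3out x (by rwa [Finset.pair_comm]))
      (by linarith) h3B h3A ?_
    rcases h3v A with e | e | e <;> rcases h3v B with e' | e' | e' <;> rcases h4v A with e₂ | e₂ | e₂ <;>
      rcases h4v B with e₂' | e₂' | e₂' <;> first | exact e₂ | (exfalso; rw [e, e', e₂, e₂'] at h34; omega) | omega
  rw [hB0, mul_zero, add_zero] at h34
  have h4A : m 3 A ≠ 0 := fun h => by rw [h, mul_zero] at h34; omega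
  set ε := m 2 A with hε
  have hε1 : ε = 1 ∨ ε = -1 := (h3v A).resolve_left h3A
  have hεε : ε * ε = 1 := by rcases hε1 with e | e <;> rw [e] <;> norm_num
  have h4A' : m 3 A = -ε := by
    calc m 3 A = ε * ε * m 3 A := by rw [hεε, one_mul]
      _ = ε * (ε * m 3 A) := by ring
      _ = -ε := by rw [h34]; ring
  have hd3 := hdeg 2
  rw [hsum 2 _ h3out, Finset.sum_pair hAB, ← hε] at hd3
  have hfA := hf A
  have hfB := hf B
  have h3B' : m 2 B = -ε := by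
    rcases hε1 with e | e <;> rcases (h3v B).resolve_left h3B with e' | e' <;>
      rw [e, e'] at hd3 <;> rw [e, e'] <;> omega
  rw [h3B'] at hd3
  have hBA : f B = f A := by rcases hε1 with e | e <;> rw [e] at hd3 <;> omega
  obtain ⟨S, hS4, hSA⟩ := Finset.exists_mem_ne (by omega : 1 < (Finset.univ.filter fun x => m 3 x ≠ 0).card) A
  have hS0 : m 3 S ≠ 0 := (Finset.mem_filter.mp hS4).2
  have h4out : ∀ x, x ∉ ({A, S} : Finset I) → m 3 x = 0 := by
    intro x hx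
    by_contra h
    have hsub : ({A, S} : Finset I) ⊆ Finset.univ.filter fun x => m 3 x ≠ 0 :=
      Finset.insert_subset (Finset.mem_filter.mpr ⟨Finset.mem_univ _, h4A⟩) (Finset.singleton_subset_iff.mpr hS4)
    have heq := Finset.eq_of_subset_of_card_le hsub (by rw [h4c, Finset.card_pair hSA.symm])
    exact hx (heq ▸ Finset.mem_filter.mpr ⟨Finset.mem_univ _, h⟩)
  have hd4 := hdeg 3
  rw [hsum 3 _ h4out, Finset.sum_pair hSA.symm, h4A'] at hd4
  have hfS := hf S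
  have h4S : m 3 S = ε := by
    rcases hε1 with e | e <;> rcases (h4v S).resolve_left hS0 with e' | e' <;>
      rw [e, e'] at hd4 <;> rw [e, e'] <;> omega
  rw [h4S] at hd4
  have hSA' : f S = f A := by rcases hε1 with e | e <;> rw [e] at hd4 <;> omega
  have hBS : B ≠ S := fun h => hS0 (h ▸ hB0)
  have hA1 : A ≠ i₁ := fun h => h3A (by have := hone 2; rw [← h] at this; simpa using this)
  have hB1 : B ≠ i₁ := fun h => h3B (by have := hone 2; rw [← h] at this; simpa using this)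
  have hS1 : S ≠ i₁ := fun h => hS0 (by have := hone 3; rw [← h] at this; simpa using this)
  have hor3 : ∀ i, gram i 2 = 0 → m i B = m i A := by
    intro i hi
    have h := hgram i 2
    rw [hi, Finset.sum_congr rfl fun x _ => mul_comm (m i x) (m 2 x), hsum 2 _ h3out, Finset.sum_pair hAB,
      ← hε, h3B'] at h
    rcases hε1 with e | e <;> rw [e] at h <;> omega
  have hor4 : ∀ i, ε * (m i S - m i A) = gram i 3 := by
    intro i
    have h := hgram i 3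
    rw [Finset.sum_congr rfl fun x _ => mul_comm (m i x) (m 3 x), hsum 3 _ h4out, Finset.sum_pair hSA.symm,
      h4A', h4S] at h
    linarith
  have hzero : ∀ i, gram i 2 = 0 → gram i 3 = 0 → m i A = m i S ∧ m i A = m i B := by
    intro i h2 h3
    refine ⟨?_, (hor3 i h2).symm⟩
    have := hor4 i
    rw [h3] at this
    rcases hε1 with e | e <;> rw [e] at this <;> omega
  -- the first
  have hm01 : m 0 i₁ = 1 := by simpa using hone 0
  obtain ⟨h0S, h0B⟩ := hzero 0 rfl rfl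
  have h0A : m 0 A = 0 := by
    by_contra h
    have hsub : ({i₁, A, B, S} : Finset I) ⊆ Finset.univ.filter fun x => m 0 x ≠ 0 := by
      intro x hx
      simp only [Finset.mem_insert, Finset.mem_singleton] at hx
      refine Finset.mem_filter.mpr ⟨Finset.mem_univ _, ?_⟩
      rcases hx with rfl | rfl | rfl | rfl
      · rw [hm01]; norm_num
      · exact h
      · rwa [← h0B]
      · rwa [← h0S]
    have h4 : ({i₁, A, B, S} : Finset I).card = 4 := by simp [hA1.symm, hB1.symm, hS1.symm, hAB, hSA.symm, hBS]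
    have := Finset.card_le_card hsub
    omega
  obtain ⟨X, Y, hXY, hXY1⟩ := Finset.card_eq_two.mp (show ((Finset.univ.filter fun x => m 0 x ≠ 0).erase i₁).card = 2 by
    rw [Finset.card_erase_of_mem (Finset.mem_filter.mpr ⟨Finset.mem_univ _, by rw [hm01]; norm_num⟩), h1c])
  have hXm : m 0 X ≠ 0 ∧ X ≠ i₁ := by
    have := hXY1.symm ▸ Finset.mem_insert_self X {Y}
    rw [Finset.mem_erase, Finset.mem_filter] at this
    exact ⟨this.2.2, this.1⟩
  have hYm : m 0 Y ≠ 0 ∧ Y ≠ i₁ := by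
    have := hXY1.symm ▸ (Finset.mem_insert_of_mem (Finset.mem_singleton_self Y) : Y ∈ ({X, Y} : Finset I))
    rw [Finset.mem_erase, Finset.mem_filter] at this
    exact ⟨this.2.2, this.1⟩
  have h1out : ∀ x, x ∉ ({i₁, X, Y} : Finset I) → m 0 x = 0 := by
    intro x hx
    by_contra h
    simp only [Finset.mem_insert, Finset.mem_singleton, not_or] at hx
    have : x ∈ (Finset.univ.filter fun x => m 0 x ≠ 0).erase i₁ :=
      Finset.mem_erase.mpr ⟨hx.1, Finset.mem_filter.mpr ⟨Finset.mem_univ _, h⟩⟩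
    rw [hXY1] at this
    simp only [Finset.mem_insert, Finset.mem_singleton] at this
    tauto
  -- the second
  obtain ⟨h1S, h1B⟩ := hzero 1 rfl rfl
  have hm11 : m 1 i₁ = 0 := by simpa using hone 1
  have hin : ∀ i, gram 0 i = m i i₁ + (m 0 X * m i X + m 0 Y * m i Y) := by
    intro i
    rw [← hgram 0 i, hsum 0 _ h1out, Finset.sum_insert (by simp [hXm.2.symm, hYm.2.symm]),
      Finset.sum_pair hXY, hm01, one_mul]
  have h12 : m 0 X * m 1 X + m 0 Y * m 1 Y = 1 := by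
    have := hin 1
    rw [hm11] at this
    simpa [gram] using this.symm
  have h1A : m 1 A = 0 := by
    by_contra h
    have hsub : ({A, B, S} : Finset I) ⊆ Finset.univ.filter fun x => m 1 x ≠ 0 := by
      intro x hx
      simp only [Finset.mem_insert, Finset.mem_singleton] at hx
      refine Finset.mem_filter.mpr ⟨Finset.mem_univ _, ?_⟩
      rcases hx with rfl | rfl | rfl
      · exact h
      · rwa [← h1B]
      · rwa [← h1S]
    have h3 : ({A, B, S} : Finset I).card = 3 := by simp [hAB, hSA.symm, hBS]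
    have heq := Finset.eq_of_subset_of_card_le hsub (by rw [h2c, h3])
    have : ∀ x, x ∉ ({A, B, S} : Finset I) → m 1 x = 0 := fun x hx => by
      by_contra h'
      exact hx (heq ▸ Finset.mem_filter.mpr ⟨Finset.mem_univ _, h'⟩)
    have hx0 : ∀ Z : I, m 0 Z ≠ 0 → m 1 Z = 0 := fun Z hZ => this Z (by
      simp only [Finset.mem_insert, Finset.mem_singleton, not_or]
      exact ⟨fun e => hZ (e ▸ h0A), fun e => hZ (e ▸ (h0B ▸ h0A)), fun e => hZ (e ▸ (h0S ▸ h0A))⟩)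
    rw [hx0 X hXm.1, hx0 Y hYm.1] at h12
    omega
  wlog hY2 : m 1 Y = 0 generalizing X Y with H
  · refine H Y X hXY.symm (by rw [hXY1, Finset.pair_comm]) hYm hXm (fun x hx => h1out x (by rwa [Finset.pair_comm]))
      (fun i => by rw [hin i]; ring) (by linarith) ?_
    rcases (h1v X).resolve_left hXm.1 with e | e <;> rcases (h1v Y).resolve_left hYm.1 with e' | e' <;>
      rcases h2v X with e₂ | e₂ | e₂ <;> rcases h2v Y with e₂' | e₂' | e₂' <;>
      first | exact e₂ | (exfalso; rw [e, e', e₂, e₂'] at h12; omega) | omega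
  set δ₁ := m 0 X with hδ₁
  set δ₂ := m 0 Y with hδ₂
  have hδ₁1 : δ₁ = 1 ∨ δ₁ = -1 := (h1v X).resolve_left hXm.1
  have hδ₂1 : δ₂ = 1 ∨ δ₂ = -1 := (h1v Y).resolve_left hYm.1
  have h2X : m 1 X = δ₁ := by
    rw [hY2, mul_zero, add_zero] at h12
    rcases hδ₁1 with e | e <;> rw [e] at h12 ⊢ <;> omega
  have h2X0 : m 1 X ≠ 0 := by rw [h2X]; exact hXm.1
  obtain ⟨U, V, hUV, hUV2⟩ := Finset.card_eq_two.mp (show ((Finset.univ.filter fun x => m 1 x ≠ 0).erase X).card = 2 by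
    rw [Finset.card_erase_of_mem (Finset.mem_filter.mpr ⟨Finset.mem_univ _, h2X0⟩ :
      X ∈ Finset.univ.filter fun x => m 1 x ≠ 0), h2c])
  have hUm : m 1 U ≠ 0 ∧ U ≠ X := by
    have := hUV2.symm ▸ Finset.mem_insert_self U {V}
    rw [Finset.mem_erase, Finset.mem_filter] at this
    exact ⟨this.2.2, this.1⟩
  have hVm : m 1 V ≠ 0 ∧ V ≠ X := by
    have := hUV2.symm ▸ (Finset.mem_insert_of_mem (Finset.mem_singleton_self V) : V ∈ ({U, V} : Finset I))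
    rw [Finset.mem_erase, Finset.mem_filter] at this
    exact ⟨this.2.2, this.1⟩
  have h2out : ∀ x, x ∉ ({X, U, V} : Finset I) → m 1 x = 0 := by
    intro x hx
    by_contra h
    simp only [Finset.mem_insert, Finset.mem_singleton, not_or] at hx
    have : x ∈ (Finset.univ.filter fun x => m 1 x ≠ 0).erase X :=
      Finset.mem_erase.mpr ⟨hx.1, Finset.mem_filter.mpr ⟨Finset.mem_univ _, h⟩⟩
    rw [hUV2] at this
    simp only [Finset.mem_insert, Finset.mem_singleton] at this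
    tauto
  -- distinctness
  have hne : ∀ Z : I, m 1 Z ≠ 0 → Z ≠ i₁ ∧ Z ≠ Y ∧ Z ≠ A ∧ Z ≠ B ∧ Z ≠ S := fun Z hZ =>
    ⟨fun e => hZ (e ▸ hm11), fun e => hZ (e ▸ hY2), fun e => hZ (e ▸ h1A),
      fun e => hZ (e ▸ (h1B ▸ h1A)), fun e => hZ (e ▸ (h1S ▸ h1A))⟩
  obtain ⟨hU1, hUY, hUA, hUB, hUS⟩ := hne U hUm.1
  obtain ⟨hV1, hVY, hVA, hVB, hVS⟩ := hne V hVm.1
  have hne0 : ∀ Z : I, m 0 Z ≠ 0 → Z ≠ A ∧ Z ≠ B ∧ Z ≠ S := fun Z hZ =>
    ⟨fun e => hZ (e ▸ h0A), fun e => hZ (e ▸ (h0B ▸ h0A)), fun e => hZ (e ▸ (h0S ▸ h0A))⟩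
  obtain ⟨hXA, hXB, hXS⟩ := hne0 X hXm.1
  obtain ⟨hYA, hYB, hYS⟩ := hne0 Y hYm.1
  -- the fifth
  have h5one : m 4 i₁ = 0 := by simpa using hone 4
  have h5XY : δ₁ * m 4 X + δ₂ * m 4 Y = 2 := by
    have := hin 4
    rw [h5one] at this
    simpa [gram] using this.symm
  have h5UV : δ₁ * m 4 X + (m 1 U * m 4 U + m 1 V * m 4 V) = 2 := by
    have h := hgram 1 4
    rw [hsum 1 _ h2out, Finset.sum_insert (by simp [hUm.2.symm, hVm.2.symm]), Finset.sum_pair hUV, h2X] at h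
    exact h
  have h5S : ε * (m 4 S - m 4 A) = -1 := hor4 4
  have h5B : m 4 B = m 4 A := hor3 4 rfl
  have hnd : ∀ U' V' : I, U' ≠ V' → m 1 U' ≠ 0 → U' ≠ X → m 1 V' ≠ 0 → V' ≠ X →
      [i₁, X, Y, U', V', A, B, S].Nodup := by
    intro U' V' huv hu hu' hv hv'
    obtain ⟨u1, u2, u3, u4, u5⟩ := hne U' hu
    obtain ⟨v1, v2, v3, v4, v5⟩ := hne V' hv
    simp [hXm.2.symm, hYm.2.symm, u1.symm, v1.symm, hA1.symm, hB1.symm, hS1.symm, hXY, hu'.symm, hv'.symm,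
      hXA, hXB, hXS, u2.symm, v2.symm, hYA, hYB, hYS, huv, u3, u4, u5, v3, v4, v5, hAB, hSA.symm, hBS]
  obtain ⟨hc0, ha0, hb0, hpq⟩ : ε * m 4 A = 0 ∧ δ₁ * m 4 X = 1 ∧ δ₂ * m 4 Y = 1 ∧
      ((m 1 U * m 4 U = 1 ∧ m 1 V * m 4 V = 0) ∨ (m 1 U * m 4 U = 0 ∧ m 1 V * m 4 V = 1)) := by
    have h5le : ∑ x ∈ ({i₁, X, Y, U, V, A, B, S} : Finset I), m 4 x * m 4 x ≤ 4 := by
      refine (Finset.sum_le_univ_sum_of_nonneg fun x => mul_self_nonneg _).trans (le_of_eq ?_)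
      rw [hgram]; rfl
    rw [sum_eight (hnd U V hUV hUm.1 hUm.2 hVm.1 hVm.2), h5one, h5B] at h5le
    have e1 : ∀ z : ℤ, z = 1 ∨ z = -1 → ∀ w : ℤ, (z * w) * (z * w) = w * w := by
      rintro z (rfl | rfl) w <;> ring
    have hS' : ε * m 4 S = ε * m 4 A - 1 := by linarith
    exact sign_key _ _ _ _ _ (by
      rw [e1 ε hε1, e1 δ₁ hδ₁1, e1 δ₂ hδ₂1, e1 _ ((h2v U).resolve_left hUm.1),
        e1 _ ((h2v V).resolve_left hVm.1), ← hS', e1 ε hε1]
      linarith) h5XY h5UV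
  obtain ⟨U, V, hUV, hUm, hVm, h2out, hp⟩ : ∃ U' V' : I, U' ≠ V' ∧ (m 1 U' ≠ 0 ∧ U' ≠ X) ∧
      (m 1 V' ≠ 0 ∧ V' ≠ X) ∧ (∀ x, x ∉ ({X, U', V'} : Finset I) → m 1 x = 0) ∧
      (m 1 U' * m 4 U' = 1 ∧ m 1 V' * m 4 V' = 0) := by
    rcases hpq with h | h
    · exact ⟨U, V, hUV, hUm, hVm, h2out, h⟩
    · exact ⟨V, U, hUV.symm, hVm, hUm, fun x hx => h2out x (by rwa [Finset.pair_comm]), h.2, h.1⟩
  obtain ⟨hU1, hUY, hUA, hUB, hUS⟩ := hne U hUm.1
  obtain ⟨hV1, hVY, hVA, hVB, hVS⟩ := hne V hVm.1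
  have hδ₃1 : m 1 U = 1 ∨ m 1 U = -1 := (h2v U).resolve_left hUm.1
  have hδ₄1 : m 1 V = 1 ∨ m 1 V = -1 := (h2v V).resolve_left hVm.1
  set T : Finset I := {i₁, X, Y, U, V, A, B, S} with hT
  have hTsum : ∀ g : I → ℤ, ∑ x ∈ T, g x = g i₁ + (g X + (g Y + (g U + (g V + (g A + (g B + g S)))))) :=
    fun g => sum_eight (hnd U V hUV hUm.1 hUm.2 hVm.1 hVm.2) g
  set δ₃ := m 1 U with hδ₃
  set δ₄ := m 1 V with hδ₄
  have h5A : m 4 A = 0 := by
    rcases mul_eq_zero.mp hc0 with h | h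
    · exact absurd h h3A
    · exact h
  have inv_sign : ∀ z w : ℤ, z = 1 ∨ z = -1 → z * w = 1 → w = z := by rintro z w (rfl | rfl) h <;> omega
  have h5X := inv_sign _ _ hδ₁1 ha0
  have h5Y := inv_sign _ _ hδ₂1 hb0
  have h5U := inv_sign _ _ hδ₃1 hp.1
  have h5V : m 4 V = 0 := by
    rcases mul_eq_zero.mp hp.2 with h | h
    · exact absurd h hVm.1
    · exact h
  have h5S' : m 4 S = -ε := by
    rw [h5A] at h5S
    rcases hε1 with e | e <;> rw [e] at h5S ⊢ <;> omega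
  have h5out : ∀ x, x ∉ T → m 4 x = 0 := by
    intro x hx
    by_contra h
    have h1 := Finset.sum_le_univ_sum_of_nonneg (s := insert x T) (f := fun y => m 4 y * m 4 y)
      fun y => mul_self_nonneg _
    rw [Finset.sum_insert hx, hTsum, h5one, h5B, h5A, h5X, h5Y, h5U, h5V, h5S', hgram] at h1
    have h2 : 0 < m 4 x * m 4 x := mul_self_pos.mpr h
    have h3 : gram 4 4 = 4 := rfl
    rcases hδ₁1 with e | e <;> rcases hδ₂1 with e' | e' <;> rcases hδ₃1 with e'' | e'' <;> rcases hε1 with e₃ | e₃ <;>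
      rw [e, e', e'', e₃] at h1 <;> linarith
  have hout : ∀ i x, x ∉ T → m i x = 0 := by
    intro i x hxT
    have hx := hxT
    rw [hT] at hx
    simp only [Finset.mem_insert, Finset.mem_singleton, not_or] at hx
    obtain ⟨n₁, n₂, n₃, n₄, n₅, n₆, n₇, n₈⟩ := hx
    fin_cases i
    · exact h1out x (by simp [n₁, n₂, n₃])
    · exact h2out x (by simp [n₂, n₄, n₅])
    · exact h3out x (by simp [n₆, n₇])
    · exact h4out x (by simp [n₆, n₈])
    · exact h5out x hxT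
  -- degrees
  have d0 := hdeg 0
  rw [hsum 0 T (hout 0), hTsum] at d0
  have d1 := hdeg 1
  rw [hsum 1 T (hout 1), hTsum] at d1
  have d4 := hdeg 4
  rw [hsum 4 T (hout 4), hTsum] at d4
  have z3 : ∀ x, x ≠ A → x ≠ B → m 2 x = 0 := fun x h h' => h3out x (by simp [h, h'])
  have z4 : ∀ x, x ≠ A → x ≠ S → m 3 x = 0 := fun x h h' => h4out x (by simp [h, h'])
  have z1 : ∀ x, x ≠ i₁ → x ≠ X → x ≠ Y → m 0 x = 0 := fun x h h' h'' => h1out x (by simp [h, h', h''])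
  have z2 : ∀ x, x ≠ X → x ≠ U → x ≠ V → m 1 x = 0 := fun x h h' h'' => h2out x (by simp [h, h', h''])
  have h0B' : m 0 B = 0 := h0B ▸ h0A
  have h0S' : m 0 S = 0 := h0S ▸ h0A
  have h1B' : m 1 B = 0 := h1B ▸ h1A
  have h1S' : m 1 S = 0 := h1S ▸ h1A
  have h0U : m 0 U = 0 := z1 U hU1 hUm.2 hUY
  have h0V : m 0 V = 0 := z1 V hV1 hVm.2 hVY
  simp only [hm01, ← hδ₁, ← hδ₂, h0U, h0V, h0A, h0B', h0S', one_mul, zero_mul, add_zero, hf₁, Nat.cast_one] at d0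
  simp only [hm11, h2X, hY2, ← hδ₃, ← hδ₄, h1A, h1B', h1S', zero_mul, zero_add, add_zero] at d1
  simp only [h5one, h5X, h5Y, h5U, h5V, h5A, h5B, h5S', hSA', zero_mul, zero_add, add_zero] at d4
  have key_ne : ∀ z : ℤ, z = 1 ∨ z = -1 → ∀ n : ℕ, 0 < n → z * (n : ℤ) ≠ 0 := by
    rintro z (rfl | rfl) n hn <;> omega
  refine ⟨δ₁ * f X, δ₂ * f Y, δ₃ * f U, δ₄ * f V, ε * f A, key_ne _ hδ₁1 _ (hf X), key_ne _ hδ₂1 _ (hf Y),
    key_ne _ hδ₃1 _ (hf U), key_ne _ hδ₄1 _ (hf V), key_ne _ hε1 _ (hf A), by linarith, by linarith,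
    by linarith, ?_⟩
  intro F hF0 hFz
  rw [← Finset.sum_subset (Finset.subset_univ T) fun x _ hx => by
    rw [show (fun i => (m i x : ℂ)) = 0 from funext fun i => by simp [hout i x hx], hF0, zero_div]]
  have hTsumC : ∀ g : I → ℂ, ∑ x ∈ T, g x = g i₁ + (g X + (g Y + (g U + (g V + (g A + (g B + g S)))))) :=
    fun g => sum_eight (hnd U V hUV hUm.1 hUm.2 hVm.1 hVm.2) g
  rw [hTsumC]
  have hz : ∀ z : ℤ, z = 1 ∨ z = -1 → ∀ (v : Fin 5 → ℂ) (n : ℕ),
      F ((z : ℂ) • v) / (n : ℂ) = F v / ((z * (n : ℤ) : ℤ) : ℂ) := by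
    intro z hz v n
    rw [hFz z v hz]
    rcases hz with rfl | rfl <;> push_cast <;> field_simp
  have v1 : (fun i => (m i i₁ : ℂ)) = ![1, 0, 0, 0, 0] := funext fun i => by
    rw [hone i]; fin_cases i <;> simp
  have vX : (fun i => (m i X : ℂ)) = (δ₁ : ℂ) • ![1, 1, 0, 0, 1] := funext fun i => by
    fin_cases i <;> simp [← hδ₁, h2X, h5X, z3 X hXA hXB, z4 X hXA hXS]
  have vY : (fun i => (m i Y : ℂ)) = (δ₂ : ℂ) • ![1, 0, 0, 0, 1] := funext fun i => by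
    fin_cases i <;> simp [← hδ₂, hY2, h5Y, z3 Y hYA hYB, z4 Y hYA hYS]
  have vU : (fun i => (m i U : ℂ)) = (δ₃ : ℂ) • ![0, 1, 0, 0, 1] := funext fun i => by
    fin_cases i <;> simp [← hδ₃, h0U, h5U, z3 U hUA hUB, z4 U hUA hUS]
  have vV : (fun i => (m i V : ℂ)) = (δ₄ : ℂ) • ![0, 1, 0, 0, 0] := funext fun i => by
    fin_cases i <;> simp [← hδ₄, h0V, h5V, z3 V hVA hVB, z4 V hVA hVS]
  have vA : (fun i => (m i A : ℂ)) = (ε : ℂ) • ![0, 0, 1, -1, 0] := funext fun i => by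
    fin_cases i <;> simp [h0A, h1A, ← hε, h4A', h5A]
  have vB : (fun i => (m i B : ℂ)) = (ε : ℂ) • ![0, 0, -1, 0, 0] := funext fun i => by
    fin_cases i <;> simp [h0B', h1B', h3B', hB0, h5B, h5A]
  have vS : (fun i => (m i S : ℂ)) = (ε : ℂ) • ![0, 0, 0, 1, -1] := funext fun i => by
    fin_cases i <;> simp [h0S', h1S', z3 S hSA hBS.symm, h4S, h5S']
  rw [v1, vX, vY, vU, vV, vA, vB, vS, hz δ₁ hδ₁1, hz δ₂ hδ₂1, hz δ₃ hδ₃1, hz δ₄ hδ₄1, hz ε hε1, hz ε hε1,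
    hz ε hε1, hf₁, hBA, hSA', Nat.cast_one, div_one]
  push_cast
  ring

end Cfsg.Lib.Characters.GLTwoThree
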