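import Mathlib

/-!
# The five virtual characters in the `GL(2, 3)` centralizer problem: arithmetic
-/

set_option autoImplicit false
set_option maxHeartbeats 1000000
set_option linter.constructorNameAsVariable false

namespace Cfsg.Lib.Characters.GLTwoThree

open scoped ComplexConjugate

/-- The finite check. -/
theorem finite_check : ∀ i ∈ List.range 145, ∀ b : ℤ, b = (i : ℤ) - 81 → (b + 9) ∣ 72 →
    ∀ c : ℤ, c = 9 - 72 / (b + 9) →
    ∀ K : ℤ, K = (-1 - b) * (b - c + 1) * (c - 1) + 16 * ((b - c + 1) * (c - 1)) + (-1 - b) * (c - 1) +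
      4 * ((-1 - b) * (b - c + 1)) →
    ∀ M : ℤ, M = 288 * ((-1 - b) * (b - c + 1) * (c - 1)) →
    M = 0 ∨ b = 0 ∨ c = 0 ∨ ¬ K ∣ M ∨ M / K ≤ 0 ∨ M / K % 2 = 0 ∨ M / K = 117 ∨ M / K = 165 := by
  simp only [forall_eq]
  decide +kernel

theorem even_of_eq {n : ℕ} (hn : Odd n) {x y : ℤ} (h : (n : ℤ) * x ^ 2 = 2 * y) : ∃ j, x = 2 * j := by
  have h2 : Even ((n : ℤ) * x ^ 2) := ⟨y, by rw [h, two_mul]⟩
  rcases Int.even_mul.mp h2 with h3 | h3
  · rw [Int.even_coe_nat] at h3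
    exact absurd h3 (Nat.not_even_iff_odd.mpr hn)
  · exact ((Int.even_pow.mp h3).1).two_dvd

/-- The odd solutions of the order formula. -/
theorem solve (n : ℕ) (hn : Odd n) (a b c d e : ℤ) (ha : a ≠ 0) (hb : b ≠ 0) (hc : c ≠ 0) (hd : d ≠ 0)
    (he : e ≠ 0) (h1 : 1 + a + b = 0) (h2 : a + c + d = 0) (h3 : c = 1 + e)
    (hw : b * c * d + 9 * (c * d) - 9 * (b * d) - b * c = 0)
    (hu : (n : ℤ) * (a * d * e + 16 * (d * e) + a * e + 4 * (a * d)) = 288 * (a * d * e)) :
    n = 117 ∨ n = 165 := by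
  obtain rfl : a = -1 - b := by omega
  obtain rfl : e = c - 1 := by omega
  obtain rfl : d = b - c + 1 := by omega
  have hfac : (b - c) * ((b + 9) * (c - 9) + 72) = 0 := by linear_combination hw
  rcases mul_eq_zero.mp hfac with h | h
  · exfalso
    obtain rfl : b = c := by omega
    have h' : (n : ℤ) * (b - 3) ^ 2 = 144 * ((b + 1) * (b - 1)) :=
      mul_left_cancel₀ (show (2 : ℤ) ≠ 0 by norm_num) (by linear_combination -hu)
    obtain ⟨x, hx⟩ := even_of_eq hn (x := b - 3) (y := 72 * ((b + 1) * (b - 1))) (by linear_combination h')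
    obtain rfl : b = 2 * x + 3 := by omega
    have hA : (n : ℤ) * x ^ 2 = 144 * ((x + 2) * (x + 1)) :=
      mul_left_cancel₀ (show (4 : ℤ) ≠ 0 by norm_num) (by linear_combination h')
    obtain ⟨z, rfl⟩ := even_of_eq hn (x := x) (y := 72 * ((x + 2) * (x + 1))) (by linear_combination hA)
    have hB : (n : ℤ) * z ^ 2 = 72 * ((z + 1) * (2 * z + 1)) :=
      mul_left_cancel₀ (show (4 : ℤ) ≠ 0 by norm_num) (by linear_combination hA)
    obtain ⟨l, rfl⟩ := even_of_eq hn (x := z) (y := 36 * ((z + 1) * (2 * z + 1))) (by linear_combination hB)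
    have hC : (n : ℤ) * l ^ 2 = 18 * ((2 * l + 1) * (4 * l + 1)) :=
      mul_left_cancel₀ (show (4 : ℤ) ≠ 0 by norm_num) (by linear_combination hB)
    obtain ⟨r, rfl⟩ := even_of_eq hn (x := l) (y := 9 * ((2 * l + 1) * (4 * l + 1))) (by linear_combination hC)
    obtain ⟨w, hw'⟩ : ∃ w : ℤ, 2 * w = 9 :=
      ⟨(n : ℤ) * r ^ 2 - 144 * r ^ 2 - 54 * r,
        mul_left_cancel₀ (show (2 : ℤ) ≠ 0 by norm_num) (by linear_combination hC)⟩
    omega
  · have hd72 : (b + 9) ∣ 72 := ⟨-(c - 9), by linear_combination h⟩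
    have h1' := Int.le_of_dvd (by norm_num) hd72
    have h2' : -(b + 9) ≤ 72 := Int.le_of_dvd (by norm_num) (neg_dvd.mpr hd72)
    have hc' : c = 9 - 72 / (b + 9) := by
      have hb9 : b + 9 ≠ 0 := fun h0 => by rw [h0] at h; norm_num at h
      have : (72 : ℤ) / (b + 9) = 9 - c := Int.ediv_eq_of_eq_mul_right hb9 (by linear_combination h)
      omega
    have hchk := finite_check (b + 81).toNat (List.mem_range.mpr (by omega)) b (by omega) hd72 c hc' _ rfl _ rfl
    have hK : (-1 - b) * (b - c + 1) * (c - 1) + 16 * ((b - c + 1) * (c - 1)) + (-1 - b) * (c - 1) +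
        4 * ((-1 - b) * (b - c + 1)) ≠ 0 := fun h0 => by
      rw [h0, mul_zero] at hu
      simp [ha, hd, he] at hu
    have hq := Int.ediv_eq_of_eq_mul_left hK hu.symm
    rw [hq] at hchk
    obtain ⟨q, hq'⟩ := hn
    rcases hchk with h0 | h0 | h0 | h0 | h0 | h0 | h0 | h0
    · simp [ha, hd, he] at h0
    · exact absurd h0 hb
    · exact absurd h0 hc
    · exact absurd ⟨(n : ℤ), by rw [← hu, mul_comm]⟩ h0
    all_goals omega

end Cfsg.Lib.Characters.GLTwoThree
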