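import Cfsg.Agent.Lib.Characters.GridCheck

/-!
# A grid of norm three integral vectors splits into row, column and entry points
-/

set_option autoImplicit false

namespace Cfsg.Lib.Characters.Grid

variable {I J ι : Type*} [Fintype ι]

/-- A vector with entries of absolute value at most one and norm three. -/
def Small (a : ι → ℤ) : Prop := (∑ t, a t * a t = 3) ∧ ∀ t, -1 ≤ a t ∧ a t ≤ 1

theorem small_of_norm {a : ι → ℤ} (h : ∑ t, a t * a t = 3) : Small a := by
  refine ⟨h, fun t => ?_⟩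
  have h' : a t * a t ≤ 3 := h ▸ Finset.single_le_sum (fun u _ => mul_self_nonneg (a u)) (Finset.mem_univ t)
  exact ⟨by nlinarith, by nlinarith⟩

theorem small_sq {a : ι → ℤ} (h : Small a) {t : ι} (ht : a t ≠ 0) : a t * a t = 1 := by
  obtain ⟨h1, h2⟩ := h.2 t
  rcases (show a t = -1 ∨ a t = 1 by omega) with e | e <;> rw [e] <;> norm_num

open Classical in
theorem card_support {a : ι → ℤ} (h : Small a) :
    (Finset.univ.filter fun t => a t ≠ 0).card = 3 := by
  have e : ∑ t ∈ Finset.univ.filter (fun t => a t ≠ 0), a t * a t = 3 := by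
    rw [Finset.sum_filter, ← h.1]
    exact Finset.sum_congr rfl fun t _ => by by_cases ht : a t = 0 <;> simp [ht]
  rw [Finset.sum_congr rfl fun t ht => small_sq h (Finset.mem_filter.mp ht).2, Finset.sum_const,
    nsmul_eq_mul, mul_one] at e
  exact_mod_cast e

theorem exists_third {a : ι → ℤ} (h : Small a) {p q : ι} (hpq : p ≠ q) (hp : a p ≠ 0) (hq : a q ≠ 0) :
    ∃ r, r ≠ p ∧ r ≠ q ∧ a r ≠ 0 ∧ ∀ t, a t ≠ 0 → t = p ∨ t = q ∨ t = r := by
  classical
  set S := Finset.univ.filter fun t => a t ≠ 0 with hS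
  have hc : ((S.erase p).erase q).card = 1 := by
    rw [Finset.card_erase_of_mem (by simp [hS, hpq.symm, hq]), Finset.card_erase_of_mem (by simp [hS, hp]),
      card_support h]
  obtain ⟨r, hr⟩ := Finset.card_eq_one.mp hc
  have hr' : r ∈ (S.erase p).erase q := by rw [hr]; exact Finset.mem_singleton_self r
  simp only [hS, Finset.mem_erase, Finset.mem_filter, Finset.mem_univ, true_and] at hr'
  refine ⟨r, hr'.2.1, hr'.1, hr'.2.2, fun t ht => ?_⟩
  by_contra hne
  push Not at hne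
  have : t ∈ (S.erase p).erase q := by simp [hS, hne.1, hne.2.1, ht]
  rw [hr, Finset.mem_singleton] at this
  exact hne.2.2 this

theorem line_sum {a : ι → ℤ} (h : Small a) {p q r : ι} (hpq : p ≠ q) (hpr : p ≠ r) (hqr : q ≠ r)
    (hp : a p ≠ 0) (hq : a q ≠ 0) (hr : a r ≠ 0) (g : ι → ℤ) :
    ∑ t, g t * a t = g p * a p + g q * a q + g r * a r := by
  classical
  have hz : ∀ t, t ∉ ({p, q, r} : Finset ι) → g t * a t = 0 := by
    intro t ht
    simp only [Finset.mem_insert, Finset.mem_singleton] at ht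
    push Not at ht
    by_cases h0 : a t = 0
    · rw [h0, mul_zero]
    obtain ⟨r', -, -, -, hall⟩ := exists_third h hpq hp hq
    rcases hall r hr with e | e | e
    · exact absurd e.symm hpr
    · exact absurd e.symm hqr
    · rcases hall t h0 with e' | e' | e'
      · exact absurd e' ht.1
      · exact absurd e' ht.2.1
      · exact absurd (e'.trans e.symm) ht.2.2
  rw [← Finset.sum_subset (Finset.subset_univ {p, q, r}) fun t _ ht => hz t ht,
    Finset.sum_insert (by simp [hpq, hpr]), Finset.sum_insert (by simp [hqr]), Finset.sum_singleton,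
    add_assoc]

/-- Two small vectors of inner product one and equal degree share exactly one signed point. -/
theorem common_point {a b : ι → ℤ} (ha : Small a) (hb : Small b) (hab : ∑ t, a t * b t = 1)
    {d : ι → ℤ} (hd : ∀ t, d t ≠ 0) (hdeg : ∑ t, (a t - b t) * d t = 0) :
    ∃ t, a t ≠ 0 ∧ b t = a t ∧ ∀ u, a u ≠ 0 → b u ≠ 0 → u = t := by
  classical
  have hnn : ∀ t, 0 ≤ a t * b t := by
    intro t
    by_contra hlt
    push Not at hlt
    have hsum : ∑ u, (a u - b u) * (a u - b u) = 4 := by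
      have : ∀ u, (a u - b u) * (a u - b u) = a u * a u + b u * b u - 2 * (a u * b u) := fun u => by ring
      rw [Finset.sum_congr rfl fun u _ => this u, Finset.sum_sub_distrib, Finset.sum_add_distrib,
        ← Finset.mul_sum, ha.1, hb.1, hab]
      norm_num
    obtain ⟨a1, a2⟩ := ha.2 t
    obtain ⟨b1, b2⟩ := hb.2 t
    have ht : (a t - b t) * (a t - b t) = 4 := by
      rcases (show a t = -1 ∨ a t = 0 ∨ a t = 1 by omega) with e | e | e <;>
        rcases (show b t = -1 ∨ b t = 0 ∨ b t = 1 by omega) with e' | e' | e' <;>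
          simp [e, e'] at hlt ⊢
    rw [← Finset.add_sum_erase _ _ (Finset.mem_univ t), ht] at hsum
    have hz : ∀ u ∈ Finset.univ.erase t, (a u - b u) * d u = 0 := by
      intro u hu
      have h0 := (Finset.sum_eq_zero_iff_of_nonneg fun u _ => mul_self_nonneg _).mp
        (show ∑ u ∈ Finset.univ.erase t, (a u - b u) * (a u - b u) = 0 by linarith) u hu
      rw [mul_self_eq_zero.mp h0, zero_mul]
    rw [← Finset.add_sum_erase _ _ (Finset.mem_univ t), Finset.sum_eq_zero hz, add_zero] at hdeg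
    rcases mul_eq_zero.mp hdeg with h | h
    · rw [h, mul_zero] at ht; norm_num at ht
    · exact hd t h
  obtain ⟨t, ht⟩ : ∃ t, a t * b t ≠ 0 := by
    by_contra h
    push Not at h
    simp [h] at hab
  have ha0 : a t ≠ 0 := left_ne_zero_of_mul ht
  refine ⟨t, ha0, ?_, fun u hua hub => by_contra fun hne => ?_⟩
  · have h1 := hnn t
    obtain ⟨a1, a2⟩ := ha.2 t
    obtain ⟨b1, b2⟩ := hb.2 t
    rcases (show a t = -1 ∨ a t = 1 by omega) with e | e <;>
      rcases (show b t = -1 ∨ b t = 0 ∨ b t = 1 by omega) with e' | e' | e' <;>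
        simp [e, e'] at h1 ht ⊢
  · have h2 : a t * b t + a u * b u ≤ 1 := by
      rw [← hab, ← Finset.sum_pair (Ne.symm hne) (f := fun x => a x * b x)]
      exact Finset.sum_le_sum_of_subset_of_nonneg (Finset.subset_univ _) fun x _ _ => hnn x
    have := lt_of_le_of_ne (hnn t) (Ne.symm ht)
    have := lt_of_le_of_ne (hnn u) (Ne.symm (mul_ne_zero hua hub))
    omega

/-- Orthogonal small vectors sharing a point share a second one. -/
theorem second_point {a b : ι → ℤ} (hab : ∑ t, a t * b t = 0) {t : ι} (ha : a t ≠ 0) (hb : b t ≠ 0) :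
    ∃ u, u ≠ t ∧ a u ≠ 0 ∧ b u ≠ 0 := by
  by_contra h
  push Not at h
  rw [Finset.sum_eq_single t (fun u _ hu => by
    by_cases h0 : a u = 0
    · simp [h0]
    · simp [h u hu h0]) (by simp)] at hab
  exact mul_ne_zero ha hb hab

/-- The hypotheses on a grid. -/
structure Hyp (v : I → J → ι → ℤ) (d : ι → ℤ) : Prop where
  deg_ne : ∀ t, d t ≠ 0
  norm : ∀ i j, ∑ t, v i j t * v i j t = 3
  col : ∀ i k j, i ≠ k → ∑ t, v i j t * v k j t = 1
  row : ∀ i j l, j ≠ l → ∑ t, v i j t * v i l t = 1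
  orth : ∀ i k j l, i ≠ k → j ≠ l → ∑ t, v i j t * v k l t = 0
  deg : ∀ i j k l, ∑ t, (v i j t - v k l t) * d t = 0

namespace Hyp

variable {v : I → J → ι → ℤ} {d : ι → ℤ}

theorem small (h : Hyp v d) (i : I) (j : J) : Small (v i j) := small_of_norm (h.norm i j)

theorem swap (h : Hyp v d) : Hyp (fun j i => v i j) d where
  deg_ne := h.deg_ne
  norm := fun j i => h.norm i j
  col := fun j l i hne => h.row i j l hne
  row := fun j i k hne => h.col i k j hne
  orth := fun j l i k h1 h2 => h.orth i k j l h2 h1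
  deg := fun j i l k => h.deg i j k l

theorem colPoint (h : Hyp v d) {i k : I} (j : J) (hne : i ≠ k) :
    ∃ t, v i j t ≠ 0 ∧ v k j t = v i j t ∧ ∀ u, v i j u ≠ 0 → v k j u ≠ 0 → u = t :=
  common_point (h.small i j) (h.small k j) (h.col i k j hne) h.deg_ne (h.deg i j k j)

theorem col_unique (h : Hyp v d) {i k : I} {j : J} (hne : i ≠ k) {t u : ι} (h1 : v i j t ≠ 0)
    (h2 : v k j t ≠ 0) (h3 : v i j u ≠ 0) (h4 : v k j u ≠ 0) : t = u := by
  obtain ⟨c, -, -, hc⟩ := h.colPoint j hne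
  rw [hc t h1 h2, hc u h3 h4]

theorem col_val (h : Hyp v d) {i k : I} {j : J} (hne : i ≠ k) {t : ι} (h1 : v i j t ≠ 0)
    (h2 : v k j t ≠ 0) : v k j t = v i j t := by
  obtain ⟨c, -, hv, hc⟩ := h.colPoint j hne
  rw [hc t h1 h2, hv]

theorem row_unique (h : Hyp v d) {i : I} {j l : J} (hne : j ≠ l) {t u : ι} (h1 : v i j t ≠ 0)
    (h2 : v i l t ≠ 0) (h3 : v i j u ≠ 0) (h4 : v i l u ≠ 0) : t = u :=
  h.swap.col_unique hne h1 h2 h3 h4

/-- The two points of `A` outside the hub. -/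
theorem hub_side (h : Hyp v d) (j : J) {A B C D : I} (hAB : A ≠ B) (hAC : A ≠ C) (hAD : A ≠ D)
    {p : ι} (pA : v A j p ≠ 0) (pB : v B j p ≠ 0) (pC : v C j p ≠ 0) (pD : v D j p = 0) :
    ∃ a a', v A j a ≠ 0 ∧ v D j a = v A j a ∧ v B j a = 0 ∧ v C j a = 0 ∧
      v A j a' ≠ 0 ∧ v B j a' = 0 ∧ v C j a' = 0 ∧ v D j a' = 0 := by
  obtain ⟨a, aA, aD, -⟩ := h.colPoint j hAD
  have hpa : p ≠ a := fun e => aA (by rw [← aD, ← e, pD])
  obtain ⟨a', h1, h2, a'A, -⟩ := exists_third (h.small A j) hpa pA aA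
  refine ⟨a, a', aA, aD, ?_, ?_, a'A, ?_, ?_, ?_⟩ <;> by_contra hh
  · exact hpa (h.col_unique hAB pA pB aA hh)
  · exact hpa (h.col_unique hAC pA pC aA hh)
  · exact h1 (h.col_unique hAB a'A hh pA pB)
  · exact h1 (h.col_unique hAC a'A hh pA pC)
  · exact h2 (h.col_unique hAD a'A hh aA (aD ▸ aA))

theorem no_hub (h : Hyp v d) {j l : J} (hjl : j ≠ l) {A B C D : I} (hAB : A ≠ B) (hAC : A ≠ C)
    (hAD : A ≠ D) (hBC : B ≠ C) (hBD : B ≠ D) (hCD : C ≠ D) {p : ι} (pA : v A j p ≠ 0)
    (pB : v B j p ≠ 0) (pC : v C j p ≠ 0) (pD : v D j p = 0) : False := by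
  classical
  obtain ⟨a, a', aA, aD, aB, aC, a'A, a'B, a'C, a'D⟩ := h.hub_side j hAB hAC hAD pA pB pC pD
  obtain ⟨b, b', bB, bD, bA, bC, b'B, b'A, b'C, b'D⟩ := h.hub_side j hAB.symm hBC hBD pB pA pC pD
  obtain ⟨c, c', cC, cD, cA, cB, c'C, c'A, c'B, c'D⟩ := h.hub_side j hAC.symm hBC.symm hCD pC pA pB pD
  let R : Fin 4 → I := ![A, B, C, D]
  let f : Fin 7 → ι := ![p, a, a', b, b', c, c']
  let s : Fin 7 → ℤ := ![v A j p, v A j a, v A j a', v B j b, v B j b', v C j c, v C j c']
  let M : Fin 4 → Fin 7 → ℤ :=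
    ![![1, 1, 1, 0, 0, 0, 0], ![1, 0, 0, 1, 1, 0, 0], ![1, 0, 0, 0, 0, 1, 1], ![0, 1, 0, 1, 0, 1, 0]]
  have hRinj : Function.Injective R := by
    intro x y hxy
    fin_cases x <;> fin_cases y <;> simp_all [R, eq_comm]
  have aD' : v D j a ≠ 0 := aD ▸ aA
  have bD' : v D j b ≠ 0 := bD ▸ bB
  have cD' : v D j c ≠ 0 := cD ▸ cC
  have hpat : (fun m l => decide (v (R l) j (f m) ≠ 0)) = fun m l => decide (M l m = 1) := by
    funext m l
    fin_cases m <;> fin_cases l <;>
      simp [R, f, M, pA, pB, pC, pD, aA, aB, aC, aD', a'A, a'B, a'C, a'D, bA, bB, bC, bD', b'A, b'B,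
        b'C, b'D, cA, cB, cC, cD', c'A, c'B, c'C, c'D]
  have hf : Function.Injective f := by
    refine Function.Injective.of_comp (f := fun t l => decide (v (R l) j t ≠ 0)) ?_
    show Function.Injective fun m l => decide (v (R l) j (f m) ≠ 0)
    rw [hpat]
    decide
  have hne : ∀ m m', m ≠ m' → f m ≠ f m' := fun m m' hh e => hh (hf e)
  refine no_column M (by
    have e : (List.ofFn fun l => List.ofFn (M l)) = hubLines := rfl
    rw [e]; exact noChoice_hub) f hf s ?_ (fun k => v (R k) j) (fun k => v (R k) l) ?_ ?_ ?_ ?_ ?_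
  · intro m
    fin_cases m <;> simp only [s] <;> first
      | exact small_sq (h.small _ j) pA
      | exact small_sq (h.small _ j) aA
      | exact small_sq (h.small _ j) a'A
      | exact small_sq (h.small _ j) bB
      | exact small_sq (h.small _ j) b'B
      | exact small_sq (h.small _ j) cC
      | exact small_sq (h.small _ j) c'C
  · intro k g
    fin_cases k <;> rw [Fin.sum_univ_seven] <;> dsimp [R, f, s, M]
    · rw [line_sum (h.small A j) (hne 0 1 (by decide)) (hne 0 2 (by decide)) (hne 1 2 (by decide))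
        pA aA a'A]
      simp [f]
    · rw [line_sum (h.small B j) (hne 0 3 (by decide)) (hne 0 4 (by decide)) (hne 3 4 (by decide))
        pB bB b'B]
      simp [f, h.col_val hAB pA pB]
    · rw [line_sum (h.small C j) (hne 0 5 (by decide)) (hne 0 6 (by decide)) (hne 5 6 (by decide))
        pC cC c'C]
      simp [f, h.col_val hAC pA pC]
    · rw [line_sum (h.small D j) (hne 1 3 (by decide)) (hne 1 5 (by decide)) (hne 3 5 (by decide))
        aD' bD' cD']
      simp [f, aD, bD, cD]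
  · exact fun k t => (h.small _ l).2 t
  · exact fun k => h.norm _ l
  · exact fun k k' hh => h.col _ _ l fun e => hh (hRinj e)
  · intro k k'
    by_cases hh : k = k'
    · rw [if_pos hh, hh]; exact h.row _ l j hjl.symm
    · rw [if_neg hh]; exact h.orth _ _ l j (fun e => hh (hRinj e)) hjl.symm

theorem no_pasch (h : Hyp v d) {j l : J} (hjl : j ≠ l) {A B C D : I} (hAB : A ≠ B) (hAC : A ≠ C)
    (hAD : A ≠ D) (hBC : B ≠ C) (hBD : B ≠ D) (hCD : C ≠ D)
    (hABC : ∀ t, v A j t ≠ 0 → v B j t ≠ 0 → v C j t ≠ 0 → False)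
    (hABD : ∀ t, v A j t ≠ 0 → v B j t ≠ 0 → v D j t ≠ 0 → False)
    (hACD : ∀ t, v A j t ≠ 0 → v C j t ≠ 0 → v D j t ≠ 0 → False)
    (hBCD : ∀ t, v B j t ≠ 0 → v C j t ≠ 0 → v D j t ≠ 0 → False) : False := by
  classical
  obtain ⟨x₁, x₁A, x₁B, -⟩ := h.colPoint j hAB
  obtain ⟨x₂, x₂A, x₂C, -⟩ := h.colPoint j hAC
  obtain ⟨x₃, x₃A, x₃D, -⟩ := h.colPoint j hAD
  obtain ⟨x₄, x₄B, x₄C, -⟩ := h.colPoint j hBC
  obtain ⟨x₅, x₅B, x₅D, -⟩ := h.colPoint j hBD
  obtain ⟨x₆, x₆C, x₆D, -⟩ := h.colPoint j hCD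
  let R : Fin 4 → I := ![A, B, C, D]
  let f : Fin 6 → ι := ![x₁, x₂, x₃, x₄, x₅, x₆]
  let s : Fin 6 → ℤ := ![v A j x₁, v A j x₂, v A j x₃, v B j x₄, v B j x₅, v C j x₆]
  let M : Fin 4 → Fin 6 → ℤ :=
    ![![1, 1, 1, 0, 0, 0], ![1, 0, 0, 1, 1, 0], ![0, 1, 0, 1, 0, 1], ![0, 0, 1, 0, 1, 1]]
  have hRinj : Function.Injective R := by
    intro x y hxy
    fin_cases x <;> fin_cases y <;> simp_all [R, eq_comm]
  have x₁B' : v B j x₁ ≠ 0 := x₁B ▸ x₁A
  have x₂C' : v C j x₂ ≠ 0 := x₂C ▸ x₂A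
  have x₃D' : v D j x₃ ≠ 0 := x₃D ▸ x₃A
  have x₄C' : v C j x₄ ≠ 0 := x₄C ▸ x₄B
  have x₅D' : v D j x₅ ≠ 0 := x₅D ▸ x₅B
  have x₆D' : v D j x₆ ≠ 0 := x₆D ▸ x₆C
  have n1 : v C j x₁ = 0 := by_contra (hABC _ x₁A x₁B')
  have n2 : v D j x₁ = 0 := by_contra (hABD _ x₁A x₁B')
  have n3 : v B j x₂ = 0 := by_contra fun e => hABC _ x₂A e x₂C'
  have n4 : v D j x₂ = 0 := by_contra (hACD _ x₂A x₂C')
  have n5 : v B j x₃ = 0 := by_contra fun e => hABD _ x₃A e x₃D'
  have n6 : v C j x₃ = 0 := by_contra fun e => hACD _ x₃A e x₃D'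
  have n7 : v A j x₄ = 0 := by_contra fun e => hABC _ e x₄B x₄C'
  have n8 : v D j x₄ = 0 := by_contra (hBCD _ x₄B x₄C')
  have n9 : v A j x₅ = 0 := by_contra fun e => hABD _ e x₅B x₅D'
  have n10 : v C j x₅ = 0 := by_contra fun e => hBCD _ x₅B e x₅D'
  have n11 : v A j x₆ = 0 := by_contra fun e => hACD _ e x₆C x₆D'
  have n12 : v B j x₆ = 0 := by_contra fun e => hBCD _ e x₆C x₆D'
  have hpat : (fun m l => decide (v (R l) j (f m) ≠ 0)) = fun m l => decide (M l m = 1) := by
    funext m l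
    fin_cases m <;> fin_cases l <;>
      simp [R, f, M, x₁A, x₁B', x₂A, x₂C', x₃A, x₃D', x₄B, x₄C', x₅B, x₅D', x₆C, x₆D',
        n1, n2, n3, n4, n5, n6, n7, n8, n9, n10, n11, n12]
  have hf : Function.Injective f := by
    refine Function.Injective.of_comp (f := fun t l => decide (v (R l) j t ≠ 0)) ?_
    show Function.Injective fun m l => decide (v (R l) j (f m) ≠ 0)
    rw [hpat]
    decide
  have hne : ∀ m m', m ≠ m' → f m ≠ f m' := fun m m' hh e => hh (hf e)
  refine no_column M (by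
    have e : (List.ofFn fun l => List.ofFn (M l)) = paschLines := rfl
    rw [e]; exact noChoice_pasch) f hf s ?_ (fun k => v (R k) j) (fun k => v (R k) l) ?_ ?_ ?_ ?_ ?_
  · intro m
    fin_cases m <;> simp only [s] <;> first
      | exact small_sq (h.small _ j) x₁A
      | exact small_sq (h.small _ j) x₂A
      | exact small_sq (h.small _ j) x₃A
      | exact small_sq (h.small _ j) x₄B
      | exact small_sq (h.small _ j) x₅B
      | exact small_sq (h.small _ j) x₆C
  · intro k g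
    fin_cases k <;> rw [Fin.sum_univ_six] <;> dsimp [R, f, s, M]
    · rw [line_sum (h.small A j) (hne 0 1 (by decide)) (hne 0 2 (by decide)) (hne 1 2 (by decide))
        x₁A x₂A x₃A]
      simp [f]
    · rw [line_sum (h.small B j) (hne 0 3 (by decide)) (hne 0 4 (by decide)) (hne 3 4 (by decide))
        x₁B' x₄B x₅B]
      simp [f, x₁B]
    · rw [line_sum (h.small C j) (hne 1 3 (by decide)) (hne 1 5 (by decide)) (hne 3 5 (by decide))
        x₂C' x₄C' x₆C]
      simp [f, x₂C, x₄C]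
    · rw [line_sum (h.small D j) (hne 2 4 (by decide)) (hne 2 5 (by decide)) (hne 4 5 (by decide))
        x₃D' x₅D' x₆D']
      simp [f, x₃D, x₅D, x₆D]
  · exact fun k t => (h.small _ l).2 t
  · exact fun k => h.norm _ l
  · exact fun k k' hh => h.col _ _ l fun e => hh (hRinj e)
  · intro k k'
    by_cases hh : k = k'
    · rw [if_pos hh, hh]; exact h.row _ l j hjl.symm
    · rw [if_neg hh]; exact h.orth _ _ l j (fun e => hh (hRinj e)) hjl.symm

variable [Fintype I] [Fintype J]

theorem exists_colCommon (h : Hyp v d) (hI : 4 ≤ Fintype.card I) {j l : J} (hjl : j ≠ l) :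
    ∃ t, ∀ i, v i j t ≠ 0 := by
  classical
  by_contra hcon
  push Not at hcon
  obtain ⟨A, B, hAB⟩ := Fintype.exists_pair_of_one_lt_card (α := I) (by omega)
  obtain ⟨p, pA, pB, -⟩ := h.colPoint j hAB
  obtain ⟨C, pC⟩ := hcon p
  have hAC : A ≠ C := fun e => pA (e ▸ pC)
  have hBC : B ≠ C := fun e => (pB ▸ pA) (e ▸ pC)
  obtain ⟨D, hD⟩ : ∃ D, D ∉ ({A, B, C} : Finset I) := by
    by_contra hh
    push Not at hh
    have h4 : Fintype.card I ≤ ({A, B, C} : Finset I).card := Finset.card_le_card fun x _ => hh x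
    have := Finset.card_le_three (a := A) (b := B) (c := C)
    omega
  simp only [Finset.mem_insert, Finset.mem_singleton] at hD
  push Not at hD
  obtain ⟨hDA, hDB, hDC⟩ := hD
  have pB' : v B j p ≠ 0 := pB ▸ pA
  have hABC : ∀ t, v A j t ≠ 0 → v B j t ≠ 0 → v C j t ≠ 0 → False := fun t tA tB tC =>
    tC (h.col_unique hAB pA pB' tA tB ▸ pC)
  refine h.no_pasch hjl hAB hAC hDA.symm hBC hDB.symm hDC.symm hABC ?_ ?_ ?_
  · intro t tA tB tD
    exact h.no_hub hjl hAB hDA.symm hAC hDB.symm hBC hDC tA tB tD (by_contra (hABC t tA tB))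
  · intro t tA tC tD
    exact h.no_hub hjl hAC hDA.symm hAB hDC.symm hBC.symm hDB tA tC tD
      (by_contra fun e => hABC t tA e tC)
  · intro t tB tC tD
    exact h.no_hub hjl hBC hDB.symm hAB.symm hDC.symm hAC.symm hDA tB tC tD
      (by_contra fun e => hABC t e tB tC)

/-- The decomposition. -/
theorem exists_points [DecidableEq ι] (h : Hyp v d) (hI : 4 ≤ Fintype.card I)
    (hJ2 : 2 ≤ Fintype.card J) (hJ3 : Fintype.card J ≠ 3) :
    ∃ (x : I → ι) (y : J → ι) (z : I → J → ι) (a : I → ℤ) (b : J → ℤ) (c : I → J → ℤ),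
      Function.Injective (Sum.elim x (Sum.elim y fun ij : I × J => z ij.1 ij.2)) ∧
      (∀ i, a i * a i = 1) ∧ (∀ j, b j * b j = 1) ∧ (∀ i j, c i j * c i j = 1) ∧
      ∀ i j t, v i j t = (if t = x i then a i else 0) + (if t = y j then b j else 0) +
        (if t = z i j then c i j else 0) := by
  classical
  have hother : ∀ j : J, ∃ l, j ≠ l := fun j => by
    obtain ⟨l, hl⟩ := Fintype.exists_ne_of_one_lt_card (α := J) (by omega) j
    exact ⟨l, hl.symm⟩
  choose y hy using fun j => h.exists_colCommon hI (hother j).choose_spec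
  have hycross : ∀ i j l, j ≠ l → v i l (y j) = 0 := by
    intro i j l hjl
    by_contra hne
    haveI : Nonempty ι := ⟨y j⟩
    choose! g hg using fun k (hk : k ≠ i) =>
      second_point (h.orth k i j l hk hjl) (hy j k) hne
    have h1 : ((Finset.univ.erase i).image g).card = (Finset.univ.erase i).card := by
      refine Finset.card_image_of_injOn fun k hk k' hk' e => by_contra fun hkk => ?_
      have a := hg k (Finset.ne_of_mem_erase hk)
      have b := hg k' (Finset.ne_of_mem_erase hk')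
      rw [← e] at b
      exact a.1 (h.col_unique hkk a.2.1 b.2.1 (hy j k) (hy j k'))
    have h2 : (Finset.univ.erase i).image g ⊆ (Finset.univ.filter fun t => v i l t ≠ 0).erase (y j) := by
      intro t ht
      obtain ⟨k, hk, rfl⟩ := Finset.mem_image.mp ht
      have a := hg k (Finset.ne_of_mem_erase hk)
      simp [a.1, a.2.2]
    have h3 := Finset.card_le_card h2
    rw [h1, Finset.card_erase_of_mem (Finset.mem_univ i), Finset.card_univ,
      Finset.card_erase_of_mem (by simp [hne]), card_support (h.small i l)] at h3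
    omega
  have hdisj : ∀ i k j l t, i ≠ k → v i j t ≠ 0 → v k l t ≠ 0 → (t = y j ∧ j = l) := by
    intro i k j l t hik h1 h2
    by_cases hjl : j = l
    · subst hjl
      exact ⟨h.col_unique hik h1 h2 (hy j i) (hy j k), rfl⟩
    exfalso
    obtain ⟨u, hut, hu1, hu2⟩ := second_point (h.orth i k j l hik hjl) h1 h2
    have ht1 : t ≠ y j := fun e => h2 (e ▸ hycross k j l hjl)
    have hu1' : u ≠ y j := fun e => hu2 (e ▸ hycross k j l hjl)
    obtain ⟨w, w1, w2, -⟩ := h.swap.colPoint i hjl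
    have w2' : v i l w ≠ 0 := w2 ▸ w1
    have hwy : w ≠ y j := fun e => w2' (e ▸ hycross i j l hjl)
    obtain ⟨r, -, -, -, hall⟩ := exists_third (h.small i j) (Ne.symm hut) h1 hu1
    have hr : r = y j := by
      rcases hall _ (hy j i) with e | e | e
      · exact absurd e.symm ht1
      · exact absurd e.symm hu1'
      · exact e.symm
    have hwl : v k l w ≠ 0 := by
      rcases hall w w1 with e | e | e
      · exact e ▸ h2
      · exact e ▸ hu2
      · exact absurd (e.trans hr) hwy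
    have e := h.col_unique hik w2' hwl (hy l i) (hy l k)
    exact w1 (e ▸ hycross i l j (Ne.symm hjl))
  have hrow : ∀ i, ∃ x, ∀ j, v i j x ≠ 0 := by
    intro i
    by_contra hcon
    push Not at hcon
    obtain ⟨j₀, j₁, h01⟩ := Fintype.exists_pair_of_one_lt_card (α := J) (by omega)
    obtain ⟨x, x0, x1, -⟩ := h.swap.colPoint i h01
    have x1' : v i j₁ x ≠ 0 := x1 ▸ x0
    obtain ⟨j₂, x2⟩ := hcon x
    have h02 : j₀ ≠ j₂ := fun e => x0 (e ▸ x2)
    have h12 : j₁ ≠ j₂ := fun e => x1' (e ▸ x2)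
    obtain ⟨j₃, hj₃⟩ : ∃ D, D ∉ ({j₀, j₁, j₂} : Finset J) := by
      by_contra hh
      push Not at hh
      have h4 : Fintype.card J ≤ ({j₀, j₁, j₂} : Finset J).card := Finset.card_le_card fun x _ => hh x
      have := Finset.card_le_three (a := j₀) (b := j₁) (c := j₂)
      have h3 : 3 ≤ Fintype.card J := by
        rw [← show ({j₀, j₁, j₂} : Finset J).card = 3 from Finset.card_eq_three.mpr
          ⟨j₀, j₁, j₂, h01, h02, h12, rfl⟩]
        exact Finset.card_le_univ _
      omega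
    simp only [Finset.mem_insert, Finset.mem_singleton] at hj₃
    push Not at hj₃
    obtain ⟨h30, h31, h32⟩ := hj₃
    have hxy : ∀ j j' t, j ≠ j' → v i j t ≠ 0 → v i j' t ≠ 0 → t ≠ y j := fun j j' t hne _ h2 e =>
      h2 (e ▸ hycross i j j' hne)
    have htwo : ∀ j t u w, v i j t ≠ 0 → v i j u ≠ 0 → v i j w ≠ 0 → t ≠ y j → u ≠ y j → w ≠ y j →
        t ≠ u → w = t ∨ w = u := by
      intro j t u w ht hu hw hty huy hwy htu
      obtain ⟨r, -, -, -, hall⟩ := exists_third (h.small i j) htu ht hu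
      rcases hall w hw with e | e | e
      · exact Or.inl e
      · exact Or.inr e
      · rcases hall _ (hy j i) with e' | e' | e'
        · exact absurd e'.symm hty
        · exact absurd e'.symm huy
        · exact absurd (e.trans e'.symm) hwy
    obtain ⟨a, a0, a2, -⟩ := h.swap.colPoint i h02
    obtain ⟨b, b1, b2, -⟩ := h.swap.colPoint i h12
    have a2' : v i j₂ a ≠ 0 := a2 ▸ a0
    have b2' : v i j₂ b ≠ 0 := b2 ▸ b1
    have hax : a ≠ x := fun e => a2' (e ▸ x2)
    have hbx : b ≠ x := fun e => b2' (e ▸ x2)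
    have hab : a ≠ b := fun e => hax (h.row_unique h01 a0 (e ▸ b1) x0 x1')
    obtain ⟨w, w2, w3, -⟩ := h.swap.colPoint i h32.symm
    have w3' : v i j₃ w ≠ 0 := w3 ▸ w2
    have hay : a ≠ y j₂ := hxy j₂ j₀ a h02.symm a2' a0
    have hby : b ≠ y j₂ := hxy j₂ j₁ b h12.symm b2' b1
    have hwy : w ≠ y j₂ := hxy j₂ j₃ w h32.symm w2 w3'
    rcases htwo j₂ a b w a2' b2' w2 hay hby hwy hab with e | e
    · obtain ⟨c, c1, c3, -⟩ := h.swap.colPoint i h31.symm
      have c3' : v i j₃ c ≠ 0 := c3 ▸ c1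
      rcases htwo j₁ x b c x1' b1 c1 (hxy _ _ _ h01.symm x1' x0) (hxy _ _ _ h12 b1 b2')
        (hxy _ _ _ h31.symm c1 c3') (Ne.symm hbx) with e' | e'
      · exact hax (h.row_unique h30.symm a0 (e ▸ w3') x0 (e' ▸ c3'))
      · exact hab (h.row_unique h32 (e ▸ w3') a2' (e' ▸ c3') b2')
    · obtain ⟨c, c0, c3, -⟩ := h.swap.colPoint i h30.symm
      have c3' : v i j₃ c ≠ 0 := c3 ▸ c0
      rcases htwo j₀ x a c x0 a0 c0 (hxy _ _ _ h01 x0 x1') (hxy _ _ _ h02 a0 a2')
        (hxy _ _ _ h30.symm c0 c3') (Ne.symm hax) with e' | e'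
      · exact hbx (h.row_unique h31.symm b1 (e ▸ w3') x1' (e' ▸ c3'))
      · exact hab (h.row_unique h32 (e' ▸ c3') a2' (e ▸ w3') b2')
  choose x hx using hrow
  have hxy : ∀ i j, x i ≠ y j := fun i j e => by
    obtain ⟨l, hl⟩ := hother j
    exact hx i l (e ▸ hycross i j l hl)
  choose z hzx hzy hz0 hz using fun i j => exists_third (h.small i j) (hxy i j) (hx i j) (hy j i)
  have i₀ : I := Classical.choice (Fintype.card_pos_iff.mp (by omega))
  have j₀ : J := Classical.choice (Fintype.card_pos_iff.mp (by omega))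
  refine ⟨x, y, z, fun i => v i j₀ (x i), fun j => v i₀ j (y j), fun i j => v i j (z i j), ?_,
    fun i => small_sq (h.small _ _) (hx i j₀), fun j => small_sq (h.small _ _) (hy j i₀),
    fun i j => small_sq (h.small _ _) (hz0 i j), ?_⟩
  · have hxz : ∀ i k l, x i ≠ z k l := fun i k l e => by
      by_cases hik : i = k
      · subst hik; exact hzx i l e.symm
      · exact hxy i l (hdisj i k l l (x i) hik (hx i l) (e ▸ hz0 k l)).1
    have hyz : ∀ j k l, y j ≠ z k l := fun j k l e => by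
      by_cases hjl : j = l
      · subst hjl; exact hzy k j e.symm
      · exact hz0 k l (e ▸ hycross k j l hjl)
    intro p q hpq
    rcases p with i | j | ⟨i, j⟩ <;> rcases q with k | l | ⟨k, l⟩ <;>
      simp only [Sum.elim_inl, Sum.elim_inr] at hpq
    · by_cases hik : i = k
      · rw [hik]
      · exact absurd (hdisj i k j₀ j₀ (x i) hik (hx i j₀) (hpq ▸ hx k j₀)).1 (hxy i j₀)
    · exact absurd hpq (hxy i l)
    · exact absurd hpq (hxz i k l)
    · exact absurd hpq.symm (hxy k j)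
    · by_cases hjl : j = l
      · rw [hjl]
      · exact absurd (hpq ▸ hycross i₀ j l hjl) (hy l i₀)
    · exact absurd hpq (hyz j k l)
    · exact absurd hpq.symm (hxz k i j)
    · exact absurd hpq.symm (hyz l i j)
    · by_cases hik : i = k
      · subst hik
        by_cases hjl : j = l
        · rw [hjl]
        · exact absurd (h.row_unique hjl (hz0 i j) (hpq ▸ hz0 i l) (hx i j) (hx i l)) (hzx i j)
      · exact absurd (hdisj i k j l (z i j) hik (hz0 i j) (hpq ▸ hz0 k l)).1 (hzy i j)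
  · intro i j t
    by_cases ht : v i j t = 0
    · have e1 : t ≠ x i := fun e => hx i j (e ▸ ht)
      have e2 : t ≠ y j := fun e => hy j i (e ▸ ht)
      have e3 : t ≠ z i j := fun e => hz0 i j (e ▸ ht)
      simp [ht, e1, e2, e3]
    rcases hz i j t ht with e | e | e <;> subst e
    · rw [if_pos rfl, if_neg (hxy i j), if_neg (Ne.symm (hzx i j)), add_zero, add_zero]
      by_cases hj : j₀ = j
      · rw [hj]
      · exact h.swap.col_val hj (hx i j₀) (hx i j)
    · rw [if_pos rfl, if_neg (Ne.symm (hxy i j)), if_neg (Ne.symm (hzy i j)), zero_add, add_zero]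
      by_cases hi : i₀ = i
      · rw [hi]
      · exact h.col_val hi (hy j i₀) (hy j i)
    · rw [if_pos rfl, if_neg (hzx i j), if_neg (hzy i j), zero_add, zero_add]

end Hyp

end Cfsg.Lib.Characters.Grid

namespace Cfsg.Lib.Characters.Grid

/-- The decomposition, either side being large. -/
theorem Hyp.exists_points' {I J ι : Type*} [Fintype ι] [Fintype I] [Fintype J] [DecidableEq ι]
    {v : I → J → ι → ℤ} {d : ι → ℤ} (h : Hyp v d) (hI2 : 2 ≤ Fintype.card I)
    (hI3 : Fintype.card I ≠ 3) (hJ2 : 2 ≤ Fintype.card J) (hJ3 : Fintype.card J ≠ 3)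
    (h4 : 4 ≤ Fintype.card I ∨ 4 ≤ Fintype.card J) :
    ∃ (x : I → ι) (y : J → ι) (z : I → J → ι) (a : I → ℤ) (b : J → ℤ) (c : I → J → ℤ),
      Function.Injective (Sum.elim x (Sum.elim y fun ij : I × J => z ij.1 ij.2)) ∧
      (∀ i, a i * a i = 1) ∧ (∀ j, b j * b j = 1) ∧ (∀ i j, c i j * c i j = 1) ∧
      ∀ i j t, v i j t = (if t = x i then a i else 0) + (if t = y j then b j else 0) +
        (if t = z i j then c i j else 0) := by
  rcases h4 with h4 | h4
  · exact h.exists_points h4 hJ2 hJ3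
  obtain ⟨x, y, z, a, b, c, hinj, ha, hb, hc, hv⟩ := h.swap.exists_points h4 hI2 hI3
  refine ⟨y, x, fun i j => z j i, b, a, fun i j => c j i, ?_, hb, ha, fun i j => hc j i,
    fun i j t => ?_⟩
  · have e : Sum.elim y (Sum.elim x fun ij : I × J => z ij.2 ij.1) =
        Sum.elim x (Sum.elim y fun ij : J × I => z ij.1 ij.2) ∘
          Sum.elim (fun i => Sum.inr (Sum.inl i)) (Sum.elim Sum.inl fun ij => Sum.inr (Sum.inr ij.swap)) := by
      funext p
      rcases p with i | j | ⟨i, j⟩ <;> rfl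
    rw [e]
    refine hinj.comp fun p q hpq => ?_
    rcases p with i | j | ⟨i, j⟩ <;> rcases q with k | l | ⟨k, l⟩ <;>
      simp_all
  · rw [hv j i t]; ring

end Cfsg.Lib.Characters.Grid
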