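import Mathlib

/-!
# The finite check behind the grid of norm three vectors
-/

set_option autoImplicit false

namespace Cfsg.Lib.Characters.Grid

/-- Inner product of integer lists. -/
def dotL : List ℤ → List ℤ → ℤ
  | a :: as, b :: bs => a * b + dotL as bs
  | _, _ => 0

/-- All lists of a given length with entries of absolute value at most one. -/
def vecs : ℕ → List (List ℤ)
  | 0 => [[]]
  | n + 1 => ([-1, 0, 1] : List ℤ).flatMap fun x => (vecs n).map (List.cons x)

/-- Possible restrictions of the `k`-th vector to the named points. -/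
def cands (n : ℕ) (L : List (List ℤ)) (k : ℕ) : List (List ℤ) :=
  (vecs n).filter fun t => decide (dotL t t ≤ 3) &&
    (List.range 4).all fun l => decide (dotL t (L.getD l []) = if k = l then 1 else 0)

/-- Two restrictions are compatible. -/
def compatB (s t : List ℤ) : Bool :=
  decide ((1 - dotL s t) ≤ min (3 - dotL s s) (3 - dotL t t) ∧
    -(1 - dotL s t) ≤ min (3 - dotL s s) (3 - dotL t t))

/-- No compatible choice exists. -/
def noChoice (n : ℕ) (L : List (List ℤ)) : Bool :=
  (cands n L 0).all fun a => (cands n L 1).all fun b => !compatB a b ||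
    (cands n L 2).all fun c => !compatB a c || !compatB b c ||
      (cands n L 3).all fun d => !compatB a d || !compatB b d || !compatB c d

def hubLines : List (List ℤ) :=
  [[1, 1, 1, 0, 0, 0, 0], [1, 0, 0, 1, 1, 0, 0], [1, 0, 0, 0, 0, 1, 1], [0, 1, 0, 1, 0, 1, 0]]

def paschLines : List (List ℤ) :=
  [[1, 1, 1, 0, 0, 0], [1, 0, 0, 1, 1, 0], [0, 1, 0, 1, 0, 1], [0, 0, 1, 0, 1, 1]]

theorem noChoice_hub : noChoice 7 hubLines = true := by decide +kernel

theorem noChoice_pasch : noChoice 6 paschLines = true := by decide +kernel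

theorem mem_vecs : ∀ l : List ℤ, (∀ x ∈ l, -1 ≤ x ∧ x ≤ 1) → l ∈ vecs l.length
  | [], _ => by simp [vecs]
  | x :: l, h => by
    simp only [vecs, List.length_cons, List.mem_flatMap, List.mem_map]
    obtain ⟨h1, h2⟩ := h x (by simp)
    refine ⟨x, ?_, l, mem_vecs l fun y hy => h y (by simp [hy]), rfl⟩
    simp only [List.mem_cons, List.not_mem_nil, or_false]
    omega

theorem dotL_ofFn : ∀ {n : ℕ} (a b : Fin n → ℤ), dotL (List.ofFn a) (List.ofFn b) = ∑ i, a i * b i
  | 0, _, _ => by simp [dotL]
  | n + 1, a, b => by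
    rw [List.ofFn_succ, List.ofFn_succ, dotL, dotL_ofFn, Fin.sum_univ_succ]

/-- No four vectors of a column match a configuration without compatible choice. -/
theorem no_column {ι : Type*} [Fintype ι] {n : ℕ} (M : Fin 4 → Fin n → ℤ)
    (hM : noChoice n (List.ofFn fun l => List.ofFn (M l)) = true)
    (f : Fin n → ι) (hf : Function.Injective f) (s : Fin n → ℤ) (hs : ∀ m, s m * s m = 1)
    (V T : Fin 4 → ι → ℤ) (hV : ∀ l (g : ι → ℤ), ∑ t, g t * V l t = ∑ m, g (f m) * (s m * M l m))
    (habs : ∀ k t, -1 ≤ T k t ∧ T k t ≤ 1) (hT : ∀ k, ∑ t, T k t * T k t = 3)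
    (hTT : ∀ k k', k ≠ k' → ∑ t, T k t * T k' t = 1)
    (hTV : ∀ k l : Fin 4, ∑ t, T k t * V l t = if k = l then 1 else 0) : False := by
  classical
  set u : Fin 4 → Fin n → ℤ := fun k m => s m * T k (f m) with hu
  set out : Finset ι := Finset.univ \ Finset.univ.image f with hout
  have hsplit : ∀ k k', ∑ t, T k t * T k' t = (∑ m, u k m * u k' m) + ∑ t ∈ out, T k t * T k' t := by
    intro k k'
    rw [hout, ← Finset.sum_sdiff (Finset.subset_univ (Finset.univ.image f)), add_comm,
      Finset.sum_image hf.injOn]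
    congr 1
    refine Finset.sum_congr rfl fun m _ => ?_
    have : u k m * u k' m = (s m * s m) * (T k (f m) * T k' (f m)) := by simp only [hu]; ring
    rw [this, hs, one_mul]
  have hmem : ∀ k : Fin 4, List.ofFn (u k) ∈ cands n (List.ofFn fun l => List.ofFn (M l)) k := by
    intro k
    rw [cands, List.mem_filter]
    refine ⟨?_, ?_⟩
    · have h := mem_vecs (List.ofFn (u k)) ?_
      · rwa [List.length_ofFn] at h
      · intro x hx
        obtain ⟨m, rfl⟩ := List.mem_ofFn.mp hx
        obtain ⟨h1, h2⟩ := habs k (f m)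
        rcases mul_self_eq_one_iff.mp (hs m) with h | h <;> simp only [hu, h] <;> omega
    · simp only [Bool.and_eq_true, decide_eq_true_eq, List.all_eq_true, List.mem_range]
      refine ⟨?_, fun l hl => ?_⟩
      · rw [dotL_ofFn]
        have h := hsplit k k
        rw [hT k] at h
        have : 0 ≤ ∑ t ∈ out, T k t * T k t := Finset.sum_nonneg fun t _ => mul_self_nonneg _
        omega
      · have hget : (List.ofFn fun l => List.ofFn (M l)).getD l [] = List.ofFn (M ⟨l, hl⟩) := by
          rw [List.getD_eq_getElem?_getD, List.getElem?_ofFn, dif_pos hl, Option.getD_some]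
        rw [hget, dotL_ofFn]
        have h := hTV k ⟨l, hl⟩
        rw [hV] at h
        rw [Finset.sum_congr rfl fun m _ => show u k m * M ⟨l, hl⟩ m = T k (f m) * (s m * M ⟨l, hl⟩ m) by
          simp only [hu]; ring, h]
        exact if_congr Fin.ext_iff rfl rfl
  have hc : ∀ k k', k ≠ k' → compatB (List.ofFn (u k)) (List.ofFn (u k')) = true := by
    intro k k' hne
    have h := hsplit k k'
    have h1 := hsplit k k
    have h2 := hsplit k' k'
    rw [hTT k k' hne] at h
    rw [hT] at h1 h2
    simp only [compatB, decide_eq_true_eq, dotL_ofFn, le_min_iff]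
    have hb : ∀ a b : ι → ℤ, (∀ t, -1 ≤ a t ∧ a t ≤ 1) → (∀ t, -1 ≤ b t ∧ b t ≤ 1) →
        ∑ t ∈ out, a t * b t ≤ ∑ t ∈ out, a t * a t ∧ -∑ t ∈ out, a t * b t ≤ ∑ t ∈ out, a t * a t := by
      intro a b ha hb
      rw [← Finset.sum_neg_distrib]
      constructor <;> refine Finset.sum_le_sum fun t _ => ?_
      all_goals
        obtain ⟨p, q⟩ := ha t
        obtain ⟨p', q'⟩ := hb t
        rcases (show a t = -1 ∨ a t = 0 ∨ a t = 1 by omega) with e | e | e <;>
          rw [e] <;> omega
    obtain ⟨g1, g2⟩ := hb (T k) (T k') (habs k) (habs k')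
    obtain ⟨g3, g4⟩ := hb (T k') (T k) (habs k') (habs k)
    have hcm : ∑ t ∈ out, T k' t * T k t = ∑ t ∈ out, T k t * T k' t :=
      Finset.sum_congr rfl fun t _ => mul_comm _ _
    rw [hcm] at g3 g4
    refine ⟨⟨?_, ?_⟩, ⟨?_, ?_⟩⟩ <;> linarith
  unfold noChoice at hM
  simp only [List.all_eq_true, Bool.or_eq_true, Bool.not_eq_true'] at hM
  have h01 := hc 0 1 (by decide)
  have h02 := hc 0 2 (by decide)
  have h12 := hc 1 2 (by decide)
  have h03 := hc 0 3 (by decide)
  have h13 := hc 1 3 (by decide)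
  have h23 := hc 2 3 (by decide)
  have h := hM _ (hmem 0) _ (hmem 1)
  simp only [h01, Bool.false_eq_true, false_or, reduceCtorEq] at h
  have h' := h _ (hmem 2)
  simp only [h02, h12, Bool.false_eq_true, false_or, reduceCtorEq] at h'
  have h'' := h' _ (hmem 3)
  simp [h03, h13, h23] at h''

end Cfsg.Lib.Characters.Grid
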