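import Cfsg.Agent.Lib.Characters.Brauer
import Cfsg.Agent.Lib.Characters.Gallagher

/-!
# Invariant characters of normal subgroups of prime power index
-/

set_option autoImplicit false
set_option linter.style.haveILetI false
set_option linter.unusedSectionVars false

open scoped ComplexConjugate Pointwise

namespace Cfsg.Lib.Characters

open Cfsg

universe u

variable {G : Type u} [Group G] [Fintype G] {N : Subgroup G} [hN : N.Normal] [Fintype N]

/-- An element of `N.subgroupOf E` as an element of `N`. -/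
def ofSub {E : Subgroup G} (y : N.subgroupOf E) : N := ⟨((y : E) : G), y.2⟩

/-- The inclusion of `N.subgroupOf E` in `N`. -/
def ofSubHom (N E : Subgroup G) : N.subgroupOf E →* N where
  toFun y := ⟨((y : E) : G), y.2⟩
  map_one' := rfl
  map_mul' _ _ := rfl

theorem sum_indFun_mul (E : Subgroup G) [Fintype (N.subgroupOf E)] (ψ : E → ℂ) (F : N → ℂ)
    (hF : ∀ (g : G) (n : N), F ⟨g * n * g⁻¹, hN.conj_mem n n.2 g⟩ = F n) :
    (Nat.card N : ℂ)⁻¹ * ∑ n : N, indFun E ψ n * F n =
      ((E ⊔ N).index : ℂ) * ((Nat.card (N.subgroupOf E) : ℂ)⁻¹ *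
        ∑ y : N.subgroupOf E, ψ y * F (ofSub y)) := by
  classical
  have hS : ∀ x : G, ∑ n : N, extendByZero E ψ (x⁻¹ * n * x) * F n =
      ∑ y : N.subgroupOf E, ψ y * F (ofSub y) := by
    intro x
    calc ∑ n : N, extendByZero E ψ (x⁻¹ * n * x) * F n
        = ∑ n : N, extendByZero E ψ n * F n := by
          refine Fintype.sum_equiv (MulAut.conjNormal (H := N) x⁻¹).toEquiv _ _ fun n => ?_
          show _ = extendByZero E ψ ((MulAut.conjNormal (H := N) x⁻¹ n : N) : G) *
            F (MulAut.conjNormal (H := N) x⁻¹ n)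
          have e : MulAut.conjNormal (H := N) x⁻¹ n =
              ⟨x⁻¹ * n * x⁻¹⁻¹, hN.conj_mem n n.2 x⁻¹⟩ := Subtype.ext (MulAut.conjNormal_apply _ _)
          rw [e, hF]
          simp only [inv_inv]
      _ = ∑ n ∈ Finset.univ.filter (fun n : N => (n : G) ∈ E), extendByZero E ψ n * F n := by
          refine (Finset.sum_subset (Finset.filter_subset _ _) fun n _ hn => ?_).symm
          have hn' : (n : G) ∉ E := fun h => hn (Finset.mem_filter.mpr ⟨Finset.mem_univ _, h⟩)
          rw [extendByZero, Function.extend_apply' _ _ _ (fun ⟨a, ha⟩ => hn' (ha ▸ a.2)), Pi.zero_apply,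
            zero_mul]
      _ = _ := by
          refine Finset.sum_bij' (fun n hn => ⟨⟨(n : G), (Finset.mem_filter.mp hn).2⟩, n.2⟩)
            (fun y _ => ofSub y) (fun _ _ => Finset.mem_univ _)
            (fun y _ => Finset.mem_filter.mpr ⟨Finset.mem_univ _, (y : E).2⟩)
            (fun _ _ => rfl) (fun _ _ => rfl) fun n hn => ?_
          exact congrArg (· * F n)
            (Subtype.val_injective.extend_apply ψ 0 (⟨(n : G), (Finset.mem_filter.mp hn).2⟩ : E))
  have hind : ∀ n : N, indFun E ψ n * F n =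
      ∑ x : G, (Nat.card E : ℂ)⁻¹ * (extendByZero E ψ (x⁻¹ * n * x) * F n) := by
    intro n
    rw [indFun, mul_assoc, Finset.sum_mul, Finset.mul_sum]
  rw [Finset.sum_congr rfl fun n _ => hind n, Finset.sum_comm]
  simp only [← Finset.mul_sum, hS, Finset.sum_const, Finset.card_univ, nsmul_eq_mul,
    ← Nat.card_eq_fintype_card]
  have h1 : N.relIndex E * (E ⊔ N).index = N.index := by
    rw [← Subgroup.relIndex_sup_left, sup_comm E N, Subgroup.relIndex_mul_index le_sup_left]
  have h2 : Nat.card (N.subgroupOf E) * N.relIndex E = Nat.card E := (N.subgroupOf E).card_mul_index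
  have h3 : Nat.card G * Nat.card (N.subgroupOf E) =
      (E ⊔ N).index * (Nat.card E * Nat.card N) := by
    rw [← N.card_mul_index, ← h1, ← h2]; ring
  have h3' : (Nat.card G : ℂ) * (Nat.card (N.subgroupOf E) : ℂ) =
      ((E ⊔ N).index : ℂ) * ((Nat.card E : ℂ) * (Nat.card N : ℂ)) := by exact_mod_cast h3
  have hN0 : (Nat.card N : ℂ) ≠ 0 := Nat.cast_ne_zero.mpr Nat.card_pos.ne'
  have hE0 : (Nat.card E : ℂ) ≠ 0 := Nat.cast_ne_zero.mpr Nat.card_pos.ne'
  have hD0 : (Nat.card (N.subgroupOf E) : ℂ) ≠ 0 := Nat.cast_ne_zero.mpr Nat.card_pos.ne'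
  field_simp
  linear_combination (∑ y : N.subgroupOf E, ψ y * F (ofSub y)) * h3'

/-- An invariant character has, on some elementary subgroup covering the quotient, an invariant
constituent of multiplicity prime to `p`. -/
theorem exists_elementary_constituent {p : ℕ} (hp : p.Prime) (hind : ∃ k : ℕ, N.index = p ^ k)
    {θ : N → ℂ} (hθ : IsIrrCharacter N θ) (hinv : ∀ g, conjFn N θ g = θ) :
    ∃ (E : Subgroup G) (ψ : N.subgroupOf E → ℂ) (_ : Fintype (N.subgroupOf E)) (m : ℕ),
      IsElementary p E ∧ E ⊔ N = ⊤ ∧ IsIrrCharacter (N.subgroupOf E) ψ ∧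
      (∀ g : E, conjFn (N.subgroupOf E) ψ g = ψ) ∧ ¬ p ∣ m ∧
      classInner (fun y : N.subgroupOf E => θ (ofSub y)) ψ = m := by
  classical
  by_contra hcon
  push Not at hcon
  obtain ⟨k, hk⟩ := hind
  obtain ⟨m₀, hm₀, hmem⟩ := exists_elemSpan_const (G := G) hp
  set F : N → ℂ := fun n => θ n * conj (θ n) with hF
  have hFinv : ∀ (g : G) (n : N), F ⟨g * n * g⁻¹, hN.conj_mem n n.2 g⟩ = F n := fun g n => by
    have := congrFun (hinv g) n
    rw [conjFn_apply] at this
    simp only [hF, this]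
  suffices key : ∀ f ∈ elemSpan p G, ∃ j : ℤ, (p : ℤ) ∣ j ∧
      (Nat.card N : ℂ)⁻¹ * ∑ n : N, f n * F n = (j : ℂ) by
    obtain ⟨j, hpj, hj⟩ := key _ hmem
    rw [← Finset.mul_sum, mul_left_comm] at hj
    have h1 := classInner_irr_self hθ
    rw [classInner] at h1
    simp only [hF] at hj
    rw [h1, mul_one, Int.cast_inj] at hj
    exact hm₀ (hj ▸ hpj)
  intro f hf
  induction hf using AddSubgroup.closure_induction with
  | zero => exact ⟨0, dvd_zero _, by simp⟩
  | add a b _ _ ha hb =>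
    obtain ⟨i, hi, ha⟩ := ha
    obtain ⟨j, hj, hb⟩ := hb
    exact ⟨i + j, dvd_add hi hj, by push_cast; rw [← ha, ← hb]; simp [add_mul, Finset.sum_add_distrib, mul_add]⟩
  | neg a _ ha =>
    obtain ⟨i, hi, ha⟩ := ha
    exact ⟨-i, dvd_neg.mpr hi, by push_cast; rw [← ha]; simp⟩
  | mem a ha =>
    obtain ⟨E, φ, hE, hφ, rfl⟩ := ha
    set D := N.subgroupOf E with hD
    let _ : Fintype D := Fintype.ofFinite D
    set θD : D → ℂ := fun y => θ (ofSub y) with hθD
    set φD : D → ℂ := fun y => φ y with hφD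
    have hθDc : IsCharacter D θD := isCharacter_comp hθ.isCharacter (ofSubHom N E)
    have hχc : IsCharacter D (φD * θD) :=
      isCharacter_mul (isCharacter_restrict hφ _) hθDc
    obtain ⟨c, hc⟩ := exists_decomposition hθDc
    obtain ⟨d, hd⟩ := exists_decomposition hχc
    have hcψ : ∀ ψ : IrrCharacter D, classInner θD ψ = (c ψ : ℂ) := fun ψ => by
      rw [hc, classInner_sum_irr]
    have hdψ : ∀ ψ : IrrCharacter D, classInner (φD * θD) ψ = (d ψ : ℂ) := fun ψ => by
      rw [hd, classInner_sum_irr]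
    refine ⟨((E ⊔ N).index : ℤ) * ∑ ψ : IrrCharacter D, (c ψ : ℤ) * (d ψ : ℤ), ?_, ?_⟩
    swap
    · rw [sum_indFun_mul E φ F hFinv]
      push_cast
      congr 1
      calc (Nat.card D : ℂ)⁻¹ * ∑ y : D, φ y * F (ofSub y) = classInner (φD * θD) θD := by
            rw [classInner]; congr 1
            exact Finset.sum_congr rfl fun y _ => by
              simp only [hF, hθD, hφD, Pi.mul_apply]; ring
        _ = _ := by
            conv_lhs => arg 2; rw [hc]
            rw [classInner_sum_right]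
            refine Finset.sum_congr rfl fun ψ _ => ?_
            rw [classInner_smul_right, hdψ, map_natCast]
    by_cases htop : E ⊔ N = ⊤
    swap
    · obtain ⟨i, -, hi⟩ := (Nat.dvd_prime_pow hp).mp
        (hk ▸ Subgroup.index_dvd_of_le (le_sup_right : N ≤ E ⊔ N))
      rcases i with _ | i
      · exact absurd (Subgroup.index_eq_one.mp (hi.trans (pow_zero p))) htop
      · rw [hi]
        exact Dvd.dvd.mul_right (by push_cast; exact dvd_pow_self _ (Nat.succ_ne_zero i)) _
    refine Dvd.dvd.mul_left ?_ _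
    -- orbit sums
    have hθinv : ∀ g : E, conjFn D θD g = θD := fun g => funext fun y => by
      have := congrFun (hinv (g : G)) (ofSub y)
      rw [conjFn_apply] at this ⊢
      simp only [hθD]
      exact this
    have hφinv : ∀ g : E, conjFn D (φD * θD) g = φD * θD := fun g => funext fun y => by
      have h1 := congrFun (hθinv g) y
      rw [conjFn_apply] at h1 ⊢
      simp only [Pi.mul_apply, h1, hφD]
      exact congrArg (· * _) (isClassFunction_of_isCharacter hφ (y : E) g)
    rw [← Finset.sum_fiberwise_of_maps_to (g := fun ψ : IrrCharacter D => orbitFinset D (ψ : D → ℂ))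
      (t := Finset.univ.image fun ψ : IrrCharacter D => orbitFinset D (ψ : D → ℂ))
      (fun ψ _ => Finset.mem_image_of_mem _ (Finset.mem_univ ψ))]
    refine Finset.dvd_sum fun O hO => ?_
    obtain ⟨ψ₀, -, rfl⟩ := Finset.mem_image.mp hO
    have hconst : ∀ ψ : IrrCharacter D, orbitFinset D (ψ : D → ℂ) = orbitFinset D (ψ₀ : D → ℂ) →
        c ψ = c ψ₀ ∧ d ψ = d ψ₀ := by
      intro ψ hψ
      have hmem : (ψ : D → ℂ) ∈ orbitFinset D (ψ : D → ℂ) :=
        mem_orbitFinset.mpr ⟨1, (conjFn_one _).symm⟩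
      rw [hψ] at hmem
      obtain ⟨g, hg⟩ := mem_orbitFinset.mp hmem
      have e1 := classInner_conjFn θD (ψ₀ : D → ℂ) g
      rw [hθinv, ← hg, hcψ, hcψ] at e1
      have e2 := classInner_conjFn (φD * θD) (ψ₀ : D → ℂ) g
      rw [hφinv, ← hg, hdψ, hdψ] at e2
      exact ⟨Nat.cast_inj.mp e1, Nat.cast_inj.mp e2⟩
    rw [Finset.sum_congr rfl fun ψ hψ => show (c ψ : ℤ) * (d ψ : ℤ) = (c ψ₀ : ℤ) * (d ψ₀ : ℤ) by
      obtain ⟨h1, h2⟩ := hconst ψ (Finset.mem_filter.mp hψ).2
      rw [h1, h2], Finset.sum_const, nsmul_eq_mul]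
    have hcardO : (Finset.univ.filter fun ψ : IrrCharacter D =>
        orbitFinset D (ψ : D → ℂ) = orbitFinset D (ψ₀ : D → ℂ)).card =
          (orbitFinset D (ψ₀ : D → ℂ)).card := by
      refine Finset.card_bij (fun ψ _ => (ψ : D → ℂ)) (fun ψ hψ => ?_)
        (fun a _ b _ h => Subtype.ext h) (fun χ hχ => ?_)
      · rw [← (Finset.mem_filter.mp hψ).2]
        exact mem_orbitFinset.mpr ⟨1, (conjFn_one _).symm⟩
      · obtain ⟨g, rfl⟩ := mem_orbitFinset.mp hχ
        refine ⟨⟨_, isIrrCharacter_conjFn ψ₀.2 g⟩, Finset.mem_filter.mpr ⟨Finset.mem_univ _, ?_⟩, rfl⟩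
        ext χ
        simp only [mem_orbitFinset]
        constructor
        · rintro ⟨h, rfl⟩; exact ⟨g * h, by rw [conjFn_conjFn]⟩
        · rintro ⟨h, rfl⟩; exact ⟨g⁻¹ * h, by rw [conjFn_conjFn, mul_inv_cancel_left]⟩
    rw [hcardO]
    have horb := card_stabilizer_mul_card_orbit (N := D) (ψ₀ : D → ℂ)
    rw [← card_inertia, ← (inertia D (ψ₀ : D → ℂ)).card_mul_index] at horb
    have horb' := Nat.eq_of_mul_eq_mul_left Nat.card_pos horb
    have hDle : D ≤ inertia D (ψ₀ : D → ℂ) := fun y hy => mem_inertia.mpr (funext fun x => by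
      rw [conjFn_apply]
      exact ψ₀.2.isClassFunction x ⟨y, hy⟩)
    have hidx : D.index ∣ p ^ k := by
      rw [← hk, show D.index = N.relIndex E from rfl, ← Subgroup.relIndex_sup_left, sup_comm, htop,
        Subgroup.relIndex_top_right]
    obtain ⟨i, -, hi⟩ := (Nat.dvd_prime_pow hp).mp ((Subgroup.index_dvd_of_le hDle).trans hidx)
    rcases i with _ | i
    · have hfix : ∀ g : E, conjFn D (ψ₀ : D → ℂ) g = ψ₀ := fun g => by
        have := Subgroup.index_eq_one.mp (hi.trans (pow_zero p))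
        exact mem_inertia.mp (this ▸ Subgroup.mem_top g)
      have hpc : p ∣ c ψ₀ := by
        by_contra hpc
        exact hcon E _ inferInstance (c ψ₀) hE htop ψ₀.2 hfix hpc (hcψ ψ₀)
      exact ((Int.natCast_dvd_natCast.mpr hpc).mul_right _).mul_left _
    · rw [horb', hi]
      exact Dvd.dvd.mul_right (by push_cast; exact dvd_pow_self _ (Nat.succ_ne_zero i)) _

/-- An invariant character of a normal subgroup of `p`-power index extends, when the linear
characters of the central intersection with a Sylow subgroup do. -/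
theorem exists_extension_of_central {p : ℕ} [Fact p.Prime] (hind : ∃ k : ℕ, N.index = p ^ k)
    (P : Sylow p G) (hcent : ∀ x ∈ (P : Subgroup G) ⊓ N, ∀ y ∈ (P : Subgroup G), x * y = y * x)
    (hlin : ∀ lam : ↥((P : Subgroup G) ⊓ N) → ℂ, IsCharacter ↥((P : Subgroup G) ⊓ N) lam →
      lam 1 = 1 → ∃ μ : ↥(P : Subgroup G) → ℂ, IsCharacter ↥(P : Subgroup G) μ ∧ μ 1 = 1 ∧
        ∀ x : ↥((P : Subgroup G) ⊓ N), μ ⟨(x : G), x.2.1⟩ = lam x)
    {θ : N → ℂ} (hθ : IsIrrCharacter N θ) (hinv : ∀ g, conjFn N θ g = θ) :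
    ∃ χ : G → ℂ, IsIrrCharacter G χ ∧ ∀ n : N, χ n = θ n := by
  classical
  have hp : p.Prime := Fact.out
  obtain ⟨E, φ, hFD, m, ⟨x, hxc, hxo, j, hj⟩, htop, hφ, -, hpm, hm⟩ :=
    exists_elementary_constituent hp hind hθ hinv
  obtain ⟨k, hk⟩ := hind
  set C := Subgroup.zpowers x with hC
  have hCn : C.Normal := ⟨fun c hc g => by
    obtain ⟨i, rfl⟩ := Subgroup.mem_zpowers_iff.mp hc
    have : g * x ^ i = x ^ i * g := Subgroup.mem_center_iff.mp ((Subgroup.center E).zpow_mem hxc i) g
    rw [this, mul_inv_cancel_right]; exact hc⟩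
  have hCN : ∀ c ∈ C, ((c : E) : G) ∈ N := fun c hc => by
    have hxN : (x : G) ∈ N := by
      rw [← QuotientGroup.eq_one_iff, ← orderOf_eq_one_iff]
      refine Nat.eq_one_of_dvd_coprimes (hxo.pow_right k) ?_ ?_
      · rw [← Subgroup.orderOf_coe x]; exact orderOf_map_dvd (QuotientGroup.mk' N) _
      · rw [← hk, Subgroup.index_eq_card]; exact orderOf_dvd_natCard _
    obtain ⟨i, rfl⟩ := Subgroup.mem_zpowers_iff.mp hc
    rw [Subgroup.coe_zpow]; exact N.zpow_mem hxN i
  obtain ⟨Q⟩ := (inferInstance : Nonempty (Sylow p E))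
  have hCcard : Nat.card C = orderOf x := Nat.card_zpowers x
  obtain ⟨i, hi⟩ := IsPGroup.iff_card.mp Q.isPGroup'
  have hQC : Subgroup.IsComplement' (Q : Subgroup E) C := by
    refine Subgroup.isComplement'_of_coprime ?_ (by rw [hi, hCcard]; exact (hxo.pow_right i).symm)
    have h1 := C.card_mul_index
    have h2 := (Q : Subgroup E).card_mul_index
    have hQi : ¬ p ∣ (Q : Subgroup E).index := Q.not_dvd_index
    rw [hj, hCcard] at h1
    rw [hi, ← h1] at h2
    have e1 : p ^ j = p ^ i := Nat.dvd_antisymm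
      ((Nat.Coprime.pow_left j ((Nat.Prime.coprime_iff_not_dvd hp).mpr hQi)).dvd_of_dvd_mul_right
        (h2 ▸ dvd_mul_left _ _))
      ((Nat.Coprime.pow_left i hxo.symm).dvd_of_dvd_mul_left (h2 ▸ dvd_mul_right _ _))
    rw [hi, hCcard, ← h1, e1, mul_comm]
  -- a conjugate inside the Sylow subgroup
  obtain ⟨P', hP'⟩ := (Q.isPGroup'.map E.subtype).exists_le_sylow
  obtain ⟨g, hg⟩ := MulAction.exists_smul_eq G P' P
  have hQP : ∀ q : (Q : Subgroup E), g * ((q : E) : G) * g⁻¹ ∈ (P : Subgroup G) := fun q => by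
    rw [← hg]
    show g * ((q : E) : G) * g⁻¹ ∈ MulAut.conj g • (P' : Subgroup G)
    exact Subgroup.smul_mem_pointwise_smul _ _ _ (hP' ⟨(q : E), q.2, rfl⟩)
  let α : (Q : Subgroup E) →* (P : Subgroup G) :=
    ((MulAut.conj g).toMonoidHom.comp (E.subtype.comp (Q : Subgroup E).subtype)).codRestrict _ hQP
  have hα : ∀ q, (α q : G) = g * ((q : E) : G) * g⁻¹ := fun q => rfl
  have hαinj : Function.Injective α := fun a b h => by
    have := congrArg Subtype.val h
    rw [hα, hα] at this
    exact Subtype.ext (Subtype.ext (mul_left_cancel (mul_right_cancel this)))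
  have hαN : ∀ q : (Q : Subgroup E), ((q : E) : G) ∈ N → (α q : G) ∈ (P : Subgroup G) ⊓ N :=
    fun q hq => ⟨(α q).2, hN.conj_mem _ hq g⟩
  have hQcen : ∀ a b : (Q : Subgroup E), ((a : E) : G) ∈ N → a * b = b * a := fun a b ha =>
    hαinj (by
      rw [map_mul, map_mul]
      exact Subtype.ext (hcent _ (hαN a ha) _ (α b).2))
  let ι : ↥(Q : Subgroup E) × C ≃* E := MulEquiv.ofBijective
    (MonoidHom.noncommCoprod (Q : Subgroup E).subtype C.subtype fun a c => by
      obtain ⟨i, hi⟩ := Subgroup.mem_zpowers_iff.mp c.2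
      show (a : E) * c = c * a
      rw [← hi]
      exact Subgroup.mem_center_iff.mp ((Subgroup.center E).zpow_mem hxc i) a)
    hQC
  have hι : ∀ a c, ι (a, c) = (a : E) * c := fun a c => rfl
  let D := N.subgroupOf E
  have hsplit : ∀ y : D, (((ι.symm (y : E)).1 : E) : G) ∈ N := fun y => by
    have e := congrArg Subtype.val (ι.apply_symm_apply (y : E))
    rw [← Prod.mk.eta (p := ι.symm (y : E)), hι, Subgroup.coe_mul] at e
    have h1 : ((y : E) : G) ∈ N := y.2
    rw [← e] at h1
    exact (N.mul_mem_cancel_right (hCN _ (ι.symm (y : E)).2.2)).mp h1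
  have hDcomm : IsMulCommutative D := ⟨⟨fun y z => Subtype.ext (ι.symm.injective (by
    simp only [Subgroup.coe_mul, map_mul]
    refine Prod.ext (hQcen _ _ (hsplit y)) ?_
    exact Subtype.ext (Subgroup.mem_center_iff.mp ((Subgroup.zpowers_le.mpr hxc)
      (ι.symm (z : E)).2.2) _).symm.symm))⟩⟩
  obtain ⟨lam, hlam⟩ := exists_hom_of_degree_one hφ.isCharacter (degree_one_of_isMulCommutative hφ)
  -- the parts of the extension
  let μC : C →* ℂˣ := lam.comp ((C.subtype).codRestrict D fun c => hCN c c.2)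
  set R := ((P : Subgroup G) ⊓ N) with hR
  have hRcomm : IsMulCommutative R := ⟨⟨fun a b => Subtype.ext (hcent _ a.2 _ b.2.1)⟩⟩
  let : CommGroup R := { (inferInstance : Group R) with mul_comm := hRcomm.is_comm.comm }
  set QN := D.comap (Q : Subgroup E).subtype with hQN
  let β : QN →* R := (((P : Subgroup G).subtype.comp α).comp QN.subtype).codRestrict R
    fun q => hαN _ q.2
  have hβinj : Function.Injective β := fun a b h =>
    Subtype.ext (hαinj (Subtype.ext (congrArg (fun r : R => (r : G)) h)))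
  let lam₀ : QN →* ℂˣ := lam.comp (((Q : Subgroup E).subtype.comp QN.subtype).codRestrict D fun q => q.2)
  obtain ⟨l, hl⟩ := MonoidHom.domRestrict_surjective (M := ℂ) β.range
    (lam₀.comp (MonoidHom.ofInjective hβinj).symm.toMonoidHom)
  obtain ⟨M, hM, hM1, hMl⟩ := hlin (fun r => (l r : ℂ)) (isIrrCharacter_linear l).isCharacter (by simp)
  obtain ⟨Mh, rfl⟩ := exists_hom_of_degree_one hM hM1
  let μ : E →* ℂˣ := ((Mh.comp α).coprod μC).comp ι.symm.toMonoidHom
  have hμ : ∀ y : D, μ (y : E) = lam y := by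
    intro y
    set q := (ι.symm (y : E)).1 with hq
    set c := (ι.symm (y : E)).2 with hcdef
    have hqN : q ∈ QN := hsplit y
    have e1 : Mh (α q) = lam ⟨(q : E), hqN⟩ := by
      have a1 := hMl (β ⟨q, hqN⟩)
      have a2 := DFunLike.congr_fun hl ⟨β ⟨q, hqN⟩, ⟨q, hqN⟩, rfl⟩
      have a3 : (MonoidHom.ofInjective hβinj).symm ⟨β ⟨q, hqN⟩, ⟨q, hqN⟩, rfl⟩ = ⟨q, hqN⟩ :=
        (MulEquiv.symm_apply_eq _).mpr (Subtype.ext rfl)
      simp only [MonoidHom.coe_comp, MulEquiv.coe_toMonoidHom, Function.comp_apply, a3] at a2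
      exact Units.ext (a1.trans (congrArg Units.val a2))
    show Mh (α q) * μC c = lam y
    rw [e1]
    show lam _ * lam _ = lam y
    rw [← map_mul]
    exact congrArg lam (Subtype.ext (ι.apply_symm_apply (y : E)))
  set ψ : E → ℂ := fun e => (μ e : ℂ) with hψ
  have hIc : IsCharacter G (indFun E ψ) := isCharacter_indFun E (isIrrCharacter_linear μ).isCharacter
  have hmI : classInner (fun n : N => indFun E ψ n) θ = (m : ℂ) := by
    rw [classInner, sum_indFun_mul E ψ (fun n => conj (θ n)) (fun g n => by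
      have := congrFun (hinv g) n
      rw [conjFn_apply] at this
      rw [this]), htop, Subgroup.index_top, Nat.cast_one, one_mul, ← map_natCast (starRingEnd ℂ) m,
      ← hm, conj_classInner, classInner]
    congr 1
    refine Finset.sum_congr rfl fun y _ => ?_
    show (μ (y : E) : ℂ) * _ = φ y * _
    rw [hμ, hlam]
  obtain ⟨c, hc⟩ := exists_decomposition hIc
  have hsum : classInner (fun n : N => indFun E ψ n) θ =
      ∑ χ : IrrCharacter G, (c χ : ℂ) * classInner (fun n : N => (χ : G → ℂ) n) θ := by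
    rw [hc, show (fun n : N => (∑ χ : IrrCharacter G, (c χ : ℂ) • (χ : G → ℂ)) n) =
      ∑ χ : IrrCharacter G, (c χ : ℂ) • fun n : N => (χ : G → ℂ) n by funext n; simp,
      classInner_sum_left]
    exact Finset.sum_congr rfl fun χ _ => classInner_smul_left _ _ _
  have hmult : ∀ χ : IrrCharacter G, ∃ e : ℕ,
      classInner (fun n : N => (χ : G → ℂ) n) θ = e ∧ (¬ p ∣ e → ∀ n : N, (χ : G → ℂ) n = θ n) := by
    intro χ
    by_cases h0 : classInner (fun n : N => (χ : G → ℂ) n) θ = 0
    · exact ⟨0, by rw [h0, Nat.cast_zero], fun h => absurd (dvd_zero p) h⟩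
    obtain ⟨e, he, hdvd, -⟩ := multiplicity_dvd_index hθ hinv χ.2 h0
    refine ⟨e, by rw [he, classInner_smul_left, classInner_irr_self hθ, mul_one], fun hpe n => ?_⟩
    have e1 : e = 1 := by
      obtain ⟨i, -, hi⟩ := (Nat.dvd_prime_pow hp).mp (hk ▸ hdvd)
      rcases i with _ | i
      · exact hi.trans (pow_zero p)
      · exact absurd (hi ▸ dvd_pow_self p (Nat.succ_ne_zero i)) hpe
    rw [e1, Nat.cast_one, one_smul] at he
    exact congrFun he n
  choose e he hext using hmult
  by_contra hcon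
  push Not at hcon
  have hall : ∀ χ : IrrCharacter G, p ∣ e χ := fun χ => by
    by_contra h
    obtain ⟨n, hn⟩ := hcon _ χ.2
    exact hn (hext χ h n)
  rw [hmI] at hsum
  simp only [he] at hsum
  have hm' : m = ∑ χ, c χ * e χ := by exact_mod_cast hsum
  exact hpm (hm' ▸ Finset.dvd_sum fun χ _ => (hall χ).mul_left _)

end Cfsg.Lib.Characters
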