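import Mathlib

/-!
# Projective representations of finite groups over `ℂ`

A projective representation is a map `P : G → V ≃ₗ[ℂ] V` which is multiplicative up to nonzero
scalars.  We develop invariant subspaces, Schur's lemma, complete reducibility, the multiplicity
space of a normal subgroup and the intertwining operators of an invariant constituent.
-/

set_option linter.unusedSectionVars false
set_option linter.style.longLine false
set_option linter.style.haveILetI false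

open Module Submodule

namespace Cfsg.Lib.Characters.Proj

variable {G : Type*} [Group G] [Finite G]
variable {V : Type*} [AddCommGroup V] [Module ℂ V] [FiniteDimensional ℂ V]

/-- Multiplicative up to scalars. -/
def IsProj (P : G → V ≃ₗ[ℂ] V) : Prop :=
  ∀ g h : G, ∃ c : ℂ, c ≠ 0 ∧ ∀ v, P g (P h v) = c • P (g * h) v

variable {P : G → V ≃ₗ[ℂ] V}

theorem map_one_scalar (hP : IsProj P) : ∃ c : ℂ, c ≠ 0 ∧ ∀ v, P 1 v = c • v := by
  obtain ⟨c, hc, h⟩ := hP 1 1
  refine ⟨c, hc, fun v => ?_⟩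
  obtain ⟨w, rfl⟩ := (P 1).surjective v
  rw [h, mul_one]

/-- The translate of a subspace. -/
def tr (P : G → V ≃ₗ[ℂ] V) (g : G) (X : Submodule ℂ V) : Submodule ℂ V :=
  X.map (P g : V →ₗ[ℂ] V)

theorem mem_tr {g : G} {X : Submodule ℂ V} {y : V} : y ∈ tr P g X ↔ ∃ x ∈ X, P g x = y :=
  Submodule.mem_map

theorem finrank_tr (g : G) (X : Submodule ℂ V) : finrank ℂ (tr P g X) = finrank ℂ X :=
  LinearEquiv.finrank_map_eq (P g) X

theorem tr_tr (hP : IsProj P) (g h : G) (X : Submodule ℂ V) :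
    tr P g (tr P h X) = tr P (g * h) X := by
  obtain ⟨c, hc, hc'⟩ := hP g h
  ext y
  simp only [mem_tr]
  constructor
  · rintro ⟨_, ⟨x, hx, rfl⟩, rfl⟩
    exact ⟨c • x, X.smul_mem c hx, by rw [map_smul, ← hc']⟩
  · rintro ⟨x, hx, rfl⟩
    refine ⟨_, ⟨c⁻¹ • x, X.smul_mem _ hx, rfl⟩, ?_⟩
    rw [hc', map_smul, smul_smul, mul_inv_cancel₀ hc, one_smul]

theorem tr_one (hP : IsProj P) (X : Submodule ℂ V) : tr P 1 X = X := by
  obtain ⟨c, hc, h⟩ := map_one_scalar hP
  ext y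
  simp only [mem_tr, h]
  exact ⟨by rintro ⟨x, hx, rfl⟩; exact X.smul_mem c hx, fun hy =>
    ⟨c⁻¹ • y, X.smul_mem _ hy, by rw [smul_smul, mul_inv_cancel₀ hc, one_smul]⟩⟩

/-- Invariance of a subspace. -/
def Inv (P : G → V ≃ₗ[ℂ] V) (N : Subgroup G) (X : Submodule ℂ V) : Prop :=
  ∀ n ∈ N, ∀ x ∈ X, P n x ∈ X

/-- The stabilizer of a subspace. -/
def stab (hP : IsProj P) (X : Submodule ℂ V) : Subgroup G where
  carrier := {g | tr P g X = X}
  one_mem' := tr_one hP X
  mul_mem' := fun {a b} ha hb => by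
    show tr P (a * b) X = X
    rw [← tr_tr hP, show tr P b X = X from hb]
    exact ha
  inv_mem' := fun {a} ha => by
    show tr P a⁻¹ X = X
    conv_lhs => rw [← show tr P a X = X from ha]
    rw [tr_tr hP, inv_mul_cancel, tr_one hP]

theorem mem_stab {hP : IsProj P} {X : Submodule ℂ V} {g : G} :
    g ∈ stab hP X ↔ tr P g X = X := Iff.rfl

theorem mem_stab_of_le (hP : IsProj P) {X : Submodule ℂ V} {g : G} (h : ∀ x ∈ X, P g x ∈ X) :
    g ∈ stab hP X :=
  mem_stab.mpr (eq_of_le_of_finrank_eq (fun y hy => by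
    obtain ⟨x, hx, rfl⟩ := mem_tr.mp hy; exact h x hx) (finrank_tr g X))

theorem inv_iff (hP : IsProj P) {N : Subgroup G} {X : Submodule ℂ V} :
    Inv P N X ↔ N ≤ stab hP X :=
  ⟨fun h n hn => mem_stab_of_le hP (h n hn),
    fun h n hn x hx => mem_stab.mp (h hn) ▸ mem_tr.mpr ⟨x, hx, rfl⟩⟩

theorem Inv.mem_tr_self (hP : IsProj P) {N : Subgroup G} {X : Submodule ℂ V} (h : Inv P N X)
    {n : G} (hn : n ∈ N) : tr P n X = X :=
  mem_stab.mp ((inv_iff hP).mp h hn)

theorem Inv.symm_mem (hP : IsProj P) {N : Subgroup G} {X : Submodule ℂ V} (h : Inv P N X)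
    {n : G} (hn : n ∈ N) {x : V} (hx : x ∈ X) : (P n).symm x ∈ X := by
  rw [← h.mem_tr_self hP hn] at hx
  obtain ⟨y, hy, rfl⟩ := mem_tr.mp hx
  rwa [LinearEquiv.symm_apply_apply]

theorem Inv.mono {N N' : Subgroup G} {X : Submodule ℂ V} (h : Inv P N X) (hle : N' ≤ N) :
    Inv P N' X := fun n hn => h n (hle hn)

theorem inv_sup (hP : IsProj P) {N N' : Subgroup G} {X : Submodule ℂ V} (h : Inv P N X)
    (h' : Inv P N' X) : Inv P (N ⊔ N') X :=
  (inv_iff hP).mpr (sup_le ((inv_iff hP).mp h) ((inv_iff hP).mp h'))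

theorem inv_bot (N : Subgroup G) : Inv P N ⊥ := fun n _ x hx => by
  rw [(mem_bot ℂ).mp hx, map_zero]; exact zero_mem _

theorem inv_top (N : Subgroup G) : Inv P N ⊤ := fun _ _ _ _ => Submodule.mem_top

theorem inv_inf {N : Subgroup G} {X Y : Submodule ℂ V} (h : Inv P N X) (h' : Inv P N Y) :
    Inv P N (X ⊓ Y) := fun n hn x hx => ⟨h n hn x hx.1, h' n hn x hx.2⟩

theorem inv_iSup {N : Subgroup G} {ι : Sort*} {f : ι → Submodule ℂ V} (h : ∀ i, Inv P N (f i)) :
    Inv P N (⨆ i, f i) := by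
  intro n hn
  have : (⨆ i, f i) ≤ (⨆ i, f i).comap (P n : V →ₗ[ℂ] V) :=
    iSup_le fun i x hx => mem_iSup_of_mem i (h i n hn x hx)
  exact this

/-- Conjugation relation between `n` and `g⁻¹ n g`. -/
theorem conj_rel (hP : IsProj P) (g n : G) :
    ∃ c : ℂ, c ≠ 0 ∧ ∀ v, P n (P g v) = c • P g (P (g⁻¹ * n * g) v) := by
  obtain ⟨c₁, hc₁, h₁⟩ := hP n g
  obtain ⟨c₂, hc₂, h₂⟩ := hP g (g⁻¹ * n * g)
  refine ⟨c₁ / c₂, div_ne_zero hc₁ hc₂, fun v => ?_⟩
  rw [h₁, h₂, smul_smul, div_mul_cancel₀ _ hc₂, show g * (g⁻¹ * n * g) = n * g by group]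

theorem inv_tr_normal (hP : IsProj P) {N : Subgroup G} [hN : N.Normal] {X : Submodule ℂ V}
    (h : Inv P N X) (g : G) : Inv P N (tr P g X) := by
  intro n hn y hy
  obtain ⟨x, hx, rfl⟩ := mem_tr.mp hy
  obtain ⟨c, -, hc⟩ := conj_rel hP g n
  rw [hc]
  exact Submodule.smul_mem _ _ (mem_tr.mpr
    ⟨_, h _ (by simpa [mul_assoc] using hN.conj_mem n hn g⁻¹) x hx, rfl⟩)

/-- A minimal invariant subspace. -/
structure MinInv (P : G → V ≃ₗ[ℂ] V) (N : Subgroup G) (X : Submodule ℂ V) : Prop where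
  ne_bot : X ≠ ⊥
  inv : Inv P N X
  eq_bot_or_eq : ∀ Y ≤ X, Inv P N Y → Y = ⊥ ∨ Y = X

theorem exists_minInv {N : Subgroup G} {X : Submodule ℂ V} (hX : X ≠ ⊥) (h : Inv P N X) :
    ∃ W ≤ X, MinInv P N W := by
  induction hn : finrank ℂ X using Nat.strong_induction_on generalizing X with
  | _ n ih =>
    by_cases hmin : ∀ Y ≤ X, Inv P N Y → Y = ⊥ ∨ Y = X
    · exact ⟨X, le_rfl, hX, h, hmin⟩
    push Not at hmin
    obtain ⟨Y, hYX, hY, hY0, hYne⟩ := hmin
    obtain ⟨W, hWY, hW⟩ := ih (finrank ℂ Y)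
      (hn ▸ Submodule.finrank_lt_finrank_of_lt (lt_of_le_of_ne hYX hYne)) hY0 hY rfl
    exact ⟨W, hWY.trans hYX, hW⟩

theorem minInv_tr (hP : IsProj P) {N : Subgroup G} [N.Normal] {X : Submodule ℂ V}
    (h : MinInv P N X) (g : G) : MinInv P N (tr P g X) := by
  refine ⟨fun hbot => h.ne_bot ?_, inv_tr_normal hP h.inv g, fun Y hY hYi => ?_⟩
  · rw [← tr_one hP X, ← inv_mul_cancel g, ← tr_tr hP, hbot]
    exact Submodule.map_bot _
  · have hle : tr P g⁻¹ Y ≤ X := by
      conv_rhs => rw [← tr_one hP X, ← inv_mul_cancel g, ← tr_tr hP]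
      exact Submodule.map_mono hY
    rcases h.eq_bot_or_eq _ hle (inv_tr_normal hP hYi g⁻¹) with he | he
    · left
      rw [← tr_one hP Y, ← mul_inv_cancel g, ← tr_tr hP, he]
      exact Submodule.map_bot _
    · right
      rw [← tr_one hP Y, ← mul_inv_cancel g, ← tr_tr hP, he]

/-- Irreducibility. -/
def Irr (P : G → V ≃ₗ[ℂ] V) : Prop := (⊤ : Submodule ℂ V) ≠ ⊥ ∧ ∀ X, Inv P ⊤ X → X = ⊥ ∨ X = ⊤

theorem Irr.eq_top_of_stab (hP : IsProj P) (hirr : Irr P) {X : Submodule ℂ V} (hX : X ≠ ⊥)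
    (h : stab hP X = ⊤) : X = ⊤ :=
  (hirr.2 X ((inv_iff hP).mpr h.ge)).resolve_left hX

theorem finrank_finset_sup_le {ι : Type*} (s : Finset ι) (f : ι → Submodule ℂ V) :
    finrank ℂ (s.sup f : Submodule ℂ V) ≤ ∑ i ∈ s, finrank ℂ (f i) := by
  classical
  induction s using Finset.induction with
  | empty => simp
  | insert a s ha ih =>
    rw [Finset.sup_insert, Finset.sum_insert ha]
    exact (Submodule.finrank_add_le_finrank_add_finrank _ _).trans (Nat.add_le_add_left ih _)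

/-- The `K`-translates of an `H`-invariant subspace span a space of bounded dimension. -/
theorem exists_span_bound (hP : IsProj P) (H K : Subgroup G) {X : Submodule ℂ V}
    (hX : Inv P H X) : ∃ Y, X ≤ Y ∧ Inv P K Y ∧ finrank ℂ Y ≤ H.relIndex K * finrank ℂ X ∧
      ∀ Z, X ≤ Z → Inv P K Z → Y ≤ Z := by
  classical
  haveI := Fintype.ofFinite (K ⧸ H.subgroupOf K)
  have hdep : ∀ k : K, tr P ((QuotientGroup.mk k : K ⧸ H.subgroupOf K).out : G) X =
      tr P (k : G) X := by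
    intro k
    obtain ⟨l, hl⟩ := QuotientGroup.mk_out_eq_mul (H.subgroupOf K) k
    rw [hl, Subgroup.coe_mul, ← tr_tr hP, hX.mem_tr_self hP (Subgroup.mem_subgroupOf.mp l.2)]
  refine ⟨Finset.univ.sup fun q : K ⧸ H.subgroupOf K => tr P ((q.out : K) : G) X, ?_, ?_, ?_, ?_⟩
  · refine le_trans (le_of_eq ?_) (Finset.le_sup (Finset.mem_univ (QuotientGroup.mk 1)))
    rw [hdep, Subgroup.coe_one, tr_one hP]
  · rw [Finset.sup_univ_eq_iSup]
    intro n hn x hx
    have hle : ∀ q : K ⧸ H.subgroupOf K, tr P ((q.out : K) : G) X ≤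
        (⨆ q : K ⧸ H.subgroupOf K, tr P ((q.out : K) : G) X).comap (P n : V →ₗ[ℂ] V) := by
      intro q x hx
      refine mem_iSup_of_mem (QuotientGroup.mk (⟨n, hn⟩ * q.out)) ?_
      rw [hdep, Subgroup.coe_mul, ← tr_tr hP]
      exact mem_tr.mpr ⟨x, hx, rfl⟩
    exact iSup_le hle hx
  · refine (finrank_finset_sup_le _ _).trans ?_
    rw [Finset.sum_congr rfl fun q _ => finrank_tr _ X, Finset.sum_const, Finset.card_univ,
      smul_eq_mul, ← Nat.card_eq_fintype_card]
    exact le_rfl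
  · intro Z hXZ hZ
    refine Finset.sup_le fun q _ => ?_
    rw [← hZ.mem_tr_self hP q.out.2]
    exact Submodule.map_mono hXZ

theorem finrank_le_index (hP : IsProj P) (hirr : Irr P) {H : Subgroup G} {X : Submodule ℂ V}
    (hX0 : X ≠ ⊥) (hX : Inv P H X) : finrank ℂ V ≤ H.index * finrank ℂ X := by
  obtain ⟨Y, hXY, hY, hdim, -⟩ := exists_span_bound hP H ⊤ hX
  rw [(hirr.2 Y hY).resolve_left fun h => hX0 (le_bot_iff.mp (h ▸ hXY)), finrank_top,
    Subgroup.relIndex_top_right] at hdim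
  exact hdim

/-- An invariant complement exists: equivariant projections. -/
theorem exists_proj (hP : IsProj P) {N : Subgroup G} {X : Submodule ℂ V} (hX : Inv P N X) :
    ∃ π : V →ₗ[ℂ] V, (∀ v, π v ∈ X) ∧ (∀ x ∈ X, π x = x) ∧
      ∀ n ∈ N, ∀ v, π (P n v) = P n (π v) := by
  classical
  haveI := Fintype.ofFinite N
  obtain ⟨C, hC⟩ := X.exists_isCompl
  let π₀ : V →ₗ[ℂ] V := X.subtype.comp (X.projectionOnto C hC)
  have hπ₀ : ∀ v, π₀ v ∈ X := fun v => (X.projectionOnto C hC v).2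
  have hπ₁ : ∀ x ∈ X, π₀ x = x := fun x hx =>
    congrArg Subtype.val (Submodule.projectionOnto_apply_left hC ⟨x, hx⟩)
  let T : N → V →ₗ[ℂ] V := fun n =>
    (P (n : G) : V →ₗ[ℂ] V).comp (π₀.comp ((P (n : G)).symm : V →ₗ[ℂ] V))
  have hT : ∀ (n : N) v, T n v = P (n : G) (π₀ ((P (n : G)).symm v)) := fun _ _ => rfl
  have hN : (Fintype.card N : ℂ) ≠ 0 := Nat.cast_ne_zero.mpr Fintype.card_ne_zero
  refine ⟨(Fintype.card N : ℂ)⁻¹ • ∑ n, T n, fun v => ?_, fun x hx => ?_, fun m hm v => ?_⟩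
  · rw [LinearMap.smul_apply, LinearMap.sum_apply]
    exact X.smul_mem _ (X.sum_mem fun n _ => hX _ n.2 _ (hπ₀ _))
  · rw [LinearMap.smul_apply, LinearMap.sum_apply,
      Finset.sum_congr rfl fun (n : N) _ => show T n x = x by
        rw [hT, hπ₁ _ (hX.symm_mem hP n.2 hx), LinearEquiv.apply_symm_apply],
      Finset.sum_const, Finset.card_univ, ← Nat.cast_smul_eq_nsmul ℂ, smul_smul,
      inv_mul_cancel₀ hN, one_smul]
  · rw [LinearMap.smul_apply, LinearMap.smul_apply, map_smul, LinearMap.sum_apply,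
      LinearMap.sum_apply, map_sum]
    congr 1
    refine (Fintype.sum_equiv (Equiv.mulLeft (⟨m, hm⟩ : N)) _ _ fun n => ?_).symm
    obtain ⟨c, hc, hcmul⟩ := hP m n
    show P m (T n v) = T (⟨m, hm⟩ * n) (P m v)
    have hsymm : (P (m * n)).symm (P m v) = c • (P (n : G)).symm v := by
      apply (P (m * n)).injective
      rw [LinearEquiv.apply_symm_apply, map_smul, ← hcmul, LinearEquiv.apply_symm_apply]
    rw [hT, hT, Subgroup.coe_mul, hsymm, map_smul, map_smul, hcmul]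

/-- Schur's lemma. -/
theorem schur {N : Subgroup G} {X : Submodule ℂ V} (h : MinInv P N X) (T : X →ₗ[ℂ] X)
    (hT : ∀ (n : G) (hn : n ∈ N) (x : X),
      T ⟨P n x, h.inv n hn x x.2⟩ = ⟨P n (T x), h.inv n hn _ (T x).2⟩) :
    ∃ c : ℂ, ∀ x, T x = c • x := by
  haveI : Nontrivial X := Submodule.nontrivial_iff_ne_bot.mpr h.ne_bot
  obtain ⟨c, hc⟩ := Module.End.exists_eigenvalue T
  obtain ⟨x₀, hx₀⟩ := hc.exists_hasEigenvector
  let Y : Submodule ℂ V := (LinearMap.ker (T - c • LinearMap.id)).map X.subtype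
  have hY : Y ≤ X := map_subtype_le _ _
  have hYi : Inv P N Y := by
    rintro n hn _ ⟨x, hx, rfl⟩
    refine ⟨⟨P n x, h.inv n hn x x.2⟩, ?_, rfl⟩
    rw [SetLike.mem_coe, LinearMap.mem_ker, LinearMap.sub_apply, LinearMap.smul_apply,
      LinearMap.id_apply, sub_eq_zero] at hx ⊢
    rw [hT n hn x]
    ext
    simp [hx]
  rcases h.eq_bot_or_eq Y hY hYi with he | he
  · refine (hx₀.2 ?_).elim
    have : (x₀ : V) ∈ Y := ⟨x₀, by
      rw [SetLike.mem_coe, LinearMap.mem_ker, LinearMap.sub_apply, sub_eq_zero]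
      exact hx₀.apply_eq_smul, rfl⟩
    rw [he, mem_bot] at this
    exact Subtype.ext this
  · refine ⟨c, fun x => ?_⟩
    obtain ⟨y, hy, hyx⟩ : (x : V) ∈ Y := he.symm ▸ x.2
    rw [SetLike.mem_coe, LinearMap.mem_ker, LinearMap.sub_apply, sub_eq_zero] at hy
    rw [← Subtype.ext hyx]
    exact hy

/-- Isomorphism of invariant subspaces. -/
def IsoOn (P : G → V ≃ₗ[ℂ] V) (N : Subgroup G) (X Y : Submodule ℂ V) : Prop :=
  ∃ e : X ≃ₗ[ℂ] Y, ∀ n ∈ N, ∀ x y : X, (y : V) = P n x → (e y : V) = P n (e x)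

/-- Quasi-primitivity: every normal subgroup is homogeneous. -/
def QP (P : G → V ≃ₗ[ℂ] V) : Prop :=
  ∀ N : Subgroup G, N.Normal → ∀ X Y, MinInv P N X → MinInv P N Y → IsoOn P N X Y

/-- A system of imprimitivity: an invariant subspace from which `V` is induced. -/
def IndData (P : G → V ≃ₗ[ℂ] V) : Prop :=
  ∃ H : Subgroup G, H ≠ ⊤ ∧ ∃ X, X ≠ ⊥ ∧ Inv P H X ∧ finrank ℂ V = H.index * finrank ℂ X

section Hom

variable {N : Subgroup G} {W : Submodule ℂ V}

/-- The action of `N` on an invariant subspace. -/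
noncomputable def res (hW : Inv P N W) (n : N) : W →ₗ[ℂ] W :=
  (P (n : G) : V →ₗ[ℂ] V).restrict fun x hx => hW n n.2 x hx

theorem coe_res (hW : Inv P N W) (n : N) (w : W) : (res hW n w : V) = P (n : G) w := rfl

/-- The space of `N`-maps from `W` into `X`. -/
def homN (hW : Inv P N W) (X : Submodule ℂ V) : Submodule ℂ (W →ₗ[ℂ] V) where
  carrier := {f | ∀ w, f w ∈ X ∧ ∀ n : N, f (res hW n w) = P (n : G) (f w)}
  zero_mem' := fun w => ⟨by simp, fun n => by simp⟩
  add_mem' := fun {a b} ha hb w => ⟨by simpa using X.add_mem (ha w).1 (hb w).1, fun n => by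
    simp [(ha w).2 n, (hb w).2 n]⟩
  smul_mem' := fun c a ha w => ⟨by simpa using X.smul_mem c (ha w).1, fun n => by
    simp [(ha w).2 n]⟩

theorem mem_homN {hW : Inv P N W} {X : Submodule ℂ V} {f : W →ₗ[ℂ] V} :
    f ∈ homN hW X ↔ ∀ w, f w ∈ X ∧ ∀ n : N, f (res hW n w) = P (n : G) (f w) := Iff.rfl

theorem homN_mono (hW : Inv P N W) {X Y : Submodule ℂ V} (h : X ≤ Y) :
    homN hW X ≤ homN hW Y := fun _ hf w => ⟨h (hf w).1, (hf w).2⟩

theorem homN_comm {hW : Inv P N W} {X : Submodule ℂ V} {f : W →ₗ[ℂ] V} (hf : f ∈ homN hW X)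
    (n : N) (w : W) : f (res hW n w) = P (n : G) (f w) := (hf w).2 n

theorem inv_range {hW : Inv P N W} {X : Submodule ℂ V} {f : W →ₗ[ℂ] V} (hf : f ∈ homN hW X) :
    Inv P N (LinearMap.range f) := by
  rintro n hn _ ⟨w, rfl⟩
  exact ⟨_, homN_comm hf ⟨n, hn⟩ w⟩

/-- `∑ᵢ fᵢ(wᵢ)` for a family of maps. -/
noncomputable def evalMap {ι : Type*} [Fintype ι] (f : ι → W →ₗ[ℂ] V) : (ι → W) →ₗ[ℂ] V :=
  ∑ i, (f i).comp (LinearMap.proj i)

theorem evalMap_apply {ι : Type*} [Fintype ι] (f : ι → W →ₗ[ℂ] V) (w : ι → W) :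
    evalMap f w = ∑ i, f i (w i) := by
  simp [evalMap, LinearMap.sum_apply]

theorem evalMap_injective (hmin : MinInv P N W) :
    ∀ (k : ℕ) (f : Fin k → W →ₗ[ℂ] V), (∀ i, f i ∈ homN hmin.inv ⊤) → LinearIndependent ℂ f →
      Function.Injective (evalMap f) := by
  intro k
  induction k with
  | zero => exact fun f _ _ a b _ => Subsingleton.elim a b
  | succ k ih =>
    intro f hf hli
    have hfs : ∀ i : Fin k, f i.succ ∈ homN hmin.inv ⊤ := fun i => hf _
    have hinj := ih (fun i => f i.succ) hfs (hli.comp _ (Fin.succ_injective k))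
    set Φ := evalMap (fun i : Fin k => f i.succ) with hΦ
    rw [← LinearMap.ker_eq_bot, LinearMap.ker_eq_bot']
    intro w hw
    rw [evalMap_apply, Fin.sum_univ_succ] at hw
    -- the part of `W` sent by `f 0` into the range of the others
    let Z : Submodule ℂ W := (LinearMap.range Φ).comap (f 0)
    let Z' : Submodule ℂ V := Z.map W.subtype
    have hΦi : Inv P N (LinearMap.range Φ) := by
      rintro n hn _ ⟨u, rfl⟩
      refine ⟨fun i => res hmin.inv ⟨n, hn⟩ (u i), ?_⟩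
      rw [hΦ, evalMap_apply, evalMap_apply, map_sum]
      exact Finset.sum_congr rfl fun i _ => homN_comm (hfs i) ⟨n, hn⟩ _
    have hZi : Inv P N Z' := by
      rintro n hn _ ⟨z, hz, rfl⟩
      refine ⟨res hmin.inv ⟨n, hn⟩ z, ?_, rfl⟩
      show f 0 (res hmin.inv ⟨n, hn⟩ z) ∈ LinearMap.range Φ
      rw [homN_comm (hf 0) ⟨n, hn⟩ z]
      exact hΦi n hn _ hz
    have hw0 : w 0 = 0 := by
      by_contra hne
      have hmem : (w 0 : V) ∈ Z' := ⟨w 0, ⟨fun i => -w i.succ, by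
        rw [hΦ, evalMap_apply]
        simp only [map_neg, Finset.sum_neg_distrib]
        exact (eq_neg_of_add_eq_zero_left hw).symm⟩, rfl⟩
      have htop : Z' = W := (hmin.eq_bot_or_eq Z' (map_subtype_le _ _) hZi).resolve_left fun h => by
        rw [h, mem_bot] at hmem
        exact hne (Subtype.ext hmem)
      have hall : ∀ x : W, f 0 x ∈ LinearMap.range Φ := by
        intro x
        obtain ⟨z, hz, hzx⟩ : (x : V) ∈ Z' := htop.symm ▸ x.2
        rw [← Subtype.ext hzx]; exact hz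
      let g : W →ₗ[ℂ] (Fin k → W) :=
        (LinearEquiv.ofInjective Φ hinj).symm.toLinearMap.comp ((f 0).codRestrict _ hall)
      have hg : ∀ x, Φ (g x) = f 0 x := fun x => by
        have := congrArg Subtype.val
          ((LinearEquiv.ofInjective Φ hinj).apply_symm_apply ((f 0).codRestrict _ hall x))
        rw [LinearEquiv.ofInjective_apply] at this
        exact this
      have hscal : ∀ i, ∃ c : ℂ, ∀ x, g x i = c • x := by
        intro i
        obtain ⟨c, hc⟩ := schur hmin ((LinearMap.proj i).comp g) (fun n hn x => by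
          have hres : g (res hmin.inv ⟨n, hn⟩ x) = fun i => res hmin.inv ⟨n, hn⟩ (g x i) := by
            apply hinj
            rw [hg, homN_comm (hf 0) ⟨n, hn⟩ x, ← hg, hΦ, evalMap_apply, evalMap_apply, map_sum]
            exact Finset.sum_congr rfl fun i _ => (homN_comm (hfs i) ⟨n, hn⟩ _).symm
          exact congrFun hres i)
        exact ⟨c, hc⟩
      choose c hc using hscal
      have hdep : f 0 = ∑ i, c i • f i.succ := by
        ext x
        rw [← hg, hΦ, evalMap_apply, LinearMap.sum_apply]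
        exact Finset.sum_congr rfl fun i _ => by rw [hc, map_smul, LinearMap.smul_apply]
      have := Fintype.linearIndependent_iff.mp hli (Fin.cons (1 : ℂ) fun i => -c i) (by
        rw [Fin.sum_univ_succ, Fin.cons_zero, one_smul, hdep]
        simp [Fin.cons_succ, neg_smul, Finset.sum_neg_distrib]) 0
      simp at this
    rw [hw0, map_zero, zero_add] at hw
    have hrest := hinj (a₁ := fun i => w i.succ) (a₂ := 0) (by
      rw [map_zero, hΦ, evalMap_apply]; exact hw)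
    funext i
    induction i using Fin.cases with
    | zero => exact hw0
    | succ i => exact congrFun hrest i

/-- The span of the images of a space of maps. -/
def evalSpan (S : Submodule ℂ (W →ₗ[ℂ] V)) : Submodule ℂ V :=
  ⨆ f : S, LinearMap.range (f : W →ₗ[ℂ] V)

theorem range_le_evalSpan {S : Submodule ℂ (W →ₗ[ℂ] V)} {f : W →ₗ[ℂ] V} (hf : f ∈ S) :
    LinearMap.range f ≤ evalSpan S :=
  le_iSup (fun f : S => LinearMap.range (f : W →ₗ[ℂ] V)) ⟨f, hf⟩

theorem evalSpan_le {hW : Inv P N W} {X : Submodule ℂ V} {S : Submodule ℂ (W →ₗ[ℂ] V)}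
    (hS : S ≤ homN hW X) : evalSpan S ≤ X :=
  iSup_le fun f => by rintro _ ⟨w, rfl⟩; exact (hS f.2 w).1

theorem finrank_evalSpan (hmin : MinInv P N W) {S : Submodule ℂ (W →ₗ[ℂ] V)}
    (hS : S ≤ homN hmin.inv ⊤) : finrank ℂ (evalSpan S) = finrank ℂ W * finrank ℂ S := by
  let b := Module.finBasis ℂ S
  have hli : LinearIndependent ℂ fun i => (b i : W →ₗ[ℂ] V) :=
    b.linearIndependent.map' S.subtype (Submodule.ker_subtype S)
  have hinj := evalMap_injective hmin _ _ (fun i => hS (b i).2) hli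
  have hrange : LinearMap.range (evalMap fun i => (b i : W →ₗ[ℂ] V)) = evalSpan S := by
    refine le_antisymm ?_ (iSup_le fun f => ?_)
    · rintro _ ⟨u, rfl⟩
      rw [evalMap_apply]
      exact Submodule.sum_mem _ fun i _ => range_le_evalSpan (b i).2 ⟨_, rfl⟩
    · rintro _ ⟨x, rfl⟩
      refine ⟨fun i => b.repr f i • x, ?_⟩
      rw [evalMap_apply]
      have h := congrArg (fun g : S => (g : W →ₗ[ℂ] V) x) (b.sum_repr f)
      simp only [Submodule.coe_sum, Submodule.coe_smul, LinearMap.sum_apply,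
        LinearMap.smul_apply] at h
      simpa only [map_smul] using h
  rw [← hrange, LinearMap.finrank_range_of_inj hinj, Module.finrank_pi_fintype, Finset.sum_const,
    Finset.card_univ, Fintype.card_fin, smul_eq_mul, mul_comm]

variable (hP : IsProj P) (hhom : ∀ Z, MinInv P N Z → IsoOn P N W Z)
include hP hhom

/-- Homogeneity: invariant subspaces are spanned by images of `W`. -/
theorem evalSpan_homN (hmin : MinInv P N W) {X : Submodule ℂ V} (hX : Inv P N X) :
    evalSpan (homN hmin.inv X) = X := by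
  set Y := evalSpan (homN hmin.inv X)
  have hYX : Y ≤ X := evalSpan_le le_rfl
  have hYi : Inv P N Y := inv_iSup fun f => inv_range f.2
  obtain ⟨π, hπY, hπfix, hπc⟩ := exists_proj hP hYi
  by_contra hne
  let C := X ⊓ LinearMap.ker π
  have hC : C ≠ ⊥ := by
    intro h
    refine hne (le_antisymm hYX fun x hx => ?_)
    have : x - π x ∈ C := ⟨X.sub_mem hx (hYX (hπY x)), by
      rw [SetLike.mem_coe, LinearMap.mem_ker, map_sub, hπfix _ (hπY x), sub_self]⟩
    rw [h, mem_bot, sub_eq_zero] at this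
    rw [this]; exact hπY x
  have hCi : Inv P N C := inv_inf hX fun n hn x hx => by
    rw [LinearMap.mem_ker] at hx ⊢
    rw [hπc n hn, hx, map_zero]
  obtain ⟨Z, hZC, hZ⟩ := exists_minInv hC hCi
  obtain ⟨e, he⟩ := hhom Z hZ
  let f : W →ₗ[ℂ] V := Z.subtype.comp e.toLinearMap
  have hf : f ∈ homN hmin.inv X := fun w => ⟨(hZC (e w).2).1, fun n => he n n.2 w _ rfl⟩
  refine hZ.ne_bot (eq_bot_iff.mpr fun z hz => ?_)
  obtain ⟨w, hw⟩ := e.surjective ⟨z, hz⟩
  have hzY : z ∈ Y := range_le_evalSpan hf ⟨w, congrArg Subtype.val hw⟩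
  rw [mem_bot, ← hπfix z hzY]
  exact LinearMap.mem_ker.mp (hZC hz).2

theorem finrank_eq_mul (hmin : MinInv P N W) {X : Submodule ℂ V} (hX : Inv P N X) :
    finrank ℂ X = finrank ℂ W * finrank ℂ (homN hmin.inv X) := by
  conv_lhs => rw [← evalSpan_homN hP hhom hmin hX]
  exact finrank_evalSpan hmin (homN_mono _ le_top)

/-- Subspaces of the multiplicity space correspond to invariant subspaces. -/
theorem homN_evalSpan (hmin : MinInv P N W) {S : Submodule ℂ (W →ₗ[ℂ] V)}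
    (hS : S ≤ homN hmin.inv ⊤) : homN hmin.inv (evalSpan S) = S := by
  have hle : S ≤ homN hmin.inv (evalSpan S) := fun f hf w =>
    ⟨range_le_evalSpan hf ⟨w, rfl⟩, (hS hf w).2⟩
  refine (eq_of_le_of_finrank_eq hle ?_).symm
  have h := finrank_eq_mul hP hhom hmin (X := evalSpan S) (inv_iSup fun f => inv_range (hS f.2))
  rw [finrank_evalSpan hmin hS] at h
  exact Nat.eq_of_mul_eq_mul_left (Nat.pos_of_ne_zero
    fun h0 => hmin.ne_bot (Submodule.finrank_eq_zero.mp h0)) h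

end Hom

section Intertwiner

variable {N : Subgroup G} [hN : N.Normal] {W : Submodule ℂ V}

/-- `A` behaves like `P g` on `W` with respect to the normal subgroup `N`. -/
def Intertwines (hW : Inv P N W) (g : G) (A : W ≃ₗ[ℂ] W) : Prop :=
  ∀ n n' : N, ∀ c : ℂ, (n' : G) = g⁻¹ * n * g → (∀ v, P (n : G) (P g v) = c • P g (P (n' : G) v)) →
    ∀ u, res hW n (A u) = c • A (res hW n' u)

theorem exists_intertwiner (hP : IsProj P) (hhom : ∀ Z, MinInv P N Z → IsoOn P N W Z)
    (hmin : MinInv P N W) (g : G) : ∃ A : W ≃ₗ[ℂ] W, Intertwines hmin.inv g A := by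
  obtain ⟨e, he⟩ := hhom _ (minInv_tr hP hmin g)
  let m : W ≃ₗ[ℂ] tr P g W := (P g).submoduleMap W
  refine ⟨m.trans e.symm, fun n n' c _ hc u => ?_⟩
  apply e.injective
  apply Subtype.ext
  rw [he n n.2 (e.symm (m u)) _ rfl, map_smul, LinearEquiv.trans_apply,
    LinearEquiv.apply_symm_apply, LinearEquiv.apply_symm_apply]
  show P (n : G) (P g u) = c • P g (P (n' : G) u)
  exact hc u

theorem conjMem (n : N) (g : G) : g⁻¹ * (n : G) * g ∈ N := by
  simpa using hN.conj_mem n n.2 g⁻¹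

theorem intertwines_unique (hP : IsProj P) (hmin : MinInv P N W) {g : G} {A B : W ≃ₗ[ℂ] W}
    (hA : Intertwines hmin.inv g A) (hB : Intertwines hmin.inv g B) :
    ∃ c : ℂ, c ≠ 0 ∧ ∀ u, B u = c • A u := by
  obtain ⟨c, hc⟩ := schur hmin (A.symm.toLinearMap.comp B.toLinearMap) (fun n' hn' x => by
    let n : N := ⟨g * n' * g⁻¹, hN.conj_mem n' hn' g⟩
    obtain ⟨c, hc0, hc⟩ := conj_rel hP g (n : G)
    rw [show g⁻¹ * (n : G) * g = n' by simp [n, mul_assoc]] at hc
    have hrel : (n' : G) = g⁻¹ * n * g := by simp [n, mul_assoc]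
    show A.symm (B (res hmin.inv ⟨n', hn'⟩ x)) = res hmin.inv ⟨n', hn'⟩ (A.symm (B x))
    apply A.injective
    apply (smul_right_injective W hc0)
    show c • A (A.symm (B (res hmin.inv ⟨n', hn'⟩ x))) =
      c • A (res hmin.inv ⟨n', hn'⟩ (A.symm (B x)))
    rw [LinearEquiv.apply_symm_apply, ← hB n ⟨n', hn'⟩ c hrel hc,
      ← hA n ⟨n', hn'⟩ c hrel hc, LinearEquiv.apply_symm_apply])
  refine ⟨c, fun h0 => hmin.ne_bot (eq_bot_iff.mpr fun x hx => ?_), fun u => ?_⟩
  · have h : (B.trans A.symm) ⟨x, hx⟩ = 0 := (hc ⟨x, hx⟩).trans (by rw [h0, zero_smul])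
    rw [LinearEquiv.map_eq_zero_iff] at h
    rw [mem_bot]
    exact congrArg Subtype.val h
  · have := congrArg A (hc u)
    simpa using this

theorem intertwines_mul (hP : IsProj P) {hW : Inv P N W} {g h : G} {A B : W ≃ₗ[ℂ] W}
    (hA : Intertwines hW g A) (hB : Intertwines hW h B) :
    Intertwines hW (g * h) (B.trans A) := by
  intro n n'' c hn'' hc u
  let n' : N := ⟨g⁻¹ * n * g, conjMem n g⟩
  obtain ⟨c₁, -, h₁⟩ := conj_rel hP g (n : G)
  obtain ⟨c₂, -, h₂⟩ := conj_rel hP h (n' : G)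
  obtain ⟨k, hk, hk'⟩ := hP g h
  have hn : (n'' : G) = h⁻¹ * (n' : G) * h := by rw [hn'']; simp [n', mul_assoc]
  rw [← hn] at h₂
  show res hW n (A (B u)) = c • A (B (res hW n'' u))
  rw [hA n n' c₁ rfl h₁, hB n' n'' c₂ hn h₂, map_smul, smul_smul]
  by_cases hu : res hW n'' u = 0
  · simp [hu]
  congr 1
  have hv : P (g * h) (res hW n'' u : V) ≠ 0 := fun h0 => hu (Subtype.ext (by
    exact (P (g * h)).injective (h0.trans (map_zero _).symm)))
  refine smul_left_injective ℂ hv ?_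
  show (c₁ * c₂) • P (g * h) (P (n'' : G) u) = c • P (g * h) (P (n'' : G) u)
  apply smul_right_injective V hk
  show k • (c₁ * c₂) • P (g * h) (P (n'' : G) u) = k • c • P (g * h) (P (n'' : G) u)
  rw [← hc, ← map_smul (P (n : G)) k, ← hk', h₁, h₂, map_smul, hk', smul_smul, smul_smul, smul_smul]
  congr 1
  ring

theorem intertwines_self (hW : Inv P N W) (m : N) {A : W ≃ₗ[ℂ] W}
    (hA : ∀ u, (A u : V) = P (m : G) u) : Intertwines hW (m : G) A := by
  intro n n' c _ hc u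
  apply Subtype.ext
  rw [coe_res, hA, hc, Submodule.coe_smul, hA, coe_res]

end Intertwiner

end Cfsg.Lib.Characters.Proj
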