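import Cfsg.Agent.Lib.ZStar.BrauerSuzuki
import Cfsg.Agent.Lib.ZStar.Q8Group

/-!
# Groups with quaternion Sylow 2-subgroups, modulo the odd core
-/

set_option autoImplicit false
set_option linter.style.haveILetI false

namespace Cfsg.Lib.Characters

universe u

variable {G : Type u} [Group G] [Finite G]

theorem oddCore_two_element {x : G} (hx : x ∈ Cfsg.oddCore G) {k : ℕ} (h : x ^ 2 ^ k = 1) : x = 1 := by
  rw [← orderOf_eq_one_iff]
  refine Nat.eq_one_of_dvd_coprimes ?_ ((Subgroup.orderOf_mk x hx).symm ▸ orderOf_dvd_natCard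
    (⟨x, hx⟩ : Cfsg.oddCore G)) (orderOf_dvd_of_pow_eq_one h)
  exact (Cfsg.Lib.Solv.coprime_pPrimeCore 2).pow_right k

/-- Brauer–Suzuki, modulo the odd core. -/
theorem quaternion_involution (S : Sylow 2 G) {m : ℕ} [NeZero m]
    (e : (S : Subgroup G) ≃* QuaternionGroup m) :
    ∃ t : G, orderOf t = 2 ∧ t ∈ S ∧
      (∀ g : G, QuotientGroup.mk' (Cfsg.oddCore G) (g * t) = QuotientGroup.mk' (Cfsg.oddCore G) (t * g)) ∧
      ∀ s : G, orderOf s = 2 →
        QuotientGroup.mk' (Cfsg.oddCore G) s = QuotientGroup.mk' (Cfsg.oddCore G) t := by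
  haveI : Fact (Nat.Prime 2) := ⟨Nat.prime_two⟩
  haveI : NeZero (2 * m) := ⟨by have := NeZero.ne m; omega⟩
  obtain ⟨t, ht⟩ : ∃ t : (S : Subgroup G), e t = QuaternionGroup.a (m : ZMod (2 * m)) :=
    e.surjective _
  have hto : orderOf (t : G) = 2 := by
    rw [Subgroup.orderOf_coe, ← e.orderOf_eq, ht]
    refine orderOf_eq_prime ?_ ?_
    · rw [sq, QuaternionGroup.a_mul_a, QuaternionGroup.one_def, ← Nat.cast_add, ← two_mul,
        ZMod.natCast_self]
    · rw [QuaternionGroup.one_def, Ne, QuaternionGroup.a.injEq, ZMod.natCast_eq_zero_iff]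
      intro h
      have := Nat.le_of_dvd (Nat.pos_of_ne_zero (NeZero.ne m)) h
      have := NeZero.ne m
      omega
  have huniq : ∀ s : G, s ∈ S → orderOf s = 2 → s = t := by
    intro s hs h
    have h1 : e ⟨s, hs⟩ ^ 2 = 1 := by
      rw [← map_pow, show (⟨s, hs⟩ : (S : Subgroup G)) ^ 2 = 1 from
        Subtype.ext (show s ^ 2 = 1 by rw [← h]; exact pow_orderOf_eq_one s), map_one]
    rcases Cfsg.Lib.ZStar.quaternion_sq_eq_one h1 with h2 | h2
    · have h3 := congrArg Subtype.val ((map_eq_one_iff e e.injective).mp h2)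
      simp only [OneMemClass.coe_one] at h3
      simp [h3] at h
    · exact congrArg Subtype.val (e.injective (h2.trans ht.symm))
  have hz := Cfsg.Lib.ZStar.zstar (Cfsg.Lib.ZStar.isolated_of_unique S hto t.2 huniq)
  have hcomm : ∀ g : G, QuotientGroup.mk' (Cfsg.oddCore G) (g * (t : G)) =
      QuotientGroup.mk' (Cfsg.oddCore G) ((t : G) * g) := by
    intro g
    have h := (QuotientGroup.eq_one_iff _).mpr (hz g)
    simp only [QuotientGroup.mk'_apply, QuotientGroup.mk_mul, QuotientGroup.mk_inv] at h ⊢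
    rw [mul_inv_eq_one, mul_inv_eq_iff_eq_mul] at h
    exact h.symm
  refine ⟨t, hto, t.2, hcomm, fun s hs => ?_⟩
  obtain ⟨g, hg⟩ := Cfsg.Lib.ZStar.exists_conj_in_sylow S (k := 1) (by rw [hs, pow_one] : orderOf s = 2 ^ 1)
  have hgs : g * s * g⁻¹ = t := huniq _ hg (by
    simpa using (orderOf_injective (MulAut.conj g).toMonoidHom (MulAut.conj g).injective s).trans hs)
  have hs' : s = g⁻¹ * (t : G) * g := by rw [← hgs]; group
  rw [hs', map_mul, hcomm, ← map_mul, mul_assoc, inv_mul_cancel, mul_one]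

end Cfsg.Lib.Characters
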