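import Mathlib
import Cfsg.Agent.Lib.TwoFus.CyclicSylow

/-!
# The derived subgroup of a quaternion Sylow 2-subgroup and its normalizer
-/

set_option autoImplicit false
set_option linter.style.haveILetI false

namespace Cfsg.Lib.Characters.QD

open Subgroup QuaternionGroup

variable {m : ℕ}

theorem a_pow (c : ZMod (2 * m)) (j : ℕ) : (a c : QuaternionGroup m) ^ j = a ((j : ZMod (2 * m)) * c) := by
  induction j with
  | zero => rw [pow_zero, Nat.cast_zero, zero_mul, QuaternionGroup.one_def]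
  | succ j ih => rw [pow_succ, ih, a_mul_a]; congr 1; push_cast; ring

theorem inv_a (c : ZMod (2 * m)) : (a c : QuaternionGroup m)⁻¹ = a (-c) := rfl

theorem inv_xa (c : ZMod (2 * m)) : (xa c : QuaternionGroup m)⁻¹ = xa ((m : ZMod (2 * m)) + c) := rfl

theorem two_m : ((m : ZMod (2 * m))) + (m : ZMod (2 * m)) = 0 := by
  rw [← Nat.cast_add, ← two_mul, ZMod.natCast_self]

theorem a_double_mem [NeZero m] (k : ZMod (2 * m)) :
    a (2 * k) ∈ zpowers (a 2 : QuaternionGroup m) := by
  haveI : NeZero (2 * m) := ⟨by have := NeZero.ne m; omega⟩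
  refine mem_zpowers_iff.mpr ⟨(k.val : ℤ), ?_⟩
  rw [zpow_natCast, a_pow, ZMod.natCast_zmod_val, mul_comm]

theorem four_ne_zero' (hm : 4 ≤ m) : (4 : ZMod (2 * m)) ≠ 0 := by
  intro h
  have h' : ((4 : ℕ) : ZMod (2 * m)) = 0 := by exact_mod_cast h
  rw [ZMod.natCast_eq_zero_iff] at h'
  have := Nat.le_of_dvd (by norm_num) h'
  omega

theorem derived [NeZero m] :
    ⁅(⊤ : Subgroup (QuaternionGroup m)), (⊤ : Subgroup (QuaternionGroup m))⁆ =
      zpowers (a 2 : QuaternionGroup m) := by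
  refine le_antisymm (commutator_le.mpr fun p _ q _ => ?_) (zpowers_le.mpr ?_)
  · rw [commutatorElement_def]
    rcases p with i | i <;> rcases q with j | j
    · convert a_double_mem (0 : ZMod (2 * m)) using 1
      rw [inv_a, inv_a, a_mul_a, a_mul_a, a_mul_a]; congr 1; ring
    · convert a_double_mem i using 1
      rw [inv_a, inv_xa, a_mul_xa, xa_mul_a, xa_mul_xa]; congr 1
      linear_combination two_m (m := m)
    · convert a_double_mem (-j) using 1
      rw [inv_a, inv_xa, xa_mul_a, xa_mul_xa, a_mul_a]; congr 1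
      linear_combination two_m (m := m)
    · convert a_double_mem (j - i) using 1
      rw [inv_xa, inv_xa, xa_mul_xa, a_mul_xa, xa_mul_xa]; congr 1
      linear_combination two_m (m := m)
  · convert commutator_mem_commutator (mem_top (a 1 : QuaternionGroup m)) (mem_top (xa 0)) using 1
    rw [commutatorElement_def, inv_a, inv_xa, a_mul_xa, xa_mul_a, xa_mul_xa]
    congr 1
    linear_combination -two_m (m := m)

theorem commute_a_two_iff [NeZero m] (hm : 4 ≤ m) (q : QuaternionGroup m) :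
    Commute q (a 2) ↔ q ∈ zpowers (a 1) := by
  haveI : NeZero (2 * m) := ⟨by omega⟩
  rcases q with i | i
  · refine iff_of_true ?_ (mem_zpowers_iff.mpr ⟨(i.val : ℤ), ?_⟩)
    · show a i * a 2 = a 2 * a i
      rw [a_mul_a, a_mul_a, add_comm]
    · rw [zpow_natCast, a_one_pow, ZMod.natCast_zmod_val]
  · refine iff_of_false (fun h => ?_) fun h => ?_
    · have h' : xa i * a 2 = a 2 * xa i := h
      rw [xa_mul_a, a_mul_xa, QuaternionGroup.xa.injEq] at h'
      exact four_ne_zero' hm (by linear_combination h')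
    · rw [← mem_powers_iff_mem_zpowers, Submonoid.mem_powers_iff] at h
      obtain ⟨k, hk⟩ := h
      rw [a_one_pow] at hk
      cases hk

/-- In a finite cyclic subgroup, a divisor of the order of an element determines a subgroup of its
cyclic subgroup. -/
theorem eq_of_le_cyclic {G : Type*} [Group G] [Finite G] {A H K : Subgroup G} [IsCyclic A]
    (hH : H ≤ A) (hK : K ≤ A) (h : Nat.card H = Nat.card K) : H = K := by
  have e : H.subgroupOf A = K.subgroupOf A :=
    Cfsg.Lib.TwoFus.eq_of_card_eq_cyclic (by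
      rw [Nat.card_congr (subgroupOfEquivOfLe hH).toEquiv, Nat.card_congr (subgroupOfEquivOfLe hK).toEquiv, h])
  rwa [subgroupOf_inj, inf_eq_left.mpr hH, inf_eq_left.mpr hK] at e

/-- In a cyclic group, an element whose order is divisible by the order of a subgroup generates it. -/
theorem le_zpowers_of_dvd {G : Type*} [Group G] [Finite G] {A D : Subgroup G} [IsCyclic A]
    (hD : D ≤ A) {z : G} (hz : z ∈ A) (h : Nat.card D ∣ orderOf z) : D ≤ zpowers z := by
  obtain ⟨c, hc⟩ := h
  have hc0 : c ≠ 0 := fun h0 => by rw [h0, mul_zero] at hc; exact (orderOf_pos z).ne' hc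
  have ho : orderOf (z ^ c) = Nat.card D := by
    rw [orderOf_pow_of_dvd hc0 (hc ▸ dvd_mul_left _ _), hc, Nat.mul_div_cancel _ (Nat.pos_of_ne_zero hc0)]
  rw [eq_of_le_cyclic hD (zpowers_le.mpr (pow_mem hz c)) (by rw [Nat.card_zpowers, ho])]
  exact zpowers_le.mpr (pow_mem (mem_zpowers z) c)

section Setup

variable {G : Type*} [Group G] [Finite G]

/-- The basic facts. -/
theorem setup (S : Sylow 2 G) (n : ℕ) (e : (S : Subgroup G) ≃* QuaternionGroup (2 ^ (n + 2)))
    (D : Subgroup G) (hD : D = ⁅(S : Subgroup G), (S : Subgroup G)⁆) :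
    ∃ A : Subgroup G, A ≤ S ∧ IsCyclic A ∧ D ≤ A ∧ IsCyclic D ∧
      Nat.card D = 2 ^ (n + 2) ∧ Nat.card A = 2 * 2 ^ (n + 2) ∧
      Nat.card (S : Subgroup G) = 4 * 2 ^ (n + 2) ∧
      (S : Subgroup G) ≤ normalizer (D : Set G) ∧
      (S : Subgroup G) ⊓ centralizer (D : Set G) = A := by
  set m := 2 ^ (n + 2) with hm
  have hm4 : 4 ≤ m := by
    rw [hm, pow_succ, pow_succ]; have := Nat.one_le_two_pow (n := n); omega
  haveI : NeZero m := ⟨by omega⟩
  haveI : NeZero (2 * m) := ⟨by omega⟩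
  set f := (S : Subgroup G).subtype.comp e.symm.toMonoidHom with hf
  have hfi : Function.Injective f := (S : Subgroup G).subtype_injective.comp e.symm.injective
  have hfS : f.range = (S : Subgroup G) := by
    rw [hf, MonoidHom.range_comp, MonoidHom.range_eq_top.mpr e.symm.surjective, ← MonoidHom.range_eq_map,
      range_subtype]
  have hDz : D = zpowers (f (a 2)) := by
    rw [hD, ← hfS, MonoidHom.range_eq_map, ← map_commutator, derived, MonoidHom.map_zpowers]
  have hn : (S : Subgroup G) ≤ normalizer (D : Set G) := by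
    intro s hs
    rw [mem_normalizer_iff]
    obtain ⟨q, rfl⟩ := hfS.symm ▸ hs
    have hnormal : Subgroup.map f ⁅(⊤ : Subgroup (QuaternionGroup m)), (⊤ : Subgroup (QuaternionGroup m))⁆ = D := by
      rw [derived, MonoidHom.map_zpowers, hDz]
    intro x
    rw [← hnormal]
    constructor
    · rintro ⟨y, hy, rfl⟩
      exact ⟨q * y * q⁻¹, (commutator_normal ⊤ ⊤).conj_mem y hy q, by simp⟩
    · rintro ⟨y, hy, hyx⟩
      refine ⟨q⁻¹ * y * q, by simpa using (commutator_normal ⊤ ⊤).conj_mem y hy q⁻¹, ?_⟩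
      rw [map_mul, map_mul, map_inv, hyx]; group
  refine ⟨zpowers (f (a 1)), ?_, inferInstance, ?_, hDz ▸ inferInstance, ?_, ?_, ?_, hn, ?_⟩
  · rw [zpowers_le, ← hfS]; exact ⟨_, rfl⟩
  · rw [hDz, zpowers_le]
    refine mem_zpowers_iff.mpr ⟨2, ?_⟩
    rw [← map_zpow, show ((2 : ℤ)) = ((2 : ℕ) : ℤ) from rfl, zpow_natCast, a_pow, mul_one, Nat.cast_ofNat]
  · rw [hDz, Nat.card_zpowers, orderOf_injective f hfi]
    rw [show (2 : ZMod (2 * m)) = ((2 : ℕ) : ZMod (2 * m)) by norm_num, ← a_one_pow,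
      orderOf_pow_of_dvd two_ne_zero (by rw [orderOf_a_one]; exact dvd_mul_right 2 m), orderOf_a_one,
      Nat.mul_div_cancel_left _ two_pos]
  · rw [Nat.card_zpowers, orderOf_injective f hfi, orderOf_a_one]
  · rw [← hfS, ← Nat.card_congr (MonoidHom.ofInjective hfi).toEquiv, Nat.card_eq_fintype_card,
      QuaternionGroup.card]
  · ext x
    constructor
    · rintro ⟨hx, hc⟩
      obtain ⟨q, rfl⟩ := hfS.symm ▸ hx
      have h := (mem_centralizer_iff.mp hc) (f (a 2)) (hDz ▸ mem_zpowers _)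
      have hq : Commute q (a 2) := hfi (by rw [map_mul, map_mul]; exact h.symm)
      rw [← MonoidHom.map_zpowers]
      exact mem_map_of_mem f ((commute_a_two_iff hm4 q).mp hq)
    · intro hx
      rw [← MonoidHom.map_zpowers] at hx
      obtain ⟨q, hq, rfl⟩ := hx
      refine ⟨by rw [← hfS]; exact ⟨q, rfl⟩, mem_centralizer_iff.mpr fun d hd => ?_⟩
      rw [hDz] at hd
      obtain ⟨k, rfl⟩ := mem_zpowers_iff.mp hd
      exact ((((commute_a_two_iff hm4 q).mpr hq).map f).zpow_right k).eq.symm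

variable {S : Sylow 2 G} {D A : Subgroup G}

omit [Finite G] in
theorem centralizer_normal (D : Subgroup G) {g c : G} (hg : g ∈ normalizer (D : Set G))
    (hc : c ∈ centralizer (D : Set G)) : g * c * g⁻¹ ∈ centralizer (D : Set G) := by
  rw [mem_centralizer_iff] at hc ⊢
  intro d hd
  have hd' : g⁻¹ * d * g ∈ D := by
    have h := (mem_normalizer_iff.mp (inv_mem hg) d).mp hd
    simpa using h
  have h := hc _ hd'
  calc d * (g * c * g⁻¹) = g * ((g⁻¹ * d * g) * c) * g⁻¹ := by group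
    _ = g * (c * (g⁻¹ * d * g)) * g⁻¹ := by rw [h]
    _ = g * c * g⁻¹ * d := by group

/-- A 2-subgroup of the centralizer of `D` is conjugate into `A` under the normalizer. -/
theorem exists_conj_le (hSN : (S : Subgroup G) ≤ normalizer (D : Set G))
    (hSC : (S : Subgroup G) ⊓ centralizer (D : Set G) = A) {R : Subgroup G}
    (hR : IsPGroup 2 R) (hRC : R ≤ centralizer (D : Set G)) :
    ∃ g ∈ normalizer (D : Set G), R.map (MulAut.conj g).toMonoidHom ≤ A := by
  haveI : Fact (Nat.Prime 2) := ⟨Nat.prime_two⟩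
  set N := normalizer (D : Set G) with hN
  have hRN : R ≤ N := fun r hr => (hRC.trans (centralizer_le_normalizer _)) hr
  obtain ⟨T, hT⟩ := IsPGroup.exists_le_sylow (P := R.subgroupOf N)
    (hR.of_equiv (subgroupOfEquivOfLe hRN).symm)
  obtain ⟨g, hg⟩ := MulAction.exists_smul_eq N T (S.subtype hSN)
  refine ⟨g, g.2, ?_⟩
  rintro _ ⟨r, hr, rfl⟩
  rw [← hSC]
  refine ⟨?_, centralizer_normal D g.2 (hRC hr)⟩
  have hrT : (⟨r, hRN hr⟩ : N) ∈ T := hT (mem_subgroupOf.mpr hr)
  have h2 : g * ⟨r, hRN hr⟩ * g⁻¹ ∈ (g • T : Sylow 2 N).toSubgroup := by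
    rw [Sylow.coe_subgroup_smul, mem_pointwise_smul_iff_inv_smul_mem, MulAut.smul_def, ← map_inv,
      MulAut.conj_apply, inv_inv]
    rw [show g⁻¹ * (g * ⟨r, hRN hr⟩ * g⁻¹) * g = ⟨r, hRN hr⟩ by group]
    exact hrT
  rw [hg, Sylow.coe_subtype, mem_subgroupOf] at h2
  exact h2

theorem le_zpowers_of_mem (hSN : (S : Subgroup G) ≤ normalizer (D : Set G))
    (hSC : (S : Subgroup G) ⊓ centralizer (D : Set G) = A) [IsCyclic A] (hDA : D ≤ A) {k : ℕ}
    (hcard : Nat.card D = 2 ^ k) {y : G} (hy : y ∈ centralizer (D : Set G))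
    (hdvd : Nat.card D ∣ orderOf y) : D ≤ zpowers y := by
  haveI : Fact (Nat.Prime 2) := ⟨Nat.prime_two⟩
  obtain ⟨j, r, hr, hjr⟩ := Nat.exists_eq_pow_mul_and_not_dvd (orderOf_pos y).ne' 2 (by norm_num)
  have hr0 : r ≠ 0 := fun h => hr (h ▸ dvd_zero 2)
  have ho : orderOf (y ^ r) = 2 ^ j := by
    rw [orderOf_pow_of_dvd hr0 (hjr ▸ dvd_mul_left _ _), hjr, Nat.mul_div_cancel _ (Nat.pos_of_ne_zero hr0)]
  have hd2 : Nat.card D ∣ orderOf (y ^ r) := by
    rw [ho]
    refine Nat.Coprime.dvd_of_dvd_mul_right ?_ (hjr ▸ hdvd)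
    rw [hcard]
    exact (Nat.Coprime.pow_left k ((Nat.prime_two.coprime_iff_not_dvd).mpr hr))
  obtain ⟨g, hg, hle⟩ := exists_conj_le hSN hSC (R := zpowers (y ^ r))
    (IsPGroup.of_card (by rw [Nat.card_zpowers, ho])) (zpowers_le.mpr (pow_mem hy r))
  rw [MonoidHom.map_zpowers, zpowers_le] at hle
  have h := le_zpowers_of_dvd hDA hle (by
    rwa [orderOf_injective _ (MulAut.conj g).injective])
  intro d hd
  have hd' : g * d * g⁻¹ ∈ D := (mem_normalizer_iff.mp hg d).mp hd
  rw [← MonoidHom.map_zpowers] at h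
  obtain ⟨z, hz, hze⟩ := h hd'
  have : z = d := (MulAut.conj g).injective (by simpa using hze)
  subst this
  exact zpowers_le.mpr (pow_mem (mem_zpowers y) r) hz

end Setup

end Cfsg.Lib.Characters.QD

namespace Cfsg.Lib.Characters.QD

open Subgroup QuaternionGroup

/-- A generator of the cyclic part and an element inverting it. -/
theorem setup_inv {G : Type*} [Group G] [Finite G] (S : Sylow 2 G) (n : ℕ)
    (e : (S : Subgroup G) ≃* QuaternionGroup (2 ^ (n + 2)))
    (D : Subgroup G) (hD : D = ⁅(S : Subgroup G), (S : Subgroup G)⁆) :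
    ∃ a b : G, b ∈ (S : Subgroup G) ∧ a ∈ (S : Subgroup G) ⊓ centralizer (D : Set G) ∧
      orderOf a = 2 * 2 ^ (n + 2) ∧ b * a * b⁻¹ = a⁻¹ := by
  set m := 2 ^ (n + 2) with hm
  have hm4 : 4 ≤ m := by
    rw [hm, pow_succ, pow_succ]; have := Nat.one_le_two_pow (n := n); omega
  haveI : NeZero m := ⟨by omega⟩
  set f := (S : Subgroup G).subtype.comp e.symm.toMonoidHom with hf
  have hfi : Function.Injective f := (S : Subgroup G).subtype_injective.comp e.symm.injective
  have hfS : f.range = (S : Subgroup G) := by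
    rw [hf, MonoidHom.range_comp, MonoidHom.range_eq_top.mpr e.symm.surjective, ← MonoidHom.range_eq_map,
      range_subtype]
  refine ⟨f (a 1), f (xa 0), by rw [← hfS]; exact ⟨_, rfl⟩, ⟨by rw [← hfS]; exact ⟨_, rfl⟩, ?_⟩,
    by rw [orderOf_injective f hfi, orderOf_a_one], ?_⟩
  · refine mem_centralizer_iff.mpr fun d hd => ?_
    rw [hD, ← hfS, MonoidHom.range_eq_map, ← map_commutator, derived, MonoidHom.map_zpowers] at hd
    obtain ⟨k, rfl⟩ := mem_zpowers_iff.mp hd
    exact ((((commute_a_two_iff hm4 (a 1)).mpr (mem_zpowers _)).map f).zpow_right k).eq.symm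
  · rw [← map_inv f (xa 0), ← map_inv f (a 1), ← map_mul, ← map_mul, inv_xa, inv_a, xa_mul_a,
      xa_mul_xa]
    congr 2
    linear_combination two_m (m := m)

end Cfsg.Lib.Characters.QD
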