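import Mathlib
import Cfsg.Agent.Lib.Characters.Brauer

/-!
# Realising representations over a cyclotomic field
-/

set_option autoImplicit false
set_option linter.style.haveILetI false
set_option linter.unusedSectionVars false

open Module Representation

universe u

namespace Cfsg.Lib.Characters.Realization

section general

variable {G : Type u} [Group G] [Finite G] {k : Type*} [Field k] [CharZero k]

theorem semisimple {V : Type*} [AddCommGroup V] [Module k V] (ρ : Representation k G V) :
    ρ.IsSemisimpleRepresentation := by
  haveI : NeZero (Nat.card G : k) := ⟨Nat.cast_ne_zero.mpr Nat.card_pos.ne'⟩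
  rw [Representation.isSemisimpleRepresentation_iff_isSemisimpleModule_asModule]
  infer_instance

theorem exists_compl {V : Type*} [AddCommGroup V] [Module k V] {ρ : Representation k G V} (s : Subrepresentation ρ) :
    ∃ t : Subrepresentation ρ, IsCompl s.toSubmodule t.toSubmodule := by
  haveI := semisimple ρ
  obtain ⟨t, ht⟩ := exists_isCompl s
  exact ⟨t, disjoint_iff.mpr (congrArg Subrepresentation.toSubmodule ht.inf_eq_bot),
    codisjoint_iff.mpr (congrArg Subrepresentation.toSubmodule ht.sup_eq_top)⟩

theorem character_of_compl {V : Type*} [AddCommGroup V] [Module k V] [FiniteDimensional k V] (ρ : Representation k G V)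
    {s t : Subrepresentation ρ} (h : IsCompl s.toSubmodule t.toSubmodule) (g : G) :
    ρ.character g = s.toRepresentation.character g + t.toRepresentation.character g := by
  let e := Submodule.prodEquivOfIsCompl _ _ h
  have hcomm : e.conj ((s.toRepresentation g).prodMap (t.toRepresentation g)) = ρ g := by
    ext v
    obtain ⟨x, rfl⟩ := e.surjective v
    simp [LinearEquiv.conj_apply, e, Submodule.coe_prodEquivOfIsCompl', Subrepresentation.toRepresentation]
  simp only [Representation.character]
  rw [← hcomm, LinearMap.trace_conj']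
  exact LinearMap.trace_prodMap' _ _

/-- Splitting along a map. -/
theorem exists_split {V W : Type*} [AddCommGroup V] [Module k V] [FiniteDimensional k V] [AddCommGroup W] [Module k W]
    [FiniteDimensional k W] {ρ : Representation k G V} {σ : Representation k G W} (f : IntertwiningMap ρ σ) :
    ∃ (t : Subrepresentation ρ) (u : Subrepresentation σ),
      IsCompl f.ker.toSubmodule t.toSubmodule ∧ IsCompl f.range.toSubmodule u.toSubmodule ∧
      ∃ e : t.toSubmodule ≃ₗ[k] f.range.toSubmodule, ∀ (g : G) (x : t.toSubmodule),
        e (t.toRepresentation g x) = f.range.toRepresentation g (e x) := by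
  obtain ⟨t, ht⟩ := exists_compl f.ker
  obtain ⟨u, hu⟩ := exists_compl f.range
  let F : t.toSubmodule →ₗ[k] f.range.toSubmodule :=
    (f.toLinearMap.comp t.toSubmodule.subtype).codRestrict f.range.toSubmodule fun x => ⟨(x : V), rfl⟩
  have hF : Function.Bijective F := by
    constructor
    · refine (injective_iff_map_eq_zero F).2 fun x hx => Subtype.ext ?_
      have h1 : (x : V) ∈ f.ker.toSubmodule ⊓ t.toSubmodule := ⟨congrArg Subtype.val hx, x.2⟩
      rw [ht.inf_eq_bot] at h1
      exact h1
    · rintro ⟨y, hy⟩
      obtain ⟨v, rfl⟩ := hy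
      have hv : v ∈ f.ker.toSubmodule ⊔ t.toSubmodule := by rw [ht.sup_eq_top]; trivial
      obtain ⟨a, ha, b, hb, rfl⟩ := Submodule.mem_sup.1 hv
      refine ⟨⟨b, hb⟩, Subtype.ext ?_⟩
      show f.toLinearMap b = f.toLinearMap (a + b)
      rw [map_add, show f.toLinearMap a = 0 from ha, zero_add]
  refine ⟨t, u, ht, hu, LinearEquiv.ofBijective F hF, fun g x => Subtype.ext ?_⟩
  exact LinearMap.congr_fun (f.isIntertwining' g) (x : V)

theorem char_eq_of_equivariant {V W : Type*} [AddCommGroup V] [Module k V] [AddCommGroup W] [Module k W]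
    {ρ : Representation k G V} {σ : Representation k G W} (e : V ≃ₗ[k] W) (he : ∀ g x, e (ρ g x) = σ g (e x)) (g : G) :
    ρ.character g = σ.character g := by
  have : σ g = e.conj (ρ g) := LinearMap.ext fun y => by
    obtain ⟨x, rfl⟩ := e.surjective y
    simp [LinearEquiv.conj_apply, he]
  simp only [Representation.character]
  rw [this, LinearMap.trace_conj']

theorem exists_fin {V : Type*} [AddCommGroup V] [Module k V] [FiniteDimensional k V] (ρ : Representation k G V) :
    ∃ σ : Representation k G (Fin (finrank k V) → k), ∀ g, σ.character g = ρ.character g := by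
  let e : V ≃ₗ[k] (Fin (finrank k V) → k) := (finBasis k V).equivFun
  refine ⟨{ toFun := fun g => e.conj (ρ g)
            map_one' := by simp [LinearEquiv.conj_apply, Module.End.one_eq_id]
            map_mul' := fun a b => by rw [map_mul]; ext x; simp [LinearEquiv.conj_apply] }, fun g => ?_⟩
  show LinearMap.trace k _ (e.conj (ρ g)) = _
  rw [LinearMap.trace_conj']
  rfl

theorem exists_map_ne_zero {V W : Type*} [AddCommGroup V] [Module k V] [FiniteDimensional k V] [AddCommGroup W]
    [Module k W] [FiniteDimensional k W] (ρ : Representation k G V) (σ : Representation k G W)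
    (h : finrank k (IntertwiningMap ρ σ) ≠ 0) : ∃ f : IntertwiningMap ρ σ, f.toLinearMap ≠ 0 := by
  by_contra hh
  push Not at hh
  refine h ?_
  haveI : Subsingleton (IntertwiningMap ρ σ) := ⟨fun a b => by
    have ha := hh a
    have hb := hh b
    ext x
    show a.toLinearMap x = b.toLinearMap x
    rw [ha, hb]⟩
  exact finrank_zero_of_subsingleton

theorem finrank_self_ne_zero {V : Type*} [AddCommGroup V] [Module k V] [FiniteDimensional k V] (ρ : Representation k G V)
    (h : finrank k V ≠ 0) : finrank k (IntertwiningMap ρ ρ) ≠ 0 := by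
  intro h0
  haveI : Subsingleton (IntertwiningMap ρ ρ) := by
    exact finrank_zero_iff.1 h0
  have h2 : ∀ x : V, x = 0 := fun x =>
    congrArg (fun f : IntertwiningMap ρ ρ => f.toLinearMap x) (Subsingleton.elim (IntertwiningMap.id ρ) 0)
  haveI : Subsingleton V := ⟨fun a b => by rw [h2 a, h2 b]⟩
  exact h finrank_zero_of_subsingleton

/-- Representations with the same character are isomorphic. -/
theorem iso_of_char : ∀ (n : ℕ) {V W : Type*} [AddCommGroup V] [Module k V] [FiniteDimensional k V] [AddCommGroup W]
    [Module k W] [FiniteDimensional k W] (ρ : Representation k G V) (σ : Representation k G W),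
    finrank k V = n → (∀ g, ρ.character g = σ.character g) →
    ∃ e : V ≃ₗ[k] W, ∀ g x, e (ρ g x) = σ g (e x) := by
  intro n
  induction n using Nat.strong_induction_on with
  | _ n ih =>
    intro V W _ _ _ _ _ _ ρ σ hn hc
    classical
    haveI := Fintype.ofFinite G
    haveI : Invertible (Nat.card G : k) := invertibleOfNonzero (Nat.cast_ne_zero.mpr Nat.card_pos.ne')
    have hdim : finrank k V = finrank k W := by
      have := hc 1
      rw [char_one, char_one] at this
      exact_mod_cast this
    rcases Nat.eq_zero_or_pos n with rfl | hpos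
    · haveI : Subsingleton V := finrank_zero_iff.1 hn
      haveI : Subsingleton W := finrank_zero_iff.1 (hdim ▸ hn)
      exact ⟨LinearEquiv.ofSubsingleton V W, fun g x => Subsingleton.elim _ _⟩
    · have h1 : finrank k (IntertwiningMap ρ σ) ≠ 0 := by
        have a := card_inv_mul_sum_char_mul_char_eq_finrank ρ σ
        have b := card_inv_mul_sum_char_mul_char_eq_finrank ρ ρ
        simp only [← hc] at a
        rw [b] at a
        have hb := finrank_self_ne_zero ρ (by omega)
        intro h0
        rw [h0, Nat.cast_zero] at a
        exact hb (by exact_mod_cast a)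
      obtain ⟨f, hf⟩ := exists_map_ne_zero ρ σ h1
      obtain ⟨t, u, ht, hu, e, he⟩ := exists_split f
      have hker : finrank k f.ker.toSubmodule < n := by
        rw [← hn]
        refine Submodule.finrank_lt fun h => hf (LinearMap.ext fun x => ?_)
        exact (show x ∈ f.ker.toSubmodule from h ▸ Submodule.mem_top)
      obtain ⟨e', he'⟩ := ih _ hker f.ker.toRepresentation u.toRepresentation rfl (fun g => by
        have h2 := hc g
        rw [character_of_compl ρ ht, character_of_compl σ hu, char_eq_of_equivariant e he g,
          add_comm (f.ker.toRepresentation.character g)] at h2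
        exact add_left_cancel h2)
      let E : V ≃ₗ[k] W := (Submodule.prodEquivOfIsCompl _ _ ht).symm.trans
        ((e'.prodCongr e).trans ((LinearEquiv.prodComm k _ _).trans (Submodule.prodEquivOfIsCompl _ _ hu)))
      refine ⟨E, fun g x => ?_⟩
      obtain ⟨⟨a, b⟩, rfl⟩ := (Submodule.prodEquivOfIsCompl _ _ ht).surjective x
      have key : ρ g (Submodule.prodEquivOfIsCompl _ _ ht (a, b)) =
          Submodule.prodEquivOfIsCompl _ _ ht (f.ker.toRepresentation g a, t.toRepresentation g b) := by
        simp only [Submodule.coe_prodEquivOfIsCompl', map_add]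
        rfl
      rw [key]
      simp only [E, LinearEquiv.trans_apply, LinearEquiv.symm_apply_apply, LinearEquiv.prodCongr_apply,
        LinearEquiv.prodComm_apply, Prod.swap_prod_mk, he, he']
      simp only [Submodule.coe_prodEquivOfIsCompl', map_add]
      rfl

/-- A norm one difference of two representations is a representation. -/
theorem virtual_norm_one [Fintype G] : ∀ (w : ℕ) {v : ℕ} (ρ : Representation k G (Fin v → k)) (σ : Representation k G (Fin w → k)),
    w < v → (Nat.card G : k)⁻¹ * ∑ g : G, (ρ.character g - σ.character g) * (ρ.character g⁻¹ - σ.character g⁻¹) = 1 →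
    ∃ (n : ℕ) (τ : Representation k G (Fin n → k)), ∀ g, τ.character g = ρ.character g - σ.character g := by
  intro w
  induction w using Nat.strong_induction_on with
  | _ w ih =>
    intro v ρ σ hlt hnorm
    classical
    haveI : Invertible (Nat.card G : k) := invertibleOfNonzero (Nat.cast_ne_zero.mpr Nat.card_pos.ne')
    by_cases h0 : finrank k (IntertwiningMap ρ σ) = 0
    · have e : (finrank k (IntertwiningMap ρ ρ) : k) + finrank k (IntertwiningMap σ σ) -
          (finrank k (IntertwiningMap ρ σ) : k) - finrank k (IntertwiningMap σ ρ) = 1 := by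
        simp only [← card_inv_mul_sum_char_mul_char_eq_finrank]
        rw [← hnorm, ← mul_add, ← mul_sub, ← mul_sub, ← Finset.sum_add_distrib, ← Finset.sum_sub_distrib,
          ← Finset.sum_sub_distrib]
        congr 1
        exact Finset.sum_congr rfl fun g _ => by ring
      have hsym : (finrank k (IntertwiningMap σ ρ) : k) = finrank k (IntertwiningMap ρ σ) := by
        simp only [← card_inv_mul_sum_char_mul_char_eq_finrank]
        congr 1
        exact Fintype.sum_equiv (Equiv.inv G) _ _ fun g => by
          simp only [Equiv.inv_apply, inv_inv]; ring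
      rw [hsym, h0, Nat.cast_zero, sub_zero, sub_zero] at e
      have e' : finrank k (IntertwiningMap ρ ρ) + finrank k (IntertwiningMap σ σ) = 1 := by exact_mod_cast e
      have hv := finrank_self_ne_zero ρ (by simp; omega)
      have hw : w = 0 := by
        by_contra hw
        have := finrank_self_ne_zero σ (by simpa using hw)
        omega
      subst hw
      refine ⟨v, ρ, fun g => ?_⟩
      rw [show σ.character g = 0 from by
        show LinearMap.trace k _ (σ g) = 0
        rw [show σ g = 0 from LinearMap.ext fun x => Subsingleton.elim _ _, map_zero], sub_zero]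
    · obtain ⟨f, hf⟩ := exists_map_ne_zero ρ σ h0
      obtain ⟨t, u, ht, hu, e, he⟩ := exists_split f
      have hdV := Submodule.finrank_add_eq_of_isCompl ht
      have hdW := Submodule.finrank_add_eq_of_isCompl hu
      have hd := e.finrank_eq
      rw [Module.finrank_fin_fun] at hdV hdW
      have hpos : 0 < finrank k f.range.toSubmodule := by
        rw [pos_iff_ne_zero]
        intro h
        refine hf (LinearMap.ext fun x => ?_)
        have hm : f.toLinearMap x ∈ f.range.toSubmodule := ⟨x, rfl⟩
        rwa [Submodule.finrank_eq_zero.1 h, Submodule.mem_bot] at hm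
      obtain ⟨ρ', hρ'⟩ := exists_fin f.ker.toRepresentation
      obtain ⟨σ', hσ'⟩ := exists_fin u.toRepresentation
      have hdiff : ∀ g, ρ'.character g - σ'.character g = ρ.character g - σ.character g := fun g => by
        rw [hρ', hσ', character_of_compl ρ ht, character_of_compl σ hu, char_eq_of_equivariant e he g]
        ring
      obtain ⟨n, τ, hτ⟩ := ih _ (by omega) ρ' σ' (by omega) (by simpa only [hdiff] using hnorm)
      exact ⟨n, τ, fun g => by rw [hτ, hdiff]⟩

end general

section cyclotomic

variable {G : Type u} [Group G] [Fintype G] (K : IntermediateField ℚ ℂ)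

/-- Functions afforded by a representation over `K`. -/
def Real' (f : G → ℂ) : Prop :=
  ∃ (n : ℕ) (τ : Representation K G (Fin n → K)), ∀ g, f g = (τ.character g : ℂ)

theorem real_of_rep {V : Type*} [AddCommGroup V] [Module K V] [FiniteDimensional K V] (τ : Representation K G V)
    {f : G → ℂ} (h : ∀ g, f g = (τ.character g : ℂ)) : Real' K f := by
  obtain ⟨σ, hσ⟩ := exists_fin τ
  exact ⟨_, σ, fun g => by rw [h g, hσ]⟩

theorem real_zero : Real' K (0 : G → ℂ) :=
  ⟨0, (Representation.trivial K G (Fin 0 → K)), fun g => by
    rw [show (Representation.trivial K G (Fin 0 → K)).character g = 0 from by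
      show LinearMap.trace K _ _ = 0
      rw [show (Representation.trivial K G (Fin 0 → K)) g = 0 from LinearMap.ext fun x => Subsingleton.elim _ _, map_zero]]
    simp⟩

theorem real_add {a b : G → ℂ} (ha : Real' K a) (hb : Real' K b) : Real' K (a + b) := by
  obtain ⟨n, τ, hτ⟩ := ha
  obtain ⟨m, σ, hσ⟩ := hb
  refine real_of_rep K (V := (Fin n → K) × (Fin m → K))
    { toFun := fun g => (τ g).prodMap (σ g)
      map_one' := by rw [map_one, map_one]; rfl
      map_mul' := fun x y => by rw [map_mul, map_mul]; rfl } fun g => ?_
  show a g + b g = ((LinearMap.trace K _ ((τ g).prodMap (σ g)) : K) : ℂ)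
  rw [LinearMap.trace_prodMap', hτ, hσ]
  rfl

theorem real_monomial (E : Subgroup G) (lam : E →* ℂˣ) (hlam : ∀ e, (lam e : ℂ) ∈ K) :
    Real' K (indFun E fun e => (lam e : ℂ)) := by
  classical
  let l : E →* K :=
    { toFun := fun e => ⟨_, hlam e⟩
      map_one' := Subtype.ext (by simp)
      map_mul' := fun a b => Subtype.ext (by simp) }
  let L : G → K := fun y => if h : y ∈ E then l ⟨y, h⟩ else 0
  let M : G → Matrix (G ⧸ E) (G ⧸ E) K := fun g => Matrix.of fun i j => if g • j = i then L (i.out⁻¹ * g * j.out) else 0
  have hmem : ∀ (g : G) (j : G ⧸ E), (g • j).out⁻¹ * g * j.out ∈ E := fun g j => by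
    rw [mul_assoc, ← QuotientGroup.eq, QuotientGroup.out_eq']
    nth_rewrite 1 [← QuotientGroup.out_eq' j]
    rfl
  let P : G →* Matrix (G ⧸ E) (G ⧸ E) K :=
    { toFun := M
      map_one' := by
        ext i j
        simp only [M, Matrix.of_apply, Matrix.one_apply, one_smul, eq_comm (a := i)]
        by_cases h : j = i
        · subst h
          simp only [if_true, L, mul_one, inv_mul_cancel, E.one_mem, dif_pos]
          exact congrArg Subtype.val (map_one l)
        · simp [h]
      map_mul' := fun g h => by
        ext i j
        rw [Matrix.mul_apply, Finset.sum_eq_single (h • j)]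
        · simp only [M, Matrix.of_apply, if_true, mul_smul]
          by_cases hi : g • h • j = i
          · subst hi
            simp only [if_true]
            have e : (g • h • j).out⁻¹ * (g * h) * j.out =
                ((g • h • j).out⁻¹ * g * (h • j).out) * ((h • j).out⁻¹ * h * j.out) := by group
            simp only [L, e, dif_pos (E.mul_mem (hmem g (h • j)) (hmem h j)), dif_pos (hmem g (h • j)), dif_pos (hmem h j)]
            rw [← map_mul]; rfl
          · simp [hi]
        · intro l _ hl
          simp only [M, Matrix.of_apply, if_neg (Ne.symm hl), mul_zero]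
        · intro hh; exact absurd (Finset.mem_univ _) hh }
  let τ : Representation K G ((G ⧸ E) → K) := (Matrix.toLinAlgEquiv' (R := K) (n := G ⧸ E)).toMonoidHom.comp P
  refine real_of_rep K τ fun g => ?_
  show indFun E _ g = ((LinearMap.trace K _ (Matrix.toLin' (M g)) : K) : ℂ)
  rw [Matrix.trace_toLin'_eq, Matrix.trace]
  simp only [indFun, Matrix.diag, M, Matrix.of_apply, AddSubmonoidClass.coe_finsetSum]
  let F : (G ⧸ E) × E → G := fun x => x.1.out * x.2
  have hF : Function.Bijective F := by
    constructor
    · rintro ⟨i, a⟩ ⟨j, b⟩ h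
      have h' : ((i.out * a : G) : G ⧸ E) = ((j.out * b : G) : G ⧸ E) := congrArg _ h
      rw [QuotientGroup.mk_mul_of_mem _ a.2, QuotientGroup.mk_mul_of_mem _ b.2, QuotientGroup.out_eq',
        QuotientGroup.out_eq'] at h'
      subst h'
      exact Prod.ext rfl (Subtype.ext (mul_left_cancel h))
    · intro x
      obtain ⟨e, he⟩ := QuotientGroup.mk_out_eq_mul E x
      exact ⟨((x : G ⧸ E), e⁻¹), by simp [F, he]⟩
  rw [← Fintype.sum_bijective F hF _ _ (fun x => rfl), Fintype.sum_prod_type]
  rw [Finset.mul_sum]
  refine Finset.sum_congr rfl fun j _ => ?_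
  have hval : ∀ e : E, extendByZero E (fun e => (lam e : ℂ)) ((F (j, e))⁻¹ * g * F (j, e)) =
      ((if g • j = j then L (j.out⁻¹ * g * j.out) else 0 : K) : ℂ) := by
    intro e
    have hiff : j.out⁻¹ * g * j.out ∈ E ↔ g • j = j := by
      constructor
      · intro h
        nth_rewrite 1 [← QuotientGroup.out_eq' j]
        conv_rhs => rw [← QuotientGroup.out_eq' j]
        show ((g * j.out : G) : G ⧸ E) = _
        rw [eq_comm, QuotientGroup.eq, ← mul_assoc]; exact h
      · intro h
        have := hmem g j
        rwa [h] at this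
    rw [show (F (j, e))⁻¹ * g * F (j, e) = (e : G)⁻¹ * (j.out⁻¹ * g * j.out) * e by simp only [F]; group]
    by_cases h : g • j = j
    · rw [if_pos h, extendByZero_mem _ (E.mul_mem (E.mul_mem (E.inv_mem e.2) (hiff.2 h)) e.2)]
      simp only [L, dif_pos (hiff.2 h)]
      have : (⟨(e : G)⁻¹ * (j.out⁻¹ * g * j.out) * e, E.mul_mem (E.mul_mem (E.inv_mem e.2) (hiff.2 h)) e.2⟩ : E) =
          e⁻¹ * ⟨_, hiff.2 h⟩ * e := rfl
      rw [this, map_mul, map_mul, mul_comm, ← mul_assoc, ← map_mul, mul_inv_cancel, map_one, one_mul]
      rfl
    · rw [if_neg h, extendByZero_not_mem _ fun h' => h (hiff.1 ?_)]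
      · simp
      · have := E.mul_mem (E.mul_mem e.2 h') (E.inv_mem e.2)
        simpa [mul_assoc] using this
  simp only [hval, Finset.sum_const, Finset.card_univ, ← Nat.card_eq_fintype_card, nsmul_eq_mul]
  rw [← mul_assoc, inv_mul_cancel₀ (Nat.cast_ne_zero.mpr Nat.card_pos.ne'), one_mul]

theorem real_character (hK : ∀ z : ℂ, z ^ Monoid.exponent G = 1 → z ∈ K) {χ : G → ℂ} (hχ : IsCharacter G χ) :
    Real' K χ := by
  classical
  let S : AddSubgroup (G → ℂ) :=
    { carrier := {f | ∃ a b, Real' K a ∧ Real' K b ∧ f = a - b}
      zero_mem' := ⟨0, 0, real_zero K, real_zero K, by simp⟩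
      add_mem' := by
        rintro _ _ ⟨a, b, ha, hb, rfl⟩ ⟨c, d, hc, hd, rfl⟩
        exact ⟨a + c, b + d, real_add K ha hc, real_add K hb hd, by abel⟩
      neg_mem' := by
        rintro _ ⟨a, b, ha, hb, rfl⟩
        exact ⟨b, a, hb, ha, by abel⟩ }
  have hirr : ∀ ψ : G → ℂ, IsIrrCharacter G ψ → Real' K ψ := by
    intro ψ hψ
    obtain ⟨a, b, ⟨v, ρ, hρ⟩, ⟨w, σ, hσ⟩, hab⟩ := brauer_monomial hψ.isCharacter S fun E _ lam =>
      ⟨_, 0, real_monomial K E lam (fun e => hK _ (by
        rw [← Units.val_pow_eq_pow_val, ← map_pow, show e ^ Monoid.exponent G = 1 from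
          Subtype.ext (by rw [SubgroupClass.coe_pow, Monoid.pow_exponent_eq_one]; rfl), map_one, Units.val_one])),
        real_zero K, by simp⟩
    have hd : ∀ g, ψ g = ((ρ.character g - σ.character g : K) : ℂ) := fun g => by
      rw [hab, Pi.sub_apply, hρ, hσ]; rfl
    obtain ⟨d, hd0, hd1⟩ := hψ.exists_degree_pos
    have hlt : w < v := by
      have := hd 1
      rw [char_one, char_one, Module.finrank_fin_fun, Module.finrank_fin_fun, hd1] at this
      push_cast at this
      have : (d : ℂ) + w = v := by rw [this]; ring
      have h' : d + w = v := by exact_mod_cast this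
      omega
    obtain ⟨n, τ, hτ⟩ := virtual_norm_one w ρ σ hlt (Subtype.ext (by
      have h1 := classInner_irr_self hψ
      rw [classInner] at h1
      simp only [← char_inv_eq_conj hψ.isCharacter] at h1
      simp only [hd] at h1
      push_cast at h1 ⊢
      exact h1))
    exact ⟨n, τ, fun g => by rw [hd, hτ]⟩
  obtain ⟨m, hm⟩ := exists_decomposition hχ
  rw [hm]
  refine Finset.sum_induction _ (Real' K) (fun a b => real_add K) (real_zero K) fun i _ => ?_
  have hn : ∀ n : ℕ, Real' K (n • (i : G → ℂ)) := by
    intro n
    induction n with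
    | zero => simpa using real_zero K
    | succ n ih => rw [succ_nsmul]; exact real_add K ih (hirr _ i.2)
  simpa [← Nat.cast_smul_eq_nsmul ℂ] using hn (m i)

end cyclotomic

end Cfsg.Lib.Characters.Realization
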