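import Cfsg.Agent.Lib.Characters.EqualDegree
import Cfsg.Agent.Lib.Characters.ExtendOne
import Cfsg.Agent.Lib.Characters.Exceptional
import Cfsg.Agent.Lib.Characters.OddReal
import Cfsg.Agent.Lib.Characters.Degree

/-!
# Coherence for Frobenius groups of odd order whose kernel is a TI Sylow subgroup
-/

set_option autoImplicit false
set_option linter.style.haveILetI false
set_option linter.unusedSectionVars false

open scoped ComplexConjugate

namespace Cfsg.Lib.Characters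

open Cfsg Cfsg.Agent.S1516

universe u v

theorem norm_one_smul {G : Type*} [Group G] [Fintype G] {u w : G → ℂ}
    (hu : IsGeneralizedCharacter G u) (hw : IsGeneralizedCharacter G w) (hu1 : classInner u u = 1)
    (hw1 : classInner w w = 1) (h : classInner u w ≠ 0) :
    ∃ s : ℤ, (s = 1 ∨ s = -1) ∧ u = (s : ℂ) • w := by
  have irr : ∀ {f : G → ℂ}, IsGeneralizedCharacter G f → classInner f f = 1 →
      ∃ s : ℤ, (s = 1 ∨ s = -1) ∧ ∃ φ, IsIrrCharacter G φ ∧ f = (s : ℂ) • φ := by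
    intro f hf h1
    rcases isGeneralized_norm_one hf h1 with h | h
    · exact ⟨1, Or.inl rfl, f, h, by simp⟩
    · exact ⟨-1, Or.inr rfl, -f, h, by simp⟩
  obtain ⟨a, ha, φ, hφ, rfl⟩ := irr hu hu1
  obtain ⟨b, hb, ψ, hψ, rfl⟩ := irr hw hw1
  have hφψ : φ = ψ := by
    by_contra hne
    apply h
    rw [classInner_smul_left, classInner_smul_right, classInner_irr_ne hφ hψ hne, mul_zero, mul_zero]
  refine ⟨a * b, by rcases ha with rfl | rfl <;> rcases hb with rfl | rfl <;> simp, ?_⟩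
  rw [hφψ, smul_smul]
  congr 1
  rcases hb with rfl | rfl <;> simp

theorem conjVal_ne_self {L : Type*} [Group L] [Fintype L] (hodd : Odd (Nat.card L)) {χ : L → ℂ}
    (hχ : IsIrrCharacter L χ) (hne : χ ≠ fun _ => 1) : (fun g => conj (χ g)) ≠ χ := by
  intro h
  obtain ⟨d, hd⟩ := exists_degree hχ.isCharacter
  have hdodd : Odd d := Odd.of_dvd_nat hodd (degree_dvd_card hχ hd)
  have h1 := fs_eq_one_of_odd hχ (congrFun h) hd hdodd
  have hbij : Function.Bijective fun g : L => g * g := by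
    refine Finite.injective_iff_bijective.mp fun a b e => ?_
    obtain ⟨k, hk⟩ := hodd
    have key : ∀ a : L, (a * a) ^ (k + 1) = a := fun a => by
      rw [← pow_two, ← pow_mul, show 2 * (k + 1) = Nat.card L + 1 by omega, pow_succ, pow_card_eq_one',
        one_mul]
    calc a = (a * a) ^ (k + 1) := (key a).symm
      _ = (b * b) ^ (k + 1) := by rw [show a * a = b * b from e]
      _ = b := key b
  rw [hbij.sum_comp] at h1
  have h0 : classInner χ (fun _ => 1) = 0 := classInner_irr_ne hχ isIrrCharacter_one hne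
  rw [classInner] at h0
  simp only [map_one, mul_one] at h0
  rw [h0] at h1
  exact zero_ne_one h1

theorem isCoherent_subset {L : Type u} [Group L] [Fintype L] {G : Type v} [Group G] [Fintype G]
    {S T : Set (L → ℂ)} {A : Set L} {τ : (L → ℂ) → G → ℂ} (h : IsCoherent S A τ) (hTS : T ⊆ S)
    (hne : ∃ α ∈ zspanOn T A, α ≠ 0) : IsCoherent T A τ := by
  obtain ⟨-, τ₁, ⟨h1, h2, h3, h4⟩, hagree⟩ := h
  have hsp : zspan T ≤ zspan S := Submodule.span_mono hTS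
  exact ⟨hne, τ₁, ⟨fun a ha b hb => h1 a (hsp ha) b (hsp hb), fun a ha => h2 a (hsp ha),
    fun a ha b hb => h3 a (hsp ha) b (hsp hb), fun a ha => h4 a (hsp ha)⟩,
    fun a ha => hagree a ⟨hsp ha.1, ha.2⟩⟩

/-- A family of images compatible with a linear map gives coherence. -/
theorem coherent_of_images {L : Type u} [Group L] [Fintype L] {G : Type v} [Group G] [Fintype G]
    (F : Finset (L → ℂ)) (hirr : ∀ φ ∈ F, IsIrrCharacter L φ) (τ : (L → ℂ) →ₗ[ℂ] (G → ℂ))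
    {ψ : L → ℂ} (hψ : ψ ∈ F) (a : (L → ℂ) → ℕ) (ha : ∀ φ ∈ F, φ 1 = (a φ : ℂ) * ψ 1)
    (hne : ∃ φ ∈ F, φ ≠ ψ) (X : (L → ℂ) → G → ℂ) (hXg : ∀ φ ∈ F, IsGeneralizedCharacter G (X φ))
    (hXX : ∀ φ ∈ F, ∀ φ' ∈ F, classInner (X φ) (X φ') = classInner φ φ')
    (hXτ : ∀ φ ∈ F, τ (φ - (a φ : ℂ) • ψ) = X φ - (a φ : ℂ) • X ψ) :
    IsCoherent (↑F : Set (L → ℂ)) {1}ᶜ τ := by
  classical
  have ho : ∀ φ ∈ F, ∀ φ' ∈ F, φ ≠ φ' → classInner φ φ' = 0 := fun φ h φ' h' hn =>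
    classInner_irr_ne (hirr φ h) (hirr φ' h') hn
  have hn : ∀ φ ∈ F, classInner φ φ ≠ 0 := fun φ h => by
    rw [classInner_irr_self (hirr φ h)]; exact one_ne_zero
  refine ⟨?_, ext' F X, isometry_ext' ho hn X hXX hXg, fun f hf => ?_⟩
  · obtain ⟨φ, hφ, hφne⟩ := hne
    refine ⟨φ - (a φ : ℤ) • ψ, ⟨Submodule.sub_mem _ (Submodule.subset_span hφ)
      (Submodule.smul_mem _ _ (Submodule.subset_span hψ)), fun x hx => ?_⟩, fun h => ?_⟩
    · rw [show x = 1 by simpa using hx, Pi.sub_apply, Pi.smul_apply, ha φ hφ, zsmul_eq_mul]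
      push_cast; ring
    · have h1 := congrArg (fun g => classInner g φ) h
      simp only [classInner_sub_left, ← Int.cast_smul_eq_zsmul ℂ, classInner_smul_left,
        classInner_irr_self (hirr φ hφ), ho ψ hψ φ hφ (Ne.symm hφne), mul_zero, sub_zero,
        classInner_zero_left] at h1
      exact one_ne_zero h1
  · have hstep : ∀ g ∈ zspan (↑F : Set (L → ℂ)), ∃ c : ℂ, g 1 = c * ψ 1 ∧
        τ (g - c • ψ) = ext' F X g - c • X ψ := by
      intro g hg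
      induction hg using Submodule.span_induction with
      | mem φ hφ => exact ⟨a φ, ha φ hφ, by rw [ext'_apply ho hn X hφ]; exact hXτ φ hφ⟩
      | zero => exact ⟨0, by simp, by simp [ext'_zero]⟩
      | add g g' _ _ i1 i2 =>
        obtain ⟨c, hc, hc'⟩ := i1
        obtain ⟨c', hd, hd'⟩ := i2
        refine ⟨c + c', by simp [hc, hd, add_mul], ?_⟩
        rw [show g + g' - (c + c') • ψ = (g - c • ψ) + (g' - c' • ψ) by module, map_add, hc', hd',
          ext'_add]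
        module
      | smul m g _ i1 =>
        obtain ⟨c, hc, hc'⟩ := i1
        refine ⟨(m : ℂ) * c, by rw [Pi.smul_apply, hc, zsmul_eq_mul]; ring, ?_⟩
        rw [show m • g - ((m : ℂ) * c) • ψ = (m : ℂ) • (g - c • ψ) by
            rw [← Int.cast_smul_eq_zsmul ℂ]; module, map_smul, hc', ext'_zsmul,
          ← Int.cast_smul_eq_zsmul ℂ]
        module
    obtain ⟨c, hc, hc'⟩ := hstep f hf.1
    have h0 : c * ψ 1 = 0 := hc ▸ hf.2 1 (by simp)
    rw [(mul_eq_zero.mp h0).resolve_right (hirr ψ hψ).one_ne_zero] at hc'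
    simpa using hc'.symm

/-- Induction as a linear map. -/
noncomputable def indLin {G : Type*} [Group G] [Fintype G] (N : Subgroup G) :
    (N → ℂ) →ₗ[ℂ] (G → ℂ) where
  toFun := indFun N
  map_add' := indFun_add N
  map_smul' c f := indFun_smul N c f

variable {G : Type u} [Group G] [Fintype G] (N : Subgroup G) [Fintype N] (H : Subgroup N) [H.Normal]

set_option maxHeartbeats 3200000 in
/-- Sibley's coherence theorem for Frobenius groups with a nonabelian kernel of prime power order. -/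
theorem sibley [Fintype H] {p k : ℕ} (hp : p.Prime) (hp2 : p ≠ 2) (hodd : Odd (Nat.card N))
    (hH : Nat.card H = p ^ k) (hcop : ¬ p ∣ H.index)
    (hC : ∀ h ∈ H, h ≠ 1 → Subgroup.centralizer ({h} : Set N) ≤ H)
    (hTI : ∀ g : G, g ∉ N → ∀ t ∈ ((H.map N.subtype : Subgroup G) : Set G),
      g * t * g⁻¹ ∈ ((H.map N.subtype : Subgroup G) : Set G) → t = 1)
    (Z : Subgroup N) [Z.Normal] (hZd : Z ≤ ⁅H, H⁆) (hZc : ∀ z ∈ Z, ∀ h ∈ H, z * h = h * z) (hZ1 : Z ≠ ⊥)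
    (hcong : ∀ ξ : G → ℂ, IsIrrCharacter G ξ →
      (∀ z ∈ Z, ∀ z' ∈ Z, z ≠ 1 → z' ≠ 1 → ξ (z : G) = ξ (z' : G)) → ∀ z ∈ Z, z ≠ 1 →
        ∃ j : ℤ, ξ 1 - ξ (z : G) = (Nat.card H : ℂ) * j) :
    IsCoherent {χ : N → ℂ | IsIrrCharacter N χ ∧ ∃ h ∈ H, χ h ≠ χ 1} {1}ᶜ (indFun N) := by
  classical
  set e := H.index with he
  have he0 : 0 < e := Nat.pos_of_ne_zero Subgroup.index_ne_zero_of_finite
  have hZH : Z ≤ H := hZd.trans (Subgroup.commutator_le_left H H)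
  have hZcard : 1 < Nat.card Z := Subgroup.one_lt_card_iff_ne_bot _ |>.mpr hZ1
  set E : Finset (N → ℂ) := ((Finset.univ : Finset (IrrCharacter N)).image Subtype.val).filter
    fun χ => ∃ h ∈ H, χ h ≠ χ 1 with hE
  have hmemE : ∀ χ, χ ∈ E ↔ IsIrrCharacter N χ ∧ ∃ h ∈ H, χ h ≠ χ 1 := fun χ => by
    rw [hE, Finset.mem_filter, Finset.mem_image]
    exact ⟨fun ⟨⟨x, _, hx⟩, h⟩ => ⟨hx ▸ x.2, h⟩, fun ⟨h, h'⟩ => ⟨⟨⟨χ, h⟩, Finset.mem_univ _, rfl⟩, h'⟩⟩
  have hEset : ({χ : N → ℂ | IsIrrCharacter N χ ∧ ∃ h ∈ H, χ h ≠ χ 1} : Set (N → ℂ)) = ↑E :=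
    Set.ext fun χ => (hmemE χ).symm
  rw [hEset]
  have hirr : ∀ χ ∈ E, IsIrrCharacter N χ := fun χ h => ((hmemE χ).mp h).1
  have hexc : ∀ χ ∈ E, Exceptional.IsExc H χ := fun χ h => (hmemE χ).mp h
  choose! d hd using fun χ (h : χ ∈ E) => exists_degree (hirr χ h).isCharacter
  have hcls : ∀ χ ∈ E, IsClassFunction N χ := fun χ h => (hirr χ h).isClassFunction
  -- degrees
  have hdeg : ∀ χ ∈ E, ∃ t i : ℕ, t = p ^ i ∧ d χ = e * t ∧ t ^ 2 * Nat.card Z ∣ Nat.card H := by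
    intro χ hχ
    obtain ⟨θ, hθ, -, hχθ⟩ := Exceptional.exists_ind hC (hexc χ hχ)
    obtain ⟨t, ht⟩ := exists_degree hθ.isCharacter
    obtain ⟨i, -, hi⟩ := (Nat.dvd_prime_pow hp).mp (hH ▸ degree_dvd_card hθ ht)
    refine ⟨t, i, hi, ?_, ?_⟩
    · have := hd χ hχ
      rw [hχθ, indFun_one_apply, ht] at this
      rw [hχθ]
      exact_mod_cast this.symm
    · have hn : ∀ z ∈ Z.subgroupOf H, ‖θ z‖ = t := fun z hz =>
        norm_eq_of_mem_center hθ ht (Subgroup.mem_center_iff.mpr fun x =>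
          Subtype.ext (hZc _ hz (x : N) x.2).symm)
      have hsum : (Nat.card H : ℂ) = ∑ x : H, θ x * conj (θ x) := by
        have h1 := classInner_irr_self hθ
        rw [classInner, inv_mul_eq_one₀ (Nat.cast_ne_zero.mpr Nat.card_pos.ne')] at h1
        exact h1
      have hle : t ^ 2 * Nat.card Z ≤ Nat.card H := by
        have h2 : (Nat.card H : ℝ) = ∑ x : H, ‖θ x‖ ^ 2 := by
          have := congrArg Complex.re hsum
          rw [Complex.natCast_re, Complex.re_sum] at this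
          rw [this]
          exact Finset.sum_congr rfl fun x _ => by
            rw [Complex.mul_conj, Complex.ofReal_re, Complex.normSq_eq_norm_sq]
        have h3 : ∑ x ∈ Finset.univ.filter (fun x : H => x ∈ Z.subgroupOf H), ‖θ x‖ ^ 2 ≤
            (Nat.card H : ℝ) := h2 ▸ Finset.sum_le_sum_of_subset_of_nonneg (Finset.filter_subset _ _)
              (fun x _ _ => sq_nonneg _)
        rw [Finset.sum_congr rfl fun x hx => by rw [hn x (Finset.mem_filter.mp hx).2], Finset.sum_const,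
          ← Fintype.card_subtype, ← Nat.card_eq_fintype_card, nsmul_eq_mul,
          Nat.card_congr (Subgroup.subgroupOfEquivOfLe hZH).toEquiv] at h3
        rw [mul_comm]
        exact_mod_cast h3
      obtain ⟨j, -, hj⟩ := (Nat.dvd_prime_pow hp).mp (hH ▸ Subgroup.card_dvd_of_le hZH)
      rw [hi, hj, hH, ← pow_mul, ← pow_add] at hle ⊢
      exact pow_dvd_pow p ((Nat.pow_le_pow_iff_right hp.one_lt).mp hle)
  have hd0 : ∀ χ ∈ E, 0 < d χ := fun χ hχ => Nat.pos_of_ne_zero fun h0 =>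
    (hirr χ hχ).one_ne_zero (by rw [hd χ hχ, h0, Nat.cast_zero])
  -- conjugates
  have hconj : ∀ χ ∈ E, (fun g => conj (χ g)) ∈ E ∧ (fun g => conj (χ g)) ≠ χ ∧
      d (fun g => conj (χ g)) = d χ := by
    intro χ hχ
    obtain ⟨hi, h, hh, hne⟩ := (hmemE χ).mp hχ
    have hm : (fun g => conj (χ g)) ∈ E := (hmemE _).mpr ⟨isIrrCharacter_conjVal hi, h, hh,
      fun e => hne (star_injective e)⟩
    refine ⟨hm, conjVal_ne_self hodd hi (fun e => hne (by rw [e])), ?_⟩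
    have := hd _ hm
    simp only [hd χ hχ, map_natCast] at this
    exact_mod_cast this.symm
  -- the isometry
  have hvan : ∀ χ ∈ E, ∀ x : N, x ∉ H → χ x = 0 := fun χ h x hx => Exceptional.vanish hC (hexc χ h) hx
  have hsp : ∀ f ∈ zspan (↑E : Set (N → ℂ)), IsClassFunction N f ∧ (∀ x : N, x ∉ H → f x = 0) ∧
      IsGeneralizedCharacter G (indFun N f) := by
    intro f hf
    induction hf using Submodule.span_induction with
    | mem φ hφ => exact ⟨hcls φ hφ, hvan φ hφ,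
        isGeneralized_of_isCharacter (isCharacter_indFun N (hirr φ hφ).isCharacter)⟩
    | zero => exact ⟨fun _ _ => rfl, fun _ _ => rfl, by
        rw [show indFun N (0 : N → ℂ) = 0 from (indLin N).map_zero]
        exact ⟨0, 0, isCharacter_zero, isCharacter_zero, (sub_zero 0).symm⟩⟩
    | add f g _ _ i1 i2 => exact ⟨fun x y => by simp [i1.1 x y, i2.1 x y],
        fun x hx => by simp [i1.2.1 x hx, i2.2.1 x hx],
        by rw [indFun_add]; exact isGeneralized_add i1.2.2 i2.2.2⟩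
    | smul m f _ i1 => exact ⟨fun x y => by simp [i1.1 x y], fun x hx => by simp [i1.2.1 x hx],
        by rw [← Int.cast_smul_eq_zsmul ℂ, indFun_smul]; exact isGeneralized_zsmul i1.2.2 m⟩
  have hmapmem : ∀ x : N, (x : G) ∉ ((H.map N.subtype : Subgroup G) : Set G) → x ∉ H :=
    fun x hx h => hx ⟨x, h, rfl⟩
  have hτ : IsLinearIsometryOn (zspanOn (↑E : Set (N → ℂ)) {1}ᶜ) (indFun N) :=
    ⟨fun f _ g _ => indFun_add N f g,
      fun f _ m => by rw [← Int.cast_smul_eq_zsmul ℂ, indFun_smul, Int.cast_smul_eq_zsmul],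
      fun f hf g hg => classInner_indFun_ti hTI (fun x hx => (hsp f hf.1).2.1 x (hmapmem x hx))
        (hsp g hg.1).1 (fun x hx => (hsp g hg.1).2.1 x (hmapmem x hx)) (hf.2 1 (by simp)),
      fun f hf => (hsp f hf.1).2.2⟩
  have hτ1 : ∀ f ∈ zspanOn (↑E : Set (N → ℂ)) {1}ᶜ, indFun N f 1 = 0 := fun f hf => by
    rw [indFun_one_apply, hf.2 1 (by simp), mul_zero]
  have hmono : ∀ F : Finset (N → ℂ), F ⊆ E → ∀ f ∈ zspanOn (↑F : Set (N → ℂ)) {1}ᶜ,
      f ∈ zspanOn (↑E : Set (N → ℂ)) {1}ᶜ := fun F hF f hf =>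
    ⟨Submodule.span_mono (Finset.coe_subset.mpr hF) hf.1, hf.2⟩
  have hrest : ∀ F : Finset (N → ℂ), F ⊆ E →
      IsLinearIsometryOn (zspanOn (↑F : Set (N → ℂ)) {1}ᶜ) (indFun N) := fun F hF =>
    ⟨fun a ha b hb => hτ.1 a (hmono F hF a ha) b (hmono F hF b hb), fun a ha => hτ.2.1 a (hmono F hF a ha),
      fun a ha b hb => hτ.2.2.1 a (hmono F hF a ha) b (hmono F hF b hb),
      fun a ha => hτ.2.2.2 a (hmono F hF a ha)⟩
  have hpair : ∀ χ ∈ E, ∀ χ' ∈ E, ((d χ' : ℤ) • χ - (d χ : ℤ) • χ') ∈ zspanOn (↑E : Set (N → ℂ)) {1}ᶜ := by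
    intro χ h χ' h'
    refine ⟨Submodule.sub_mem _ (Submodule.smul_mem _ _ (Submodule.subset_span h))
      (Submodule.smul_mem _ _ (Submodule.subset_span h')), fun x hx => ?_⟩
    rw [show x = 1 by simpa using hx, Pi.sub_apply, Pi.smul_apply, Pi.smul_apply, hd χ h, hd χ' h',
      zsmul_eq_mul, zsmul_eq_mul]
    push_cast; ring
  -- the characters that are not trivial on `Z`
  set T := E.filter fun χ => ∃ z ∈ Z, χ z ≠ χ 1 with hT
  set S₁ := E.filter fun χ => d χ = e with hS₁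
  have hTE : T ⊆ E := Finset.filter_subset _ _
  have hS1E : S₁ ⊆ E := Finset.filter_subset _ _
  have hdisj : ∀ χ ∈ T, ∀ t : ℕ, d χ = e * t → 1 < t := by
    intro χ hχ t ht
    rw [hT, Finset.mem_filter] at hχ
    obtain ⟨hχE, z, hz, hzne⟩ := hχ
    by_contra hle
    have : t ≠ 0 := fun h0 => (hd0 χ hχE).ne' (by rw [ht, h0, mul_zero])
    obtain ⟨θ, hθ, -, hχθ⟩ := Exceptional.exists_ind hC (hexc χ hχE)
    have hθ1 : θ 1 = 1 := by
      have h := hd χ hχE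
      rw [ht, show t = 1 by omega, mul_one, hχθ, indFun_one_apply, ← he] at h
      exact mul_left_cancel₀ (Nat.cast_ne_zero.mpr he0.ne') (h.trans (mul_one _).symm)
    obtain ⟨l, hl⟩ := exists_hom_of_degree_one hθ.isCharacter hθ1
    have hker : ∀ x : N, ∀ hx : x ∈ Z, θ ⟨x, hZH hx⟩ = 1 := by
      intro x hx
      have hc : (⟨x, hZH hx⟩ : H) ∈ commutator H := by
        have h1 : ⁅H, H⁆ = (commutator H).map H.subtype := by
          rw [commutator_def, Subgroup.map_commutator, ← MonoidHom.range_eq_map, Subgroup.range_subtype]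
        obtain ⟨w, hw, hwx⟩ := h1 ▸ hZd hx
        rwa [show (⟨x, hZH hx⟩ : H) = w from Subtype.ext hwx.symm]
      rw [hl]
      simp only [MonoidHom.mem_ker.mp (Abelianization.commutator_subset_ker l hc), Units.val_one]
    apply hzne
    rw [hχθ, indFun_one_apply, hθ1, mul_one, indFun, Finset.sum_congr rfl fun x _ => show
      extendByZero H θ (x⁻¹ * z * x) = 1 by
        have hzx : x⁻¹ * z * x ∈ Z := by simpa using Subgroup.Normal.conj_mem inferInstance z hz x⁻¹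
        rw [extendByZero_mem θ (hZH hzx)]
        exact hker _ hzx, Finset.sum_const, Finset.card_univ, nsmul_eq_mul, mul_one,
      ← Nat.card_eq_fintype_card, ← H.card_mul_index, Nat.cast_mul, ← mul_assoc,
      inv_mul_cancel₀ (Nat.cast_ne_zero.mpr Nat.card_pos.ne'), one_mul]
  -- the sum of the squares of the degrees over `T`
  set K := ∑ χ ∈ T, d χ ^ 2 with hK
  have hKR : ∃ R : ℕ, R + K = Nat.card N ∧ R * Nat.card Z = Nat.card N := by
    choose dd hdd using fun ξ : IrrCharacter N => exists_degree ξ.2.isCharacter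
    set U := Finset.univ.filter fun ξ : IrrCharacter N => ∃ z ∈ Z, (ξ : N → ℂ) z ≠ (ξ : N → ℂ) 1
    have hUK : ∑ ξ ∈ U, dd ξ ^ 2 = K := by
      refine Finset.sum_bij (fun ξ _ => (ξ : N → ℂ)) (fun ξ hξ => ?_)
        (fun a _ b _ h => Subtype.ext h) (fun χ hχ => ?_) (fun ξ hξ => ?_)
      · obtain ⟨z, hz, hne⟩ := (Finset.mem_filter.mp hξ).2
        exact Finset.mem_filter.mpr ⟨(hmemE _).mpr ⟨ξ.2, z, hZH hz, hne⟩, z, hz, hne⟩
      · rw [hT, Finset.mem_filter] at hχ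
        exact ⟨⟨χ, hirr χ hχ.1⟩, Finset.mem_filter.mpr ⟨Finset.mem_univ _, hχ.2⟩, rfl⟩
      · obtain ⟨z, hz, hne⟩ := (Finset.mem_filter.mp hξ).2
        have hm : (ξ : N → ℂ) ∈ E := (hmemE _).mpr ⟨ξ.2, z, hZH hz, hne⟩
        have : (dd ξ : ℂ) = (d (ξ : N → ℂ) : ℂ) := by rw [← hdd, hd _ hm]
        rw [Nat.cast_inj.mp this]
    have hsum : ∑ ξ, dd ξ ^ 2 = Nat.card N := by
      have := sum_sq_degree (G := N)
      simp only [hdd] at this
      exact_mod_cast this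
    refine ⟨∑ ξ ∈ Finset.univ.filter (fun ξ : IrrCharacter N => ¬ ∃ z ∈ Z, (ξ : N → ℂ) z ≠ (ξ : N → ℂ) 1),
      dd ξ ^ 2, ?_, ?_⟩
    · rw [← hUK, add_comm, Finset.sum_filter_add_sum_filter_not, hsum]
    · let _ : Fintype Z := Fintype.ofFinite Z
      have h1 : ∑ z : Z, ∑ ξ : IrrCharacter N, (ξ : N → ℂ) 1 * (ξ : N → ℂ) (z : N) = (Nat.card N : ℂ) := by
        rw [Finset.sum_congr rfl fun (z : Z) _ => sum_degree_mul_irr (G := N) (z : N),
          Finset.sum_eq_single (1 : Z)]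
        · simp
        · intro z _ hz
          rw [if_neg (fun h : (z : N) = 1 => hz (Subtype.ext h))]
        · exact fun h => absurd (Finset.mem_univ _) h
      have h2 : ∀ ξ : IrrCharacter N, ∑ z : Z, (ξ : N → ℂ) (z : N) =
          if ∃ z ∈ Z, (ξ : N → ℂ) z ≠ (ξ : N → ℂ) 1 then 0 else (Nat.card Z : ℂ) * (dd ξ : ℂ) := by
        intro ξ
        split_ifs with hne
        · have h0 : classInner (fun z : Z => (ξ : N → ℂ) z) (fun _ => 1) = 0 := by
            by_contra h0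
            obtain ⟨z, hz, hzne⟩ := hne
            have hcl := clifford ξ.2 isIrrCharacter_one h0
            have horb : orbitFinset Z (fun _ : Z => (1 : ℂ)) = {fun _ => 1} := by
              ext φ
              rw [mem_orbitFinset, Finset.mem_singleton]
              exact ⟨fun ⟨g, hg⟩ => hg, fun h => ⟨1, h⟩⟩
            rw [horb, Finset.sum_singleton] at hcl
            have e1 := congrFun hcl ⟨z, hz⟩
            have e2 := congrFun hcl 1
            simp only [Pi.smul_apply, OneMemClass.coe_one] at e1 e2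
            exact hzne (e1.trans e2.symm)
          simp only [classInner, map_one, mul_one] at h0
          exact (mul_eq_zero.mp h0).resolve_left (inv_ne_zero (Nat.cast_ne_zero.mpr Nat.card_pos.ne'))
        · push Not at hne
          rw [Finset.sum_congr rfl fun (z : Z) _ => hne z z.2, Finset.sum_const, Finset.card_univ, nsmul_eq_mul,
            hdd, Nat.card_eq_fintype_card]
      rw [Finset.sum_comm, Finset.sum_congr rfl fun (ξ : IrrCharacter N) _ => show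
        ∑ z : Z, (ξ : N → ℂ) 1 * (ξ : N → ℂ) (z : N) = (dd ξ : ℂ) *
          (if ∃ z ∈ Z, (ξ : N → ℂ) z ≠ (ξ : N → ℂ) 1 then 0 else (Nat.card Z : ℂ) * (dd ξ : ℂ)) from
          (Finset.mul_sum _ _ _).symm.trans ((congrArg _ (h2 ξ)).trans (congrArg (· * _) (hdd ξ))),
        ← Finset.sum_filter_add_sum_filter_not (s := (Finset.univ : Finset (IrrCharacter N)))
          (p := fun ξ => ∃ z ∈ Z, (ξ : N → ℂ) z ≠ (ξ : N → ℂ) 1),
        Finset.sum_congr rfl fun ξ hξ => by rw [if_pos (Finset.mem_filter.mp hξ).2, mul_zero],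
        Finset.sum_const_zero, zero_add,
        Finset.sum_congr rfl fun ξ hξ => show (dd ξ : ℂ) *
          (if ∃ z ∈ Z, (ξ : N → ℂ) z ≠ (ξ : N → ℂ) 1 then 0 else (Nat.card Z : ℂ) * (dd ξ : ℂ)) =
            ((dd ξ ^ 2 * Nat.card Z : ℕ) : ℂ) by
          rw [if_neg (Finset.mem_filter.mp hξ).2]; push_cast; ring] at h1
      rw [Finset.sum_mul]
      exact_mod_cast h1
  obtain ⟨R, hRK, hRZ⟩ := hKR
  have hcopi : ∀ i, Nat.Coprime (p ^ i) e := fun i =>
    Nat.Coprime.pow_left i ((Nat.Prime.coprime_iff_not_dvd hp).mpr hcop)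
  have hKdvd : ∀ χ ∈ E, d χ ^ 2 ∣ K := by
    intro χ hχ
    obtain ⟨t, i, hti, hdt, hdiv⟩ := hdeg χ hχ
    have h1 : e ^ 2 ∣ K := Finset.dvd_sum fun ξ hξ => by
      obtain ⟨t', -, -, hdt', -⟩ := hdeg ξ (hTE hξ)
      rw [hdt', mul_pow]; exact dvd_mul_right _ _
    have h2 : t ^ 2 ∣ K := by
      obtain ⟨c, hc⟩ := hdiv
      have hR : t ^ 2 ∣ R := by
        refine ⟨c * e, Nat.eq_of_mul_eq_mul_right (show 0 < Nat.card Z by omega) ?_⟩
        rw [hRZ, ← H.card_mul_index, ← he, hc]; ring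
      have hN : t ^ 2 ∣ Nat.card N := hR.trans (hRZ ▸ dvd_mul_right _ _)
      rw [← hRK] at hN
      exact (Nat.dvd_add_right hR).mp hN
    rw [hdt, mul_pow]
    refine Nat.Coprime.mul_dvd_of_dvd_of_dvd ?_ h1 h2
    rw [hti]
    exact Nat.Coprime.pow _ _ (hcopi i).symm
  have hKpos : 0 < K := by
    by_contra h0
    have : R = Nat.card N := by omega
    rw [this] at hRZ
    have hNpos : 0 < Nat.card N := Nat.card_pos
    nlinarith
  obtain ⟨χ₀, hχ₀T, hmin⟩ := Finset.exists_min_image T d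
    (Finset.nonempty_of_ne_empty fun h => by rw [hK, h, Finset.sum_empty] at hKpos; omega)
  have hdle : ∀ χ ∈ E, ∀ ξ ∈ E, d χ ≤ d ξ → d χ ∣ d ξ := by
    intro χ hχ ξ hξ hle
    obtain ⟨t, i, hti, hdt, -⟩ := hdeg χ hχ
    obtain ⟨t', i', hti', hdt', -⟩ := hdeg ξ hξ
    rw [hdt, hdt'] at hle ⊢
    rw [hti, hti'] at hle ⊢
    exact Nat.mul_dvd_mul_left e (pow_dvd_pow p
      ((Nat.pow_le_pow_iff_right hp.one_lt).mp (Nat.le_of_mul_le_mul_left hle he0)))
  have hlower : ∀ χ ∈ T, d χ₀ < d χ → d χ ^ 2 ≤ ∑ ξ ∈ T.filter (fun ξ => d ξ < d χ), d ξ ^ 2 := by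
    intro χ hχ hlt
    have hsplit := Finset.sum_filter_add_sum_filter_not (s := T) (fun ξ => d ξ < d χ) (fun ξ => d ξ ^ 2)
    have h1 : d χ ^ 2 ∣ ∑ ξ ∈ T.filter (fun ξ => ¬ d ξ < d χ), d ξ ^ 2 := Finset.dvd_sum fun ξ hξ => by
      rw [Finset.mem_filter] at hξ
      exact pow_dvd_pow_of_dvd (hdle χ (hTE hχ) ξ (hTE hξ.1) (by omega)) 2
    have h2 : d χ ^ 2 ∣ ∑ ξ ∈ T.filter (fun ξ => d ξ < d χ), d ξ ^ 2 :=
      (Nat.dvd_add_left h1).mp (hsplit ▸ hKdvd χ (hTE hχ))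
    refine Nat.le_of_dvd ?_ h2
    refine lt_of_lt_of_le (show 0 < d χ₀ ^ 2 from pow_pos (hd0 _ (hTE hχ₀T)) 2) ?_
    exact Finset.single_le_sum (f := fun ξ => d ξ ^ 2) (fun _ _ => Nat.zero_le _)
      (Finset.mem_filter.mpr ⟨hχ₀T, hlt⟩)
  have hp3 : 3 ≤ p := by have := hp.two_le; omega
  -- coherence of `T`
  have hTcoh : ∀ n : ℕ, ∀ F : Finset (N → ℂ), F.card = n → F ⊆ T →
      T.filter (fun ξ => d ξ = d χ₀) ⊆ F → (∀ χ ∈ F, ∀ ξ ∈ T, d ξ < d χ → ξ ∈ F) →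
      IsCoherent (↑F : Set (N → ℂ)) {1}ᶜ (indFun N) := by
    intro n
    induction n using Nat.strong_induction_on with
    | _ n ih =>
    intro F hn hFT hF0 hclosed
    have hχ₀F : χ₀ ∈ F := hF0 (Finset.mem_filter.mpr ⟨hχ₀T, rfl⟩)
    obtain ⟨χ, hχF, hmax⟩ := Finset.exists_max_image F d ⟨χ₀, hχ₀F⟩
    by_cases hall : d χ = d χ₀
    · refine coherent_equal_degree F (fun φ h => hirr φ (hTE (hFT h))) (fun φ h φ' h' => ?_) ?_ _
        (hrest F (hFT.trans hTE)) (fun f hf => hτ1 f (hmono F (hFT.trans hTE) f hf))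
      · have a1 := hmax φ h
        have a2 := hmin φ (hFT h)
        have b1 := hmax φ' h'
        have b2 := hmin φ' (hFT h')
        rw [hd φ (hTE (hFT h)), hd φ' (hTE (hFT h')), show d φ = d φ' by omega]
      · obtain ⟨hc1, hc2, hc3⟩ := hconj χ₀ (hTE hχ₀T)
        have hmem : (fun g => conj (χ₀ g)) ∈ T := by
          obtain ⟨z, hz, hne⟩ := (Finset.mem_filter.mp hχ₀T).2
          exact Finset.mem_filter.mpr ⟨hc1, z, hz, fun e => hne (star_injective e)⟩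
        exact Finset.one_lt_card.mpr ⟨_, hF0 (Finset.mem_filter.mpr ⟨hmem, hc3⟩), χ₀, hχ₀F, hc2⟩
    have hlt : d χ₀ < d χ := lt_of_le_of_ne (hmin χ (hFT hχF)) (Ne.symm hall)
    have hins : insert χ (F.erase χ) = F := Finset.insert_erase hχF
    have hcoh := ih _ (by rw [← hn]; exact Finset.card_erase_lt_of_mem hχF) (F.erase χ) rfl
      ((Finset.erase_subset _ _).trans hFT)
      (fun ξ hξ => Finset.mem_erase.mpr
        ⟨fun h => hall (h ▸ (Finset.mem_filter.mp hξ).2), hF0 hξ⟩)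
      (fun φ hφ ξ hξ hl => Finset.mem_erase.mpr
        ⟨fun h => by have := hmax φ (Finset.mem_of_mem_erase hφ); rw [h] at hl; omega,
          hclosed φ (Finset.mem_of_mem_erase hφ) ξ hξ hl⟩)
    rw [← hins]
    refine extend_one (F.erase χ) χ (fun φ h => hirr φ (hTE (hFT (Finset.mem_of_mem_erase h))))
      (hirr χ (hTE (hFT hχF))) (Finset.notMem_erase _ _) d
      (fun φ h => hd φ (hTE (hFT (hins ▸ h)))) _ (hins.symm ▸ hrest F (hFT.trans hTE))
      (fun f hf => hτ1 f (hmono F (hFT.trans hTE) f (hins ▸ hf))) hcoh χ₀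
      (Finset.mem_erase.mpr ⟨fun h => hall (by rw [h]), hχ₀F⟩)
      (hdle _ (hTE hχ₀T) _ (hTE (hFT hχF)) hlt.le) ?_
    refine lt_of_lt_of_le ?_ ((hlower χ (hFT hχF) hlt).trans (Finset.sum_le_sum_of_subset fun ξ hξ => ?_))
    · obtain ⟨t, i, hti, hdt, -⟩ := hdeg χ (hTE (hFT hχF))
      obtain ⟨t₀, i₀, hti₀, hdt₀, -⟩ := hdeg χ₀ (hTE hχ₀T)
      have h3 : 3 * t₀ ≤ t := by
        rw [hdt, hdt₀] at hlt
        have h4 := Nat.lt_of_mul_lt_mul_left hlt
        rw [hti, hti₀] at h4 ⊢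
        have := (Nat.pow_lt_pow_iff_right hp.one_lt).mp h4
        calc 3 * p ^ i₀ ≤ p * p ^ i₀ := Nat.mul_le_mul_right _ hp3
          _ = p ^ (i₀ + 1) := (pow_succ' p i₀).symm
          _ ≤ p ^ i := Nat.pow_le_pow_right hp.pos this
      have : 3 * d χ₀ ≤ d χ := by rw [hdt, hdt₀]; nlinarith
      have := hd0 χ₀ (hTE hχ₀T)
      nlinarith
    · rw [Finset.mem_filter] at hξ
      exact Finset.mem_erase.mpr ⟨fun h => by rw [h] at hξ; omega, hclosed χ hχF ξ hξ.1 hξ.2⟩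
  obtain ⟨-, τ₂, hτ₂, hagree₂⟩ := hTcoh _ T rfl subset_rfl (Finset.filter_subset _ _) fun _ _ ξ h _ => h
  -- coherence of the linear part
  have htwo : 2 ≤ S₁.card := by
    have hsolv : Group.IsSolvable H := by
      have : Fact p.Prime := ⟨hp⟩
      have : Group.IsNilpotent H := (IsPGroup.of_card hH).isNilpotent
      infer_instance
    have : Nontrivial H := by
      obtain ⟨⟨z, hz⟩, hz1⟩ := Subgroup.ne_bot_iff_exists_ne_one.mp hZ1
      exact ⟨⟨z, hZH hz⟩, 1, fun h => hz1 (Subtype.ext (congrArg Subtype.val h :))⟩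
    have hlin : 1 < (commutator H).index := by
      have h := Group.IsSolvable.commutator_lt_top_of_nontrivial H
      have h0 := Subgroup.index_ne_zero_of_finite (H := commutator H)
      by_contra hcon
      exact h.ne (Subgroup.index_eq_one.mp (by omega))
    rw [← card_linear_irr, Finite.one_lt_card_iff_nontrivial] at hlin
    obtain ⟨⟨θ, hθ⟩, hθne⟩ := exists_ne
      (⟨⟨fun _ => 1, isIrrCharacter_one⟩, rfl⟩ : {χ : IrrCharacter H // (χ : H → ℂ) 1 = 1})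
    have hne1 : (θ : H → ℂ) ≠ fun _ => 1 := fun h => hθne (Subtype.ext (Subtype.ext h))
    have hm : indFun H (θ : H → ℂ) ∈ E := (hmemE _).mpr (Exceptional.isExc_indFun hC θ.2 hne1)
    have hde : d (indFun H (θ : H → ℂ)) = e := by
      have h := hd _ hm
      rw [indFun_one_apply, hθ, mul_one] at h
      exact_mod_cast h.symm
    obtain ⟨hc1, hc2, hc3⟩ := hconj _ hm
    exact Finset.one_lt_card.mpr ⟨_, Finset.mem_filter.mpr ⟨hc1, hc3.trans hde⟩, _,
      Finset.mem_filter.mpr ⟨hm, hde⟩, hc2⟩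
  obtain ⟨-, τ₁, hτ₁, hagree₁⟩ := coherent_equal_degree S₁ (fun φ h => hirr φ (hS1E h))
    (fun φ h φ' h' => by
      rw [hd φ (hS1E h), hd φ' (hS1E h'), (Finset.mem_filter.mp h).2, (Finset.mem_filter.mp h').2])
    htwo _ (hrest S₁ hS1E) (fun f hf => hτ1 f (hmono S₁ hS1E f hf))
  have hsub1 : ∀ φ ∈ S₁, φ ∈ zspan (↑S₁ : Set (N → ℂ)) := fun φ h => Submodule.subset_span h
  have hsub2 : ∀ φ ∈ T, φ ∈ zspan (↑T : Set (N → ℂ)) := fun φ h => Submodule.subset_span h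
  have hX1 : ∀ φ ∈ S₁, classInner (τ₁ φ) (τ₁ φ) = 1 := fun φ h => by
    rw [hτ₁.2.2.1 _ (hsub1 φ h) _ (hsub1 φ h), classInner_irr_self (hirr φ (hS1E h))]
  have hY1 : ∀ φ ∈ T, classInner (τ₂ φ) (τ₂ φ) = 1 := fun φ h => by
    rw [hτ₂.2.2.1 _ (hsub2 φ h) _ (hsub2 φ h), classInner_irr_self (hirr φ (hTE h))]
  have hd₁ : ∀ φ ∈ S₁, d φ = e := fun φ h => (Finset.mem_filter.mp h).2
  have hS1T : ∀ φ ∈ S₁, φ ∉ T := fun φ h h' =>
    (hdisj φ h' 1 (by rw [hd₁ φ h, mul_one])).ne rfl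
  have hsub₁ : ∀ φ ∈ S₁, ∀ φ' ∈ S₁, indFun N (φ - φ') = τ₁ φ - τ₁ φ' := by
    intro φ h φ' h'
    rw [← hagree₁ _ ⟨Submodule.sub_mem _ (hsub1 φ h) (hsub1 φ' h'), fun x hx => by
      rw [show x = 1 by simpa using hx, Pi.sub_apply, hd φ (hS1E h), hd φ' (hS1E h'), hd₁ φ h, hd₁ φ' h',
        sub_self]⟩]
    rw [eq_sub_iff_add_eq, ← hτ₁.1 _ (Submodule.sub_mem _ (hsub1 φ h) (hsub1 φ' h')) _ (hsub1 φ' h'),
      sub_add_cancel]
  have hsub₂ : ∀ χ ∈ T, ∀ χ' ∈ T, indFun N ((d χ' : ℤ) • χ - (d χ : ℤ) • χ') =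
      (d χ' : ℂ) • τ₂ χ - (d χ : ℂ) • τ₂ χ' := by
    intro χ h χ' h'
    have m1 : (d χ' : ℤ) • χ ∈ zspan (↑T : Set (N → ℂ)) := Submodule.smul_mem _ _ (hsub2 χ h)
    have m2 : (d χ : ℤ) • χ' ∈ zspan (↑T : Set (N → ℂ)) := Submodule.smul_mem _ _ (hsub2 χ' h')
    rw [← hagree₂ _ ⟨Submodule.sub_mem _ m1 m2, (hpair χ (hTE h) χ' (hTE h')).2⟩, eq_sub_iff_add_eq,
      show (d χ : ℂ) • τ₂ χ' = τ₂ ((d χ : ℤ) • χ') by
        rw [hτ₂.2.1 _ (hsub2 χ' h'), ← Int.cast_smul_eq_zsmul ℂ, Int.cast_natCast],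
      show (d χ' : ℂ) • τ₂ χ = τ₂ ((d χ' : ℤ) • χ) by
        rw [hτ₂.2.1 _ (hsub2 χ h), ← Int.cast_smul_eq_zsmul ℂ, Int.cast_natCast],
      ← hτ₂.1 _ (Submodule.sub_mem _ m1 m2) _ m2, sub_add_cancel]
  have hne0 : ∀ {f : G → ℂ}, IsGeneralizedCharacter G f → classInner f f = 1 → f 1 ≠ 0 := by
    intro f hf h1 h0
    rcases isGeneralized_norm_one hf h1 with h | h
    · exact h.one_ne_zero h0
    · exact h.one_ne_zero (by rw [Pi.neg_apply, h0, neg_zero])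
  -- the images of the linear part are orthogonal to differences coming from `T`
  have hperp : ∀ φ ∈ S₁, ∀ χ ∈ T, ∀ χ' ∈ T,
      classInner (τ₁ φ) ((d χ' : ℂ) • τ₂ χ - (d χ : ℂ) • τ₂ χ') = 0 := by
    intro φ hφ χ hχ χ' hχ'
    obtain ⟨φ', hφ', hφne⟩ := Finset.exists_mem_ne htwo φ
    set g := (d χ' : ℂ) • τ₂ χ - (d χ : ℂ) • τ₂ χ' with hg
    have hD : classInner (τ₁ φ) g = classInner (τ₁ φ') g := by
      rw [← sub_eq_zero, ← classInner_sub_left, ← hsub₁ φ hφ φ' hφ', hg, ← hsub₂ χ hχ χ' hχ']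
      have hm : φ - φ' ∈ zspanOn (↑E : Set (N → ℂ)) {1}ᶜ :=
        ⟨Submodule.sub_mem _ (Submodule.subset_span (hS1E hφ)) (Submodule.subset_span (hS1E hφ')),
          fun x hx => by rw [show x = 1 by simpa using hx, Pi.sub_apply, hd φ (hS1E hφ), hd φ' (hS1E hφ'),
            hd₁ φ hφ, hd₁ φ' hφ', sub_self]⟩
      rw [hτ.2.2.1 _ hm _ (hpair χ (hTE hχ) χ' (hTE hχ'))]
      have o : ∀ a ∈ S₁, ∀ b ∈ T, classInner a b = 0 := fun a ha b hb =>
        classInner_irr_ne (hirr a (hS1E ha)) (hirr b (hTE hb)) fun h => hS1T a ha (h ▸ hb)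
      simp only [classInner_sub_left, classInner_sub_right, ← Int.cast_smul_eq_zsmul ℂ,
        classInner_smul_right, o φ hφ χ hχ, o φ hφ χ' hχ', o φ' hφ' χ hχ, o φ' hφ' χ' hχ', mul_zero, sub_zero]
    by_cases hχχ : χ = χ'
    · rw [hg, hχχ, sub_self, classInner_zero_right]
    by_contra hne
    set u := τ₁ φ
    set w := τ₁ φ'
    have hu := hτ₁.2.2.2 _ (hsub1 φ hφ)
    have hw := hτ₁.2.2.2 _ (hsub1 φ' hφ')
    have huw : classInner u w = 0 := by
      rw [hτ₁.2.2.1 _ (hsub1 φ hφ) _ (hsub1 φ' hφ'),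
        classInner_irr_ne (hirr φ (hS1E hφ)) (hirr φ' (hS1E hφ')) hφne.symm]
    have hy := hτ₂.2.2.2 _ (hsub2 χ hχ)
    have hy' := hτ₂.2.2.2 _ (hsub2 χ' hχ')
    have hyy' : classInner (τ₂ χ) (τ₂ χ') = 0 := by
      rw [hτ₂.2.2.1 _ (hsub2 χ hχ) _ (hsub2 χ' hχ'),
        classInner_irr_ne (hirr χ (hTE hχ)) (hirr χ' (hTE hχ')) hχχ]
    have hcase : ∀ v : G → ℂ, IsGeneralizedCharacter G v → classInner v v = 1 → classInner v g ≠ 0 →
        ∃ s : ℤ, (s = 1 ∨ s = -1) ∧ (v = (s : ℂ) • τ₂ χ ∧ classInner v g = (s : ℂ) * d χ' ∨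
          v = (s : ℂ) • τ₂ χ' ∧ classInner v g = -((s : ℂ) * d χ)) := by
      intro v hv hv1 hvg
      by_cases h : classInner v (τ₂ χ) = 0
      · by_cases h' : classInner v (τ₂ χ') = 0
        · exact absurd (by rw [hg, classInner_sub_right, classInner_smul_right, classInner_smul_right,
            h, h', mul_zero, mul_zero, sub_zero]) hvg
        · obtain ⟨s, hs, hv'⟩ := norm_one_smul hv hy' hv1 (hY1 χ' hχ') h'
          refine ⟨s, hs, Or.inr ⟨hv', ?_⟩⟩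
          rw [hg, classInner_sub_right, classInner_smul_right, classInner_smul_right, h, hv',
            classInner_smul_left, hY1 χ' hχ', map_natCast, map_natCast]
          ring
      · obtain ⟨s, hs, hv'⟩ := norm_one_smul hv hy hv1 (hY1 χ hχ) h
        refine ⟨s, hs, Or.inl ⟨hv', ?_⟩⟩
        rw [hg, classInner_sub_right, classInner_smul_right, classInner_smul_right, hv',
          classInner_smul_left, classInner_smul_left, hY1 χ hχ, hyy', map_natCast]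
        ring
    have hvals : (indFun N (φ - φ')) 1 = 0 ∧ g 1 = 0 := by
      refine ⟨?_, ?_⟩
      · rw [indFun_one_apply, Pi.sub_apply, hd φ (hS1E hφ), hd φ' (hS1E hφ'), hd₁ φ hφ, hd₁ φ' hφ', sub_self, mul_zero]
      · rw [hg, ← hsub₂ χ hχ χ' hχ']
        exact hτ1 _ (hpair χ (hTE hχ) χ' (hTE hχ'))
    have hdeq : u 1 = w 1 := by
      have := hvals.1
      rwa [hsub₁ φ hφ φ' hφ', Pi.sub_apply, sub_eq_zero] at this
    have hg1 := hvals.2
    rw [hg, Pi.sub_apply, Pi.smul_apply, Pi.smul_apply, smul_eq_mul, smul_eq_mul, sub_eq_zero] at hg1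
    have hdp : (d χ : ℂ) ≠ 0 := Nat.cast_ne_zero.mpr (hd0 χ (hTE hχ)).ne'
    have hdp' : (d χ' : ℂ) ≠ 0 := Nat.cast_ne_zero.mpr (hd0 χ' (hTE hχ')).ne'
    have hy0 := hne0 hy (hY1 χ hχ)
    have hy0' := hne0 hy' (hY1 χ' hχ')
    have hs0 : ∀ s : ℤ, s = 1 ∨ s = -1 → (s : ℂ) ≠ 0 := fun s hs => by
      rcases hs with rfl | rfl <;> simp
    obtain ⟨s, hs, hcu⟩ := hcase u hu (hX1 φ hφ) hne
    obtain ⟨s', hs', hcw⟩ := hcase w hw (hX1 φ' hφ') (hD ▸ hne)
    have horth : ∀ (a b : ℤ) (y : G → ℂ), classInner y y = 1 → (a = 1 ∨ a = -1) → (b = 1 ∨ b = -1) →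
        classInner ((a : ℂ) • y) ((b : ℂ) • y) ≠ 0 := by
      intro a b y hy ha hb
      rw [classInner_smul_left, classInner_smul_right, hy, mul_one, map_intCast]
      exact mul_ne_zero (hs0 a ha) (hs0 b hb)
    rcases hcu with ⟨eu, cu⟩ | ⟨eu, cu⟩ <;> rcases hcw with ⟨ew, cw⟩ | ⟨ew, cw⟩
    · exact horth s s' _ (hY1 χ hχ) hs hs' (eu ▸ ew ▸ huw)
    · rw [hD, cw] at cu
      rw [eu, ew, Pi.smul_apply, Pi.smul_apply, smul_eq_mul, smul_eq_mul] at hdeq
      have hz : -((s' : ℤ) * d χ) = (s : ℤ) * d χ' := by exact_mod_cast cu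
      have q1 := hd0 χ (hTE hχ)
      obtain ⟨r1, r2⟩ : s' = -s ∧ d χ' = d χ := by
        rcases hs with rfl | rfl <;> rcases hs' with rfl | rfl <;> omega
      rw [r1, Int.cast_neg] at hdeq
      rw [r2] at hg1
      have h2 : (s : ℂ) * τ₂ χ 1 * (2 * d χ) = 0 := by linear_combination (d χ : ℂ) * hdeq + (s : ℂ) * hg1
      simp [hs0 s hs, hy0, hdp] at h2
    · rw [hD, cw] at cu
      rw [eu, ew, Pi.smul_apply, Pi.smul_apply, smul_eq_mul, smul_eq_mul] at hdeq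
      have hz : (s' : ℤ) * d χ' = -((s : ℤ) * d χ) := by exact_mod_cast cu
      have q1 := hd0 χ (hTE hχ)
      obtain ⟨r1, r2⟩ : s' = -s ∧ d χ' = d χ := by
        rcases hs with rfl | rfl <;> rcases hs' with rfl | rfl <;> omega
      rw [r1, Int.cast_neg] at hdeq
      rw [r2] at hg1
      have h2 : (s : ℂ) * τ₂ χ 1 * (2 * d χ) = 0 := by linear_combination (d χ : ℂ) * hdeq + (s : ℂ) * hg1
      simp [hs0 s hs, hy0, hdp] at h2
    · exact horth s s' _ (hY1 χ' hχ') hs hs' (eu ▸ ew ▸ huw)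
  -- multiplicities in the restrictions are proportional to the degrees
  have hprop : ∀ φ ∈ S₁, ∀ χ ∈ T, ∀ χ' ∈ T,
      classInner (fun x : N => τ₁ φ x) χ * (d χ' : ℂ) = classInner (fun x : N => τ₁ φ x) χ' * (d χ : ℂ) := by
    intro φ hφ χ hχ χ' hχ'
    have h := hperp φ hφ χ hχ χ' hχ'
    rw [← hsub₂ χ hχ χ' hχ', classInner_indFun_right N _
      (isGeneralized_isClassFunction (hτ₁.2.2.2 _ (hsub1 φ hφ))), classInner_sub_right,
      ← Int.cast_smul_eq_zsmul ℂ, ← Int.cast_smul_eq_zsmul ℂ, classInner_smul_right, classInner_smul_right,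
      map_intCast, map_intCast, Int.cast_natCast, Int.cast_natCast, sub_eq_zero] at h
    linear_combination h
  obtain ⟨t₀, i₀, hti₀, hdt₀, -⟩ := hdeg χ₀ (hTE hχ₀T)
  have ht₀ : 1 < t₀ := hdisj χ₀ hχ₀T t₀ hdt₀
  -- the congruence
  have hdivm : ∀ φ ∈ S₁, ∃ j : ℤ, classInner (fun x : N => τ₁ φ x) χ₀ = (t₀ : ℂ) * j := by
    intro φ hφ
    have hu := hτ₁.2.2.2 _ (hsub1 φ hφ)
    set f : N → ℂ := fun x => τ₁ φ x with hf
    have hfc : IsClassFunction N f := fun x y => by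
      simp only [hf]
      exact isGeneralized_isClassFunction hu (x : G) (y : G)
    have hexp := classFunction_expansion hfc
    set m₀ := classInner f χ₀
    have hval : ∀ z ∈ Z, z ≠ 1 → (d χ₀ : ℂ) * (f 1 - f z) = m₀ * (Nat.card N : ℂ) := by
      intro z hz hz1
      have hterm : ∀ ξ : IrrCharacter N, (d χ₀ : ℂ) * (classInner f ξ * ((ξ : N → ℂ) 1 - (ξ : N → ℂ) z)) =
          m₀ * ((ξ : N → ℂ) 1 * ((ξ : N → ℂ) 1 - (ξ : N → ℂ) z)) := by
        intro ξ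
        by_cases h0 : (ξ : N → ℂ) z = (ξ : N → ℂ) 1
        · rw [h0, sub_self]; simp
        have hξT : (ξ : N → ℂ) ∈ T :=
          Finset.mem_filter.mpr ⟨(hmemE _).mpr ⟨ξ.2, z, hZH hz, h0⟩, z, hz, h0⟩
        have := hprop φ hφ _ hξT χ₀ hχ₀T
        rw [← hd _ (hTE hξT)] at this
        linear_combination ((ξ : N → ℂ) 1 - (ξ : N → ℂ) z) * this
      have e1 : f 1 - f z = ∑ ξ : IrrCharacter N, classInner f ξ * ((ξ : N → ℂ) 1 - (ξ : N → ℂ) z) := by
        conv_lhs => rw [hexp]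
        simp [Finset.sum_apply, Pi.smul_apply, smul_eq_mul, mul_sub]
      rw [e1, Finset.mul_sum, Finset.sum_congr rfl fun ξ _ => hterm ξ, ← Finset.mul_sum]
      congr 1
      simp only [mul_sub, Finset.sum_sub_distrib]
      rw [sum_degree_mul_irr z, if_neg hz1, sub_zero, ← sum_sq_degree]
      exact Finset.sum_congr rfl fun ξ _ => by ring
    have hd0' : (d χ₀ : ℂ) ≠ 0 := Nat.cast_ne_zero.mpr (hd0 χ₀ (hTE hχ₀T)).ne'
    obtain ⟨⟨z, hz⟩, hz1⟩ := Subgroup.ne_bot_iff_exists_ne_one.mp hZ1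
    have hz1' : z ≠ 1 := fun h => hz1 (Subtype.ext h)
    have hall : ∀ z' ∈ Z, z' ≠ 1 → f z' = f z := fun z' hz' h' => by
      have := (hval z' hz' h').trans (hval z hz hz1').symm
      linear_combination -(mul_left_cancel₀ hd0' this)
    obtain ⟨j, hj⟩ : ∃ j : ℤ, f 1 - f z = (Nat.card H : ℂ) * j := by
      rcases isGeneralized_norm_one hu (hX1 φ hφ) with hi | hi
      · exact hcong _ hi (fun a ha b hb a1 b1 => (hall a ha a1).trans (hall b hb b1).symm) z hz hz1'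
      · obtain ⟨j, hj⟩ := hcong _ hi
          (fun a ha b hb a1 b1 => congrArg Neg.neg ((hall a ha a1).trans (hall b hb b1).symm)) z hz hz1'
        refine ⟨-j, ?_⟩
        simp only [hf, Pi.neg_apply, Subgroup.coe_one] at hj ⊢
        push_cast
        linear_combination -hj
    refine ⟨j, ?_⟩
    have h := hval z hz hz1'
    rw [hj, ← H.card_mul_index, ← he, hdt₀] at h
    have hH0 : (Nat.card H : ℂ) * (e : ℂ) ≠ 0 := mul_ne_zero (Nat.cast_ne_zero.mpr Nat.card_pos.ne')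
      (Nat.cast_ne_zero.mpr he0.ne')
    refine mul_right_cancel₀ hH0 ?_
    push_cast at h ⊢
    linear_combination -h
  obtain ⟨ψ₁, hψ₁⟩ := Finset.card_pos.mp (show 0 < S₁.card by omega)
  -- the image of `χ₀`
  set α : N → ℂ := χ₀ - (t₀ : ℂ) • ψ₁ with hα
  set Y := indFun N α with hY
  have hαmem : α ∈ zspanOn (↑E : Set (N → ℂ)) {1}ᶜ := by
    refine ⟨?_, fun x hx => ?_⟩
    · rw [hα, Nat.cast_smul_eq_nsmul, ← natCast_zsmul]
      exact Submodule.sub_mem _ (Submodule.subset_span (hTE hχ₀T))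
        (Submodule.smul_mem _ _ (Submodule.subset_span (hS1E hψ₁)))
    · rw [show x = 1 by simpa using hx, hα, Pi.sub_apply, Pi.smul_apply, smul_eq_mul, hd χ₀ (hTE hχ₀T),
        hd ψ₁ (hS1E hψ₁), hd₁ ψ₁ hψ₁, hdt₀]
      push_cast; ring
  have hYg : IsGeneralizedCharacter G Y := hτ.2.2.2 _ hαmem
  have o1 : ∀ φ ∈ S₁, classInner χ₀ φ = 0 := fun φ h =>
    classInner_irr_ne (hirr χ₀ (hTE hχ₀T)) (hirr φ (hS1E h)) fun e' => hS1T φ h (e' ▸ hχ₀T)
  have hYY : classInner Y Y = 1 + (t₀ : ℂ) ^ 2 := by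
    rw [hY, hτ.2.2.1 _ hαmem _ hαmem, hα]
    simp only [classInner_sub_left, classInner_sub_right, classInner_smul_left, classInner_smul_right]
    rw [classInner_irr_self (hirr χ₀ (hTE hχ₀T)), classInner_irr_self (hirr ψ₁ (hS1E hψ₁)), o1 ψ₁ hψ₁,
      classInner_irr_ne (hirr ψ₁ (hS1E hψ₁)) (hirr χ₀ (hTE hχ₀T)) (fun e' => hS1T ψ₁ hψ₁ (e' ▸ hχ₀T)),
      map_natCast]
    ring
  -- inner products with the linear images
  obtain ⟨a, ha⟩ := classInner_int hYg (hτ₁.2.2.2 _ (hsub1 ψ₁ hψ₁))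
  have hYX : ∀ φ ∈ S₁, φ ≠ ψ₁ → classInner Y (τ₁ φ) = (a : ℂ) + t₀ := by
    intro φ hφ hne
    have hm : φ - ψ₁ ∈ zspanOn (↑E : Set (N → ℂ)) {1}ᶜ :=
      ⟨Submodule.sub_mem _ (Submodule.subset_span (hS1E hφ)) (Submodule.subset_span (hS1E hψ₁)),
        fun x hx => by rw [show x = 1 by simpa using hx, Pi.sub_apply, hd φ (hS1E hφ), hd ψ₁ (hS1E hψ₁),
          hd₁ φ hφ, hd₁ ψ₁ hψ₁, sub_self]⟩
    have h := hτ.2.2.1 _ hαmem _ hm
    rw [hsub₁ φ hφ ψ₁ hψ₁, classInner_sub_right, ← hY, ha, hα] at h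
    simp only [classInner_sub_left, classInner_sub_right, classInner_smul_left] at h
    rw [o1 φ hφ, o1 ψ₁ hψ₁, classInner_irr_self (hirr ψ₁ (hS1E hψ₁)),
      classInner_irr_ne (hirr ψ₁ (hS1E hψ₁)) (hirr φ (hS1E hφ)) hne.symm] at h
    linear_combination h
  have hcomp : ∀ φ ∈ S₁, ∃ j : ℤ, classInner Y (τ₁ φ) = (t₀ : ℂ) * j := by
    intro φ hφ
    have hu := hτ₁.2.2.2 _ (hsub1 φ hφ)
    obtain ⟨j, hj⟩ := hdivm φ hφ
    have hres : IsGeneralizedCharacter N (fun x : N => τ₁ φ x) := by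
      obtain ⟨f₁, f₂, h1, h2, h3⟩ := hu
      exact ⟨fun x : N => f₁ x, fun x : N => f₂ x, isCharacter_restrict h1 N, isCharacter_restrict h2 N,
        funext fun x => congrFun h3 (x : G)⟩
    obtain ⟨i, hi⟩ := classInner_int hres (isGeneralized_of_isCharacter (hirr ψ₁ (hS1E hψ₁)).isCharacter)
    refine ⟨j - i, ?_⟩
    rw [← conj_classInner (τ₁ φ), hY, classInner_indFun_right N _ (isGeneralized_isClassFunction hu),
      hα, classInner_sub_right, classInner_smul_right, hj, hi]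
    simp only [map_sub, map_mul, map_natCast, map_intCast]
    push_cast
    ring
  obtain ⟨j₁, hj₁⟩ := hcomp ψ₁ hψ₁
  rw [ha] at hj₁
  -- a suitable choice of the linear images
  suffices hX : ∃ X : (N → ℂ) → G → ℂ, (∀ φ ∈ S₁, IsGeneralizedCharacter G (X φ)) ∧
      (∀ φ ∈ S₁, ∀ φ' ∈ S₁, classInner (X φ) (X φ') = classInner φ φ') ∧
      (∀ φ ∈ S₁, indFun N (φ - ψ₁) = X φ - X ψ₁) ∧
      ∀ φ ∈ S₁, classInner Y (X φ) = if φ = ψ₁ then -(t₀ : ℂ) else 0 by
    obtain ⟨X, hXg, hXX, hXd, hXY⟩ := hX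
    set X₀ := Y + (t₀ : ℂ) • X ψ₁ with hX₀
    let X' : (N → ℂ) → G → ℂ := fun φ => if φ = χ₀ then X₀ else X φ
    have hne₀ : ∀ φ ∈ S₁, φ ≠ χ₀ := fun φ h e' => hS1T φ h (e' ▸ hχ₀T)
    have hX'0 : X' χ₀ = X₀ := if_pos rfl
    have hX'1 : ∀ φ ∈ S₁, X' φ = X φ := fun φ h => if_neg (hne₀ φ h)
    have hX0X : ∀ φ ∈ S₁, classInner X₀ (X φ) = 0 := by
      intro φ h
      rw [hX₀, classInner_add_left, classInner_smul_left, hXY φ h, hXX ψ₁ hψ₁ φ h]
      split_ifs with hφ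
      · rw [hφ, classInner_irr_self (hirr ψ₁ (hS1E hψ₁))]; ring
      · rw [classInner_irr_ne (hirr ψ₁ (hS1E hψ₁)) (hirr φ (hS1E h)) (Ne.symm hφ)]; ring
    have hX00 : classInner X₀ X₀ = 1 := by
      rw [hX₀]
      simp only [classInner_add_left, classInner_add_right, classInner_smul_left, classInner_smul_right]
      rw [hYY, ← conj_classInner Y (X ψ₁), hXY ψ₁ hψ₁, if_pos rfl, hXX ψ₁ hψ₁ ψ₁ hψ₁,
        classInner_irr_self (hirr ψ₁ (hS1E hψ₁))]
      simp only [map_neg, map_natCast]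
      ring
    have hbase : IsCoherent (↑(insert χ₀ S₁) : Set (N → ℂ)) {1}ᶜ (indLin N) := by
      refine coherent_of_images (insert χ₀ S₁) ?_ (indLin N) (ψ := ψ₁) (Finset.mem_insert_of_mem hψ₁)
        (fun φ => if φ = χ₀ then t₀ else 1) ?_ ⟨χ₀, Finset.mem_insert_self _ _, (hne₀ ψ₁ hψ₁).symm⟩
        X' ?_ ?_ ?_
      · intro φ h
        rcases Finset.mem_insert.mp h with rfl | h
        exacts [hirr _ (hTE hχ₀T), hirr φ (hS1E h)]
      · intro φ h
        rcases Finset.mem_insert.mp h with rfl | h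
        · rw [if_pos rfl, hd _ (hTE hχ₀T), hd ψ₁ (hS1E hψ₁), hd₁ ψ₁ hψ₁, hdt₀]; push_cast; ring
        · rw [if_neg (hne₀ φ h), hd φ (hS1E h), hd ψ₁ (hS1E hψ₁), hd₁ φ h, hd₁ ψ₁ hψ₁]; simp
      · intro φ h
        rcases Finset.mem_insert.mp h with rfl | h
        · rw [hX'0, hX₀, ← Int.cast_natCast]
          exact isGeneralized_add hYg (isGeneralized_zsmul (hXg ψ₁ hψ₁) _)
        · rw [hX'1 φ h]; exact hXg φ h
      · intro φ h φ' h'
        rcases Finset.mem_insert.mp h with hh | hh <;> rcases Finset.mem_insert.mp h' with hh' | hh'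
        · rw [hh, hh', hX'0, hX00, classInner_irr_self (hirr χ₀ (hTE hχ₀T))]
        · rw [hh, hX'0, hX'1 φ' hh', hX0X φ' hh', o1 φ' hh']
        · rw [hh', hX'0, hX'1 φ hh, ← conj_classInner X₀, hX0X φ hh, map_zero,
            classInner_irr_ne (hirr φ (hS1E hh)) (hirr χ₀ (hTE hχ₀T)) (hne₀ φ hh)]
        · rw [hX'1 φ hh, hX'1 φ' hh', hXX φ hh φ' hh']
      · intro φ h
        rcases Finset.mem_insert.mp h with hh | hh
        · rw [hh, if_pos rfl, hX'0, hX'1 ψ₁ hψ₁, hX₀, add_sub_cancel_right, ← hα]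
          rfl
        · rw [if_neg (hne₀ φ hh), Nat.cast_one, one_smul, one_smul, hX'1 φ hh, hX'1 ψ₁ hψ₁]
          exact hXd φ hh
    -- add the remaining characters
    suffices h : ∀ n : ℕ, ∀ F : Finset (N → ℂ), F.card = n → insert χ₀ S₁ ⊆ F → F ⊆ E →
        (∀ χ ∈ F, χ ∉ insert χ₀ S₁ → χ ∈ T → ∀ ξ ∈ T, d ξ < d χ → ξ ∈ F) →
        (∀ χ ∈ F, χ ∉ insert χ₀ S₁ → χ ∉ T → T ⊆ F) →
        IsCoherent (↑F : Set (N → ℂ)) {1}ᶜ (indFun N) from
      h _ E rfl (Finset.insert_subset (hTE hχ₀T) hS1E) subset_rfl (fun _ _ _ _ ξ h _ => hTE h)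
        fun _ _ _ _ => hTE
    intro n
    induction n using Nat.strong_induction_on with
    | _ n ih =>
    intro F hn hBF hFE hcl hcl'
    by_cases hFB : F ⊆ insert χ₀ S₁
    · rw [subset_antisymm hFB hBF]; exact hbase
    obtain ⟨χ, hχF, hχB, hχmax⟩ : ∃ χ ∈ F, χ ∉ insert χ₀ S₁ ∧
        (χ ∈ T → (∀ ξ ∈ F, ξ ∉ insert χ₀ S₁ → ξ ∈ T ∧ d ξ ≤ d χ)) := by
      obtain ⟨x, hxF, hxB⟩ := Finset.not_subset.mp hFB
      by_cases hout : ∃ χ ∈ F, χ ∉ insert χ₀ S₁ ∧ χ ∉ T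
      · obtain ⟨χ, h1, h2, h3⟩ := hout
        exact ⟨χ, h1, h2, fun h => absurd h h3⟩
      push Not at hout
      obtain ⟨χ, hχ, hm⟩ := Finset.exists_max_image (F.filter fun ξ => ξ ∉ insert χ₀ S₁) d
        ⟨x, Finset.mem_filter.mpr ⟨hxF, hxB⟩⟩
      rw [Finset.mem_filter] at hχ
      exact ⟨χ, hχ.1, hχ.2, fun _ ξ h h' => ⟨hout ξ h h', hm ξ (Finset.mem_filter.mpr ⟨h, h'⟩)⟩⟩
    have hins : insert χ (F.erase χ) = F := Finset.insert_erase hχF
    have hcoh := ih _ (by rw [← hn]; exact Finset.card_erase_lt_of_mem hχF) (F.erase χ) rfl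
      (fun φ hφ => Finset.mem_erase.mpr ⟨fun h => hχB (h ▸ hφ), hBF hφ⟩)
      ((Finset.erase_subset _ _).trans hFE)
      (fun φ hφ hφB hφT ξ hξ hl => Finset.mem_erase.mpr ⟨fun h => by
        subst h
        have := (hχmax hξ φ (Finset.mem_of_mem_erase hφ) hφB).2
        omega, hcl φ (Finset.mem_of_mem_erase hφ) hφB hφT ξ hξ hl⟩)
      (fun φ hφ hφB hφT ξ hξ => Finset.mem_erase.mpr ⟨fun h => by
        subst h
        exact hφT (hχmax hξ φ (Finset.mem_of_mem_erase hφ) hφB).1,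
        hcl' φ (Finset.mem_of_mem_erase hφ) hφB hφT hξ⟩)
    have hχE := hFE hχF
    have hψm : ψ₁ ∈ F.erase χ := Finset.mem_erase.mpr
      ⟨fun h => hχB (h ▸ Finset.mem_insert_of_mem hψ₁), hBF (Finset.mem_insert_of_mem hψ₁)⟩
    obtain ⟨t, i, hti, hdt, -⟩ := hdeg χ hχE
    have ht1 : 1 < t := by
      by_contra hle
      have h0 : t ≠ 0 := fun h0 => (hd0 χ hχE).ne' (by rw [hdt, h0, mul_zero])
      exact hχB (Finset.mem_insert_of_mem (Finset.mem_filter.mpr ⟨hχE, by rw [hdt, show t = 1 by omega, mul_one]⟩))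
    have ht3 : 3 ≤ t := by
      rcases i with _ | i
      · rw [hti, pow_zero] at ht1; omega
      · rw [hti]
        exact hp3.trans (Nat.le_self_pow (Nat.succ_ne_zero i) p)
    have hsum : d χ ^ 2 ≤ ∑ ξ ∈ F.erase χ, d ξ ^ 2 := by
      by_cases hχT : χ ∈ T
      · rcases lt_or_eq_of_le (hmin χ hχT) with hlt | heq
        · refine (hlower χ hχT hlt).trans (Finset.sum_le_sum_of_subset fun ξ hξ => ?_)
          rw [Finset.mem_filter] at hξ
          exact Finset.mem_erase.mpr ⟨fun h => by rw [h] at hξ; omega, hcl χ hχF hχB hχT ξ hξ.1 hξ.2⟩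
        · rw [← heq]
          exact Finset.single_le_sum (f := fun ξ => d ξ ^ 2) (fun _ _ => Nat.zero_le _)
            (Finset.mem_erase.mpr ⟨fun h => hχB (h ▸ Finset.mem_insert_self _ _),
              hBF (Finset.mem_insert_self _ _)⟩)
      · refine (Nat.le_of_dvd hKpos (hKdvd χ hχE)).trans (Finset.sum_le_sum_of_subset fun ξ hξ => ?_)
        exact Finset.mem_erase.mpr ⟨fun h => hχT (h ▸ hξ), hcl' χ hχF hχB hχT hξ⟩
    rw [← hins]
    refine extend_one (F.erase χ) χ (fun φ h => hirr φ (hFE (Finset.mem_of_mem_erase h))) (hirr χ hχE)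
      (Finset.notMem_erase _ _) d (fun φ h => hd φ (hFE (hins ▸ h))) _ (hins.symm ▸ hrest F hFE)
      (fun f hf => hτ1 f (hmono F hFE f (hins ▸ hf))) hcoh ψ₁ hψm ?_ ?_
    · rw [hd₁ ψ₁ hψ₁, hdt]; exact dvd_mul_right _ _
    · refine lt_of_lt_of_le ?_ hsum
      rw [hd₁ ψ₁ hψ₁, hdt]
      have : 0 < e * e * t := by positivity
      nlinarith
  by_cases hone : (a : ℂ) + t₀ = 0
  · refine ⟨τ₁, fun φ h => hτ₁.2.2.2 _ (hsub1 φ h), fun φ h φ' h' => hτ₁.2.2.1 _ (hsub1 φ h) _ (hsub1 φ' h'),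
      fun φ h => hsub₁ φ h ψ₁ hψ₁, fun φ h => ?_⟩
    split_ifs with hφ
    · rw [hφ, ha]; linear_combination hone
    · rw [hYX φ h hφ, hone]
  -- otherwise there are exactly two linear characters and they may be exchanged
  set b := j₁ + 1 with hb
  have hab : (a : ℂ) + t₀ = (t₀ : ℂ) * b := by rw [hb]; push_cast; linear_combination hj₁
  have hbessel : ((b : ℝ) - 1) ^ 2 * t₀ ^ 2 + ((S₁.card : ℝ) - 1) * ((b : ℝ) * t₀) ^ 2 ≤ 1 + (t₀ : ℝ) ^ 2 := by
    set c : (N → ℂ) → ℝ := fun φ => if φ = ψ₁ then ((b : ℝ) - 1) * t₀ else (b : ℝ) * t₀ with hc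
    have hcv : ∀ φ ∈ S₁, classInner Y (τ₁ φ) = (c φ : ℂ) := by
      intro φ h
      simp only [hc]
      split_ifs with hφ
      · rw [hφ, ha]; push_cast; linear_combination hab
      · rw [hYX φ h hφ, hab]; push_cast; ring
    have h := norm_re_nonneg (Y - ∑ φ ∈ S₁, (c φ : ℂ) • τ₁ φ)
    have e1 : classInner (Y - ∑ φ ∈ S₁, (c φ : ℂ) • τ₁ φ) (Y - ∑ φ ∈ S₁, (c φ : ℂ) • τ₁ φ) =
        ((1 + (t₀ : ℝ) ^ 2 - ∑ φ ∈ S₁, c φ ^ 2 : ℝ) : ℂ) := by
      have hWQ : classInner Y (∑ φ ∈ S₁, (c φ : ℂ) • τ₁ φ) = ((∑ φ ∈ S₁, c φ ^ 2 : ℝ) : ℂ) := by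
        rw [classInner_sum_right, Complex.ofReal_sum]
        refine Finset.sum_congr rfl fun φ h => ?_
        rw [classInner_smul_right, hcv φ h, Complex.conj_ofReal]; push_cast; ring
      have hQQ : classInner (∑ φ ∈ S₁, (c φ : ℂ) • τ₁ φ) (∑ φ ∈ S₁, (c φ : ℂ) • τ₁ φ) =
          ((∑ φ ∈ S₁, c φ ^ 2 : ℝ) : ℂ) := by
        rw [classInner_sum_left, Complex.ofReal_sum]
        refine Finset.sum_congr rfl fun φ h => ?_
        rw [classInner_smul_left, classInner_sum_right, Finset.sum_eq_single φ]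
        · rw [classInner_smul_right, hX1 φ h, Complex.conj_ofReal]; push_cast; ring
        · intro φ' h' hne
          rw [classInner_smul_right, hτ₁.2.2.1 _ (hsub1 φ h) _ (hsub1 φ' h'),
            classInner_irr_ne (hirr φ (hS1E h)) (hirr φ' (hS1E h')) hne.symm, mul_zero]
        · exact fun h' => absurd h h'
      rw [classInner_sub_left, classInner_sub_right, classInner_sub_right, hYY, ← conj_classInner Y,
        hWQ, hQQ, Complex.conj_ofReal]
      push_cast; ring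
    rw [e1, Complex.ofReal_re, sub_nonneg] at h
    refine le_trans (le_of_eq ?_) h
    rw [← Finset.add_sum_erase _ _ hψ₁, Finset.sum_congr rfl fun φ hφ => show c φ ^ 2 = ((b : ℝ) * t₀) ^ 2 by
      simp only [hc]; rw [if_neg (Finset.ne_of_mem_erase hφ)], Finset.sum_const,
      Finset.card_erase_of_mem hψ₁, nsmul_eq_mul, Nat.cast_sub (by omega)]
    simp only [hc, if_pos, Nat.cast_one]
    ring
  have hb1 : b = 1 ∧ S₁.card = 2 := by
    have hb0 : b ≠ 0 := fun h0 => hone (by rw [hab, h0, Int.cast_zero, mul_zero])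
    have h1 : (t₀ : ℤ) ^ 2 * ((S₁.card : ℤ) * b ^ 2 - 2 * b) ≤ 1 := by
      have : (((t₀ : ℤ) ^ 2 * ((S₁.card : ℤ) * b ^ 2 - 2 * b) : ℤ) : ℝ) ≤ ((1 : ℤ) : ℝ) := by
        push_cast; linarith
      exact_mod_cast this
    have h4 : (4 : ℤ) ≤ (t₀ : ℤ) ^ 2 := by
      have : (2 : ℤ) ≤ t₀ := by exact_mod_cast ht₀
      nlinarith
    have h2 : (S₁.card : ℤ) * b ^ 2 - 2 * b ≤ 0 := by
      by_contra hcon
      nlinarith
    have hm : (2 : ℤ) ≤ S₁.card := by exact_mod_cast htwo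
    rcases lt_trichotomy b 0 with hneg | h0 | hpos
    · nlinarith
    · exact absurd h0 hb0
    · have hle : (S₁.card : ℤ) * b ≤ 2 := le_of_mul_le_mul_right
        (by linarith [show (S₁.card : ℤ) * b * b = (S₁.card : ℤ) * b ^ 2 by ring] :
          (S₁.card : ℤ) * b * b ≤ 2 * b) hpos
      have hb2 : b ≤ 1 := by nlinarith
      refine ⟨by omega, ?_⟩
      have : (S₁.card : ℤ) ≤ 2 := by nlinarith
      omega
  obtain ⟨hb1, hcard2⟩ := hb1
  obtain ⟨ψ₂, hψ₂, hψne⟩ := Finset.exists_mem_ne htwo ψ₁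
  have honly : ∀ φ ∈ S₁, φ = ψ₁ ∨ φ = ψ₂ := by
    intro φ h
    by_contra hcon
    push Not at hcon
    have : ({φ, ψ₁, ψ₂} : Finset (N → ℂ)).card ≤ S₁.card :=
      Finset.card_le_card (by intro x hx; simp at hx; rcases hx with rfl | rfl | rfl <;> assumption)
    rw [Finset.card_eq_three.mpr ⟨φ, ψ₁, ψ₂, hcon.1, hcon.2, hψne.symm, rfl⟩] at this
    omega
  have ha0 : (a : ℂ) = 0 := by
    rw [hb1, Int.cast_one, mul_one] at hab
    linear_combination hab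
  have hX2 : classInner Y (τ₁ ψ₂) = (t₀ : ℂ) := by rw [hYX ψ₂ hψ₂ hψne, ha0, zero_add]
  refine ⟨fun φ => if φ = ψ₁ then -τ₁ ψ₂ else -τ₁ ψ₁, fun φ h => ?_, fun φ h φ' h' => ?_, fun φ h => ?_,
    fun φ h => ?_⟩
  · simp only
    split_ifs
    · exact isGeneralized_neg (hτ₁.2.2.2 _ (hsub1 ψ₂ hψ₂))
    · exact isGeneralized_neg (hτ₁.2.2.2 _ (hsub1 ψ₁ hψ₁))
  · have o : classInner (τ₁ ψ₁) (τ₁ ψ₂) = 0 := by
      rw [hτ₁.2.2.1 _ (hsub1 ψ₁ hψ₁) _ (hsub1 ψ₂ hψ₂),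
        classInner_irr_ne (hirr ψ₁ (hS1E hψ₁)) (hirr ψ₂ (hS1E hψ₂)) hψne.symm]
    have o' : classInner (τ₁ ψ₂) (τ₁ ψ₁) = 0 := by rw [← conj_classInner, o, map_zero]
    have q : classInner ψ₁ ψ₂ = 0 :=
      classInner_irr_ne (hirr ψ₁ (hS1E hψ₁)) (hirr ψ₂ (hS1E hψ₂)) hψne.symm
    have q' : classInner ψ₂ ψ₁ = 0 := by rw [← conj_classInner, q, map_zero]
    rcases honly φ h with hh | hh <;> rcases honly φ' h' with hh' | hh' <;>
      simp [hh, hh', hψne, classInner_neg_left, classInner_neg_right, hX1 ψ₁ hψ₁, hX1 ψ₂ hψ₂, o, o', q, q',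
        classInner_irr_self (hirr ψ₁ (hS1E hψ₁)), classInner_irr_self (hirr ψ₂ (hS1E hψ₂))]
  · rcases honly φ h with hh | hh
    · simp only [hh, sub_self]
      exact (indLin N).map_zero
    · simp only [hh, if_neg hψne, if_true]
      rw [hsub₁ ψ₂ hψ₂ ψ₁ hψ₁]
      abel
  · rcases honly φ h with hh | hh <;>
      simp [hh, hψne, classInner_neg_right, hX2, ha, ha0]

end Cfsg.Lib.Characters
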