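import Cfsg.Agent.Lib.Characters.Sibley
import Cfsg.Agent.Lib.Characters.FrobCoherence
import Cfsg.Agent.Lib.Solv.Frobenius
import Cfsg.Agent.Lib.Transfer.PGroupNormal
import Cfsg.Agent.S1523

/-!
Consequences of Sibley's theorem for trivial intersection subgroups.
-/

set_option autoImplicit false
open Cfsg
open scoped commutatorElement

namespace Cfsg.Lib.Characters.SibleyApps

open Cfsg.Lib.Characters Cfsg.Lib.Characters.FrobCoh

universe u

variable {G : Type u} [Group G]

/-- A subgroup is normal in its normalizer. -/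
theorem normal_in_normalizer (K : Subgroup G) :
    (K.subgroupOf (Subgroup.normalizer (K : Set G))).Normal :=
  ⟨fun _ hx g => (Subgroup.mem_normalizer_iff.mp g.2 _).mp hx⟩

theorem map_eq (K : Subgroup G) :
    (K.subgroupOf (Subgroup.normalizer (K : Set G))).map (Subgroup.normalizer (K : Set G)).subtype = K :=
  Subgroup.map_subgroupOf_eq_of_le Subgroup.le_normalizer

theorem hC_normalizer {K : Subgroup G} (hC : ∀ k ∈ K, k ≠ 1 → Subgroup.centralizer ({k} : Set G) ≤ K) :
    ∀ h ∈ K.subgroupOf (Subgroup.normalizer (K : Set G)), h ≠ 1 →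
      Subgroup.centralizer ({h} : Set ↥(Subgroup.normalizer (K : Set G))) ≤
        K.subgroupOf (Subgroup.normalizer (K : Set G)) :=
  fun h hh h1 x hx => hC (h : G) hh (fun e => h1 (Subtype.ext e)) (Subgroup.mem_centralizer_singleton_iff.mpr
    (congrArg Subtype.val (Subgroup.mem_centralizer_singleton_iff.mp hx)))

theorem hTI_normalizer {K : Subgroup G} (hTI : IsTISubset (K : Set G)) :
    ∀ g : G, g ∉ Subgroup.normalizer (K : Set G) →
      ∀ t ∈ (((K.subgroupOf (Subgroup.normalizer (K : Set G))).map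
        (Subgroup.normalizer (K : Set G)).subtype : Subgroup G) : Set G),
      g * t * g⁻¹ ∈ (((K.subgroupOf (Subgroup.normalizer (K : Set G))).map
        (Subgroup.normalizer (K : Set G)).subtype : Subgroup G) : Set G) → t = 1 := by
  rw [map_eq K]
  exact hTI

variable [Fintype G]

/-- Induction is an isometry on the combinations of exceptional characters vanishing at one. -/
theorem isometry_exc (N : Subgroup G) [Fintype N] (H : Subgroup N) [H.Normal]
    (hC : ∀ h ∈ H, h ≠ 1 → Subgroup.centralizer ({h} : Set N) ≤ H)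
    (hTI : ∀ g : G, g ∉ N → ∀ t ∈ ((H.map N.subtype : Subgroup G) : Set G),
      g * t * g⁻¹ ∈ ((H.map N.subtype : Subgroup G) : Set G) → t = 1) :
    IsLinearIsometryOn (zspanOn {χ : N → ℂ | IsIrrCharacter N χ ∧ ∃ h ∈ H, χ h ≠ χ 1} {1}ᶜ) (indFun N) ∧
    ∀ α ∈ zspanOn {χ : N → ℂ | IsIrrCharacter N χ ∧ ∃ h ∈ H, χ h ≠ χ 1} {1}ᶜ, indFun N α 1 = 0 := by
  classical
  have hsp : ∀ f ∈ zspan {χ : N → ℂ | IsIrrCharacter N χ ∧ ∃ h ∈ H, χ h ≠ χ 1},
      IsClassFunction N f ∧ (∀ x : N, x ∉ H → f x = 0) ∧ IsGeneralizedCharacter G (indFun N f) := by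
    intro f hf
    induction hf using Submodule.span_induction with
    | mem φ hφ => exact ⟨hφ.1.isClassFunction, fun x hx => Exceptional.vanish hC hφ hx,
        isGeneralized_of_isCharacter (isCharacter_indFun N hφ.1.isCharacter)⟩
    | zero => exact ⟨fun _ _ => rfl, fun _ _ => rfl, by
        rw [show indFun N (0 : N → ℂ) = 0 from (indLin N).map_zero]
        exact ⟨0, 0, isCharacter_zero, isCharacter_zero, (sub_zero 0).symm⟩⟩
    | add f g _ _ i1 i2 => exact ⟨fun x y => by simp [i1.1 x y, i2.1 x y],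
        fun x hx => by simp [i1.2.1 x hx, i2.2.1 x hx],
        by rw [indFun_add]; exact isGeneralized_add i1.2.2 i2.2.2⟩
    | smul m f _ i1 => exact ⟨fun x y => by simp [i1.1 x y], fun x hx => by simp [i1.2.1 x hx],
        by rw [← Int.cast_smul_eq_zsmul ℂ, indFun_smul]; exact isGeneralized_zsmul i1.2.2 m⟩
  have hmem : ∀ x : N, (x : G) ∉ ((H.map N.subtype : Subgroup G) : Set G) → x ∉ H :=
    fun x hx h => hx ⟨x, h, rfl⟩
  refine ⟨⟨fun f _ g _ => indFun_add N f g,
      fun f _ m => by rw [← Int.cast_smul_eq_zsmul ℂ, indFun_smul, Int.cast_smul_eq_zsmul],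
      fun f hf g hg => classInner_indFun_ti hTI (fun x hx => (hsp f hf.1).2.1 x (hmem x hx))
        (hsp g hg.1).1 (fun x hx => (hsp g hg.1).2.1 x (hmem x hx)) (hf.2 1 (by simp)),
      fun f hf => (hsp f hf.1).2.2⟩, fun f hf => ?_⟩
  rw [indFun_one_apply, hf.2 1 (by simp), mul_zero]

/-- A `p`-subgroup containing the centralizers of its nontrivial elements is a Sylow subgroup. -/
theorem eq_sylow {p : ℕ} [Fact p.Prime] {K : Subgroup G} (hK : IsPGroup p K) (hK1 : K ≠ ⊥)
    (hC : ∀ k ∈ K, k ≠ 1 → Subgroup.centralizer ({k} : Set G) ≤ K) :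
    ∃ P : Sylow p G, (P : Subgroup G) = K := by
  obtain ⟨P, hP⟩ := hK.exists_le_sylow
  refine ⟨P, le_antisymm ?_ hP⟩
  have hnt : Nontrivial P := (Subgroup.nontrivial_iff_ne_bot _).mpr (ne_bot_of_le_ne_bot hK1 hP)
  have := P.2.center_nontrivial
  obtain ⟨z, hz⟩ := exists_ne (1 : Subgroup.center P)
  obtain ⟨k, hk, hk1⟩ := K.bot_or_exists_ne_one.resolve_left hK1
  have hzK : ((z : P) : G) ∈ K := hC k hk hk1 (Subgroup.mem_centralizer_singleton_iff.mpr
    (congrArg Subtype.val (Subgroup.mem_center_iff.mp z.2 ⟨k, hP hk⟩)).symm)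
  exact fun x hx => hC _ hzK (fun h => hz (Subtype.ext (Subtype.ext h)))
    (Subgroup.mem_centralizer_singleton_iff.mpr
      (congrArg Subtype.val (Subgroup.mem_center_iff.mp z.2 ⟨x, hx⟩)))

/-- The normalizer of a nonabelian Sylow subgroup with centralizers inside has odd order. -/
theorem odd_normalizer {p : ℕ} [Fact p.Prime] (hp2 : p ≠ 2) (P : Sylow p G)
    (hna : ¬ IsMulCommutative (P : Subgroup G))
    (hC : ∀ k ∈ (P : Subgroup G), k ≠ 1 → Subgroup.centralizer ({k} : Set G) ≤ (P : Subgroup G)) :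
    Odd (Nat.card ↥(Subgroup.normalizer ((P : Subgroup G) : Set G))) := by
  classical
  have hp : p.Prime := Fact.out
  have hPN : (P : Subgroup G) ≤ Subgroup.normalizer ((P : Subgroup G) : Set G) := Subgroup.le_normalizer
  have : ((P : Subgroup G).subgroupOf (Subgroup.normalizer ((P : Subgroup G) : Set G))).Normal :=
    normal_in_normalizer _
  obtain ⟨k, hk⟩ := IsPGroup.iff_card.mp P.2
  have hC' := hC_normalizer hC
  set N := Subgroup.normalizer ((P : Subgroup G) : Set G) with hN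
  set H := (P : Subgroup G).subgroupOf N with hH
  have hcard : Nat.card H = p ^ k := by
    rw [hH, Nat.card_congr (Subgroup.subgroupOfEquivOfLe hPN).toEquiv, hk]
  have hnaH : ¬ ∀ a ∈ H, ∀ b ∈ H, a * b = b * a := fun h => hna ⟨⟨fun a b =>
    Subtype.ext (congrArg (fun x : N => (x : G)) (h ⟨a, hPN a.2⟩ a.2 ⟨b, hPN b.2⟩ b.2))⟩⟩
  refine Nat.not_even_iff_odd.mp fun h2' => ?_
  have h2 : 2 ∣ Nat.card N := even_iff_two_dvd.mp h2'
  obtain ⟨t, ht⟩ := exists_prime_orderOf_dvd_card' 2 h2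
  have htH : t ∉ H := fun h => by
    have h' := H.orderOf_dvd_natCard h
    rw [ht, hcard] at h'
    exact hp2 ((Nat.prime_dvd_prime_iff_eq Nat.prime_two hp).mp (Nat.prime_two.dvd_of_dvd_pow h')).symm
  have hfix : H ⊓ Subgroup.centralizer ({t} : Set N) = ⊥ := by
    rw [Subgroup.eq_bot_iff_forall]
    intro x hx
    by_contra hx1
    exact htH (hC' x hx.1 hx1 (Subgroup.mem_centralizer_singleton_iff.mpr
      (Subgroup.mem_centralizer_singleton_iff.mp hx.2).symm))
  have hinv := Cfsg.Lib.Solv.fpf_involution_inverts ht hfix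
  refine hnaH fun a ha b hb => ?_
  have h1 := hinv (a * b) (mul_mem ha hb)
  rw [show t * (a * b) * t⁻¹ = (t * a * t⁻¹) * (t * b * t⁻¹) by group, hinv a ha, hinv b hb,
    mul_inv_rev] at h1
  have h2 := congrArg (fun x : N => x⁻¹) h1
  simp only [mul_inv_rev, inv_inv] at h2
  exact h2.symm

/-- The index of the derived subgroup in the exceptional case at the prime two. -/
theorem index_lt_of_two (K N : Subgroup G) (hK : IsPGroup 2 K) (hlt : K < N)
    [(K.subgroupOf N).Normal]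
    (hle : (⁅K.subgroupOf N, K.subgroupOf N⁆.subgroupOf (K.subgroupOf N)).index ≤
      4 * (K.subgroupOf N).index ^ 2 + 1)
    (hK1 : K ≠ ⊥) (hCG : ∀ k ∈ K, k ≠ 1 → Subgroup.centralizer ({k} : Set G) ≤ K) :
    (⁅K, K⁆.subgroupOf K).index < 4 * (K.subgroupOf N).index ^ 2 := by
  classical
  have hsub : ∀ (X : Type u) [Group X] (A : Subgroup X), ⁅A, A⁆.subgroupOf A = commutator A := by
    intro X _ A
    apply Subgroup.map_injective A.subtype_injective
    rw [commutator_def, Subgroup.map_commutator, ← MonoidHom.range_eq_map, Subgroup.range_subtype,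
      Subgroup.map_subgroupOf_eq_of_le (Subgroup.commutator_le_self A)]
  rw [hsub] at hle ⊢
  set e := (K.subgroupOf N).index with he
  have hidx : (commutator K).index = (commutator (K.subgroupOf N)).index := by
    set φ := Subgroup.subgroupOfEquivOfLe hlt.le
    have h1 : (commutator (K.subgroupOf N)).map φ.toMonoidHom = commutator K := by
      rw [commutator_def, Subgroup.map_commutator, Subgroup.map_top_of_surjective _ φ.surjective, commutator_def]
    rw [← h1]
    exact Subgroup.index_map_equiv _ φ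
  rw [← hidx] at hle
  obtain ⟨j, hj⟩ := hK.index (commutator K)
  have he1 : e ≠ 1 := fun h => hlt.not_ge (Subgroup.subgroupOf_eq_top.mp (Subgroup.index_eq_one.mp h))
  have he0 : 0 < e := Nat.pos_of_ne_zero Subgroup.index_ne_zero_of_finite
  have heodd : ¬ 2 ∣ e := by
    intro h2
    obtain ⟨P, hP⟩ := eq_sylow hK hK1 hCG
    refine P.not_dvd_index ?_
    rw [hP]
    exact h2.trans ⟨N.index, (Subgroup.relIndex_mul_index hlt.le).symm⟩
  rw [hj] at hle ⊢
  rcases Nat.lt_or_ge (2 ^ j) (4 * e ^ 2) with h | h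
  · exact h
  exfalso
  rcases Nat.eq_or_lt_of_le h with h' | h'
  · have hd : e ∣ 2 ^ j := ⟨4 * e, by rw [← h']; ring⟩
    obtain ⟨i, -, hi⟩ := (Nat.dvd_prime_pow Nat.prime_two).mp hd
    rcases Nat.eq_zero_or_pos i with rfl | hi0
    · exact he1 (by simpa using hi)
    · exact heodd (hi ▸ dvd_pow_self 2 hi0.ne')
  · have h2 : 2 ^ j = 4 * e ^ 2 + 1 := by omega
    rcases Nat.eq_zero_or_pos j with rfl | hj0
    · have := Nat.one_le_pow 2 e he0
      simp at h2
      omega
    · have : 2 ∣ 4 * e ^ 2 + 1 := h2 ▸ dvd_pow_self 2 hj0.ne'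
      omega

/-- Sibley's theorem for a nonabelian Sylow subgroup of odd order. -/
theorem sylow_coherent {p : ℕ} [Fact p.Prime] (hp2 : p ≠ 2) (P : Sylow p G)
    (hna : ¬ IsMulCommutative (P : Subgroup G)) (hTI : IsTISubset ((P : Subgroup G) : Set G))
    (hC : ∀ k ∈ (P : Subgroup G), k ≠ 1 → Subgroup.centralizer ({k} : Set G) ≤ (P : Subgroup G))
    (N : Subgroup G) (hN : N = Subgroup.normalizer ((P : Subgroup G) : Set G)) [Fintype N] :
    IsCoherent {χ : N → ℂ | IsIrrCharacter N χ ∧ ∃ h ∈ (P : Subgroup G).subgroupOf N, χ h ≠ χ 1}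
      {1}ᶜ (indFun N) := by
  classical
  have hp : p.Prime := Fact.out
  have hPN : (P : Subgroup G) ≤ N := hN ▸ Subgroup.le_normalizer
  set H := (P : Subgroup G).subgroupOf N with hH
  have : H.Normal := by subst hN; exact normal_in_normalizer _
  let _ : Fintype H := Fintype.ofFinite H
  have hC' : ∀ h ∈ H, h ≠ 1 → Subgroup.centralizer ({h} : Set N) ≤ H := fun h hh h1 x hx =>
    hC (h : G) hh (fun e => h1 (Subtype.ext e)) (Subgroup.mem_centralizer_singleton_iff.mpr
      (congrArg Subtype.val (Subgroup.mem_centralizer_singleton_iff.mp hx)))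
  have hTI' : ∀ g : G, g ∉ N → ∀ t ∈ ((H.map N.subtype : Subgroup G) : Set G),
      g * t * g⁻¹ ∈ ((H.map N.subtype : Subgroup G) : Set G) → t = 1 := by
    rw [hH, Subgroup.map_subgroupOf_eq_of_le hPN]
    exact fun g hg => hTI g (hN ▸ hg)
  obtain ⟨k, hk⟩ := IsPGroup.iff_card.mp P.2
  have hcard : Nat.card H = p ^ k := by
    rw [hH, Nat.card_congr (Subgroup.subgroupOfEquivOfLe hPN).toEquiv, hk]
  have hpH : IsPGroup p H := IsPGroup.of_card hcard
  have hcop : ¬ p ∣ H.index := fun h => P.not_dvd_index (h.trans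
    ⟨N.index, (Subgroup.relIndex_mul_index hPN).symm⟩)
  have hnaH : ¬ ∀ a ∈ H, ∀ b ∈ H, a * b = b * a := fun h => hna ⟨⟨fun a b =>
    Subtype.ext (congrArg (fun x : N => (x : G)) (h ⟨a, hPN a.2⟩ a.2 ⟨b, hPN b.2⟩ b.2))⟩⟩
  have hHne : H ≠ ⊥ := fun h => hnaH fun a ha b hb => by
    rw [h, Subgroup.mem_bot] at ha hb
    rw [ha, hb]
  have hodd : Odd (Nat.card N) := hN ▸ odd_normalizer hp2 P hna hC
  -- the central part of the commutator subgroup
  set Z := ⁅H, H⁆ ⊓ Subgroup.centralizer (H : Set N) with hZ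
  have : Z.Normal := inferInstanceAs (⁅H, H⁆ ⊓ Subgroup.centralizer (H : Set N)).Normal
  have hZc : ∀ z ∈ Z, ∀ h ∈ H, z * h = h * z := fun z hz h hh =>
    (Subgroup.mem_centralizer_iff.mp hz.2 h hh).symm
  have hZ1 : Z ≠ ⊥ := by
    have hmap : (commutator H).map H.subtype = ⁅H, H⁆ := by
      rw [commutator_def, Subgroup.map_commutator, ← MonoidHom.range_eq_map, Subgroup.range_subtype]
    have hcne : commutator H ≠ ⊥ := fun h => hnaH fun a ha b hb => by
      have hab : ⁅a, b⁆ ∈ ⁅H, H⁆ := Subgroup.commutator_mem_commutator ha hb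
      rw [← hmap, h, Subgroup.map_bot, Subgroup.mem_bot] at hab
      exact commutatorElement_eq_one_iff_mul_comm.mp hab
    obtain ⟨x, hx, hx1⟩ := (Subgroup.bot_or_exists_ne_one _).resolve_left
      (Cfsg.Lib.Transfer.inf_center_ne_bot hpH (commutator H) hcne)
    intro hbot
    have hxZ : (x : N) ∈ Z := ⟨hmap ▸ Subgroup.mem_map_of_mem _ hx.1, Subgroup.mem_centralizer_iff.mpr
      fun h hh => congrArg Subtype.val (Subgroup.mem_center_iff.mp hx.2 ⟨h, hh⟩)⟩
    rw [hbot, Subgroup.mem_bot] at hxZ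
    exact hx1 (Subtype.ext hxZ)
  have hZH : Z ≤ H := inf_le_left.trans (Subgroup.commutator_le_left H H)
  refine sibley N H hp hp2 hodd hcard hcop hC' hTI' Z inf_le_left hZc hZ1 ?_
  intro ξ hξ hconst z hz hz1
  have hCP : ∀ w ∈ Z.map N.subtype, w ≠ 1 →
      N ⊓ Subgroup.centralizer ({w} : Set G) = (P : Subgroup G) := by
    rintro w ⟨v, hv, rfl⟩ hw1
    refine le_antisymm (fun x hx => hC _ (hZH hv) hw1 hx.2) fun x hx => ⟨hPN hx, ?_⟩
    exact Subgroup.mem_centralizer_singleton_iff.mpr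
      (congrArg (fun y : N => (y : G)) (hZc v hv ⟨x, hPN hx⟩ hx)).symm
  obtain ⟨n, d, hn, hd, hdvd⟩ := Cfsg.Agent.S1523.result p P hTI (hN ▸ hodd) (Z.map N.subtype)
    (fun h => hZ1 ((Subgroup.map_eq_bot_iff_of_injective _ N.subtype_injective).mp h))
    (by rintro _ ⟨v, hv, rfl⟩; exact hZH hv)
    (by
      rintro x hx' _ ⟨v, hv, rfl⟩
      have hx : x ∈ N := hN ▸ hx'
      exact ⟨⟨x, hx⟩ * v * ⟨x, hx⟩⁻¹, Subgroup.Normal.conj_mem inferInstance v hv ⟨x, hx⟩, rfl⟩)
    (by
      rintro _ ⟨v, hv, rfl⟩ y hy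
      exact congrArg (fun w : N => (w : G)) (hZc v hv ⟨y, hPN hy⟩ hy))
    (fun w hw w' hw' h1 h1' => by rw [← hN, hCP w hw h1, hCP w' hw' h1'])
    ξ hξ
    (by
      rintro _ ⟨v, hv, rfl⟩ _ ⟨v', hv', rfl⟩ h1 h1'
      exact hconst v hv v' hv' (fun e => h1 (by rw [e]; rfl)) (fun e => h1' (by rw [e]; rfl)))
    (z : G) ⟨z, hz, rfl⟩ (fun e => hz1 (Subtype.ext e))
  obtain ⟨j, hj⟩ := hdvd
  refine ⟨j, ?_⟩
  rw [hn, hd, hcard, ← hk, ← Int.cast_sub, hj]
  push_cast
  rfl

/-- In a Frobenius group whose complement has order one less than the kernel, the kernel is elementary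
abelian. -/
theorem elementary_of_card_eq {N : Type*} [Group N] [Finite N] (H : Subgroup N) [H.Normal]
    (hC : ∀ h ∈ H, h ≠ 1 → Subgroup.centralizer ({h} : Set N) ≤ H) (hH1 : H ≠ ⊥)
    [Group.IsNilpotent H] (he : Nat.card H = H.index + 1) :
    (∀ a ∈ H, ∀ b ∈ H, a * b = b * a) ∧ ∃ p : ℕ, p.Prime ∧ ∀ a ∈ H, a ^ p = 1 := by
  classical
  have : Nontrivial H := (Subgroup.nontrivial_iff_ne_bot H).mpr hH1
  have htrans : ∀ k ∈ H, k ≠ 1 → ∀ k' ∈ H, k' ≠ 1 → ∃ g : N, g * k * g⁻¹ = k' := by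
    intro k hk hk1 k' hk' hk1'
    let F : N ⧸ H → {x : H // x ≠ 1} := fun q =>
      ⟨⟨q.out * k * q.out⁻¹, Subgroup.Normal.conj_mem inferInstance k hk _⟩, fun h =>
        hk1 (conj_eq_one_iff.mp (congrArg Subtype.val h))⟩
    have hinj : Function.Injective F := fun q q' h => by
      have h' : q.out * k * q.out⁻¹ = q'.out * k * q'.out⁻¹ :=
        congrArg (fun x : {x : H // x ≠ 1} => ((x : H) : N)) h
      have hm : q'.out⁻¹ * q.out ∈ H := hC k hk hk1 (Subgroup.mem_centralizer_singleton_iff.mpr (by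
        calc q'.out⁻¹ * q.out * k = q'.out⁻¹ * (q.out * k * q.out⁻¹) * q.out := by group
          _ = q'.out⁻¹ * (q'.out * k * q'.out⁻¹) * q.out := by rw [h']
          _ = k * (q'.out⁻¹ * q.out) := by group))
      rw [← q.out_eq, ← q'.out_eq]
      exact (QuotientGroup.eq.mpr hm).symm
    have hcard : Nat.card {x : H // x ≠ 1} = Nat.card (N ⧸ H) := by
      have h1 := Nat.card_congr (Equiv.optionSubtypeNe (1 : H))
      rw [Finite.card_option, he] at h1
      exact Nat.succ.inj h1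
    obtain ⟨q, hq⟩ := ((Nat.bijective_iff_injective_and_card F).mpr ⟨hinj, hcard.symm⟩).2
      ⟨⟨k', hk'⟩, fun h => hk1' (congrArg Subtype.val h)⟩
    exact ⟨q.out, congrArg (fun x : {x : H // x ≠ 1} => ((x : H) : N)) hq⟩
  refine ⟨?_, ?_⟩
  · have := (Subgroup.nontrivial_iff_ne_bot _).mpr (Group.IsNilpotent.center_ne_bot H)
    obtain ⟨z, hz⟩ := exists_ne (1 : Subgroup.center H)
    have hz1 : ((z : H) : N) ≠ 1 := fun h => hz (Subtype.ext (Subtype.ext h))
    intro a ha b hb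
    rcases eq_or_ne a 1 with rfl | ha1
    · simp
    obtain ⟨g, rfl⟩ := htrans _ (z : H).2 hz1 a ha ha1
    have hb' : g⁻¹ * b * g⁻¹⁻¹ ∈ H := Subgroup.Normal.conj_mem inferInstance b hb g⁻¹
    have h := congrArg Subtype.val (Subgroup.mem_center_iff.mp z.2 ⟨_, hb'⟩)
    simp only [Subgroup.coe_mul, inv_inv] at h
    calc g * (z : H) * g⁻¹ * b = g * (((z : H) : N) * (g⁻¹ * b * g)) * g⁻¹ := by group
      _ = g * ((g⁻¹ * b * g) * ((z : H) : N)) * g⁻¹ := by rw [h]
      _ = b * (g * (z : H) * g⁻¹) := by group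
  · obtain ⟨p, hp, hdvd⟩ := Nat.exists_prime_and_dvd (n := Nat.card H)
      (Finite.one_lt_card (α := H)).ne'
    have := Fact.mk hp
    obtain ⟨a, ha⟩ := exists_prime_orderOf_dvd_card' p hdvd
    have ha1 : (a : N) ≠ 1 := fun h => hp.one_lt.ne' (by
      rw [← ha, show a = 1 from Subtype.ext h, orderOf_one])
    refine ⟨p, hp, fun b hb => ?_⟩
    rcases eq_or_ne b 1 with rfl | hb1
    · simp
    obtain ⟨g, rfl⟩ := htrans _ a.2 ha1 b hb hb1
    rw [conj_pow, ← ha, ← Subgroup.coe_pow, pow_orderOf_eq_one]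
    simp

/-- In a Frobenius group whose complement has order one less than the kernel, exactly one character is
exceptional. -/
theorem card_exc_eq_one {N : Type*} [Group N] [Fintype N] (H : Subgroup N) [H.Normal] [Fintype H]
    (hC : ∀ h ∈ H, h ≠ 1 → Subgroup.centralizer ({h} : Set N) ≤ H) (hH1 : H ≠ ⊥)
    (he : Nat.card H = H.index + 1) :
    Nat.card {χ : N → ℂ // IsIrrCharacter N χ ∧ ∃ h ∈ H, χ h ≠ χ 1} = 1 := by
  classical
  obtain ⟨θ, hθ⟩ : ∃ θ : IrrCharacter H, (θ : H → ℂ) ≠ fun _ => 1 := by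
    by_contra hall
    push Not at hall
    have hsub : Subsingleton (IrrCharacter H) := ⟨fun a b => Subtype.ext ((hall a).trans (hall b).symm)⟩
    have h := sum_sq_degree (G := H)
    rw [Fintype.sum_subsingleton _ (⟨_, isIrrCharacter_one⟩ : IrrCharacter H), one_pow, ← Nat.cast_one,
      Nat.cast_inj] at h
    exact absurd h.symm (Subgroup.one_lt_card_iff_ne_bot _ |>.mpr hH1).ne'
  have hone : ∀ θ' : IrrCharacter H, (θ' : H → ℂ) ≠ (fun _ => 1) → (θ' : H → ℂ) ∈ orbitFinset H (θ : H → ℂ) := by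
    intro θ' hθ'
    by_contra hnot
    set O := Finset.univ.filter fun φ : IrrCharacter H => (φ : H → ℂ) ∈ orbitFinset H (θ : H → ℂ) with hO
    have hOc : O.card = H.index := by
      rw [← card_orbit H hC θ.2 hθ]
      refine Finset.card_bij (fun φ _ => (φ : H → ℂ)) (fun φ hφ => (Finset.mem_filter.mp hφ).2)
        (fun φ _ φ' _ h => Subtype.ext h) (fun ψ hψ => ?_)
      obtain ⟨g, rfl⟩ := mem_orbitFinset.mp hψ
      exact ⟨⟨_, isIrrCharacter_conjFn θ.2 g⟩, Finset.mem_filter.mpr ⟨Finset.mem_univ _, hψ⟩, rfl⟩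
    have h1O : (⟨_, isIrrCharacter_one⟩ : IrrCharacter H) ∉ insert θ' O := by
      rw [Finset.mem_insert, not_or]
      refine ⟨fun h => hθ' (congrArg Subtype.val h).symm, fun h => ?_⟩
      obtain ⟨g, hg⟩ := mem_orbitFinset.mp (Finset.mem_filter.mp h).2
      simp only at hg
      apply hθ
      have h2 := congrArg (fun F => conjFn H F g⁻¹) hg
      simp only [conjFn_conjFn, mul_inv_cancel, conjFn_one] at h2
      first
        | exact h2.trans (funext fun x => rfl)
        | exact h2.symm.trans (funext fun x => rfl)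
    have hθ'O : θ' ∉ O := fun h => hnot (Finset.mem_filter.mp h).2
    have hle : (insert (⟨_, isIrrCharacter_one⟩ : IrrCharacter H) (insert θ' O)).card ≤
        ∑ φ : IrrCharacter H, deg φ ^ 2 := by
      rw [Finset.card_eq_sum_ones]
      exact (Finset.sum_le_sum fun φ _ => Nat.one_le_pow _ _ (Nat.pos_of_ne_zero fun h0 =>
        φ.2.one_ne_zero (by rw [deg_spec, h0, Nat.cast_zero]))).trans
          (Finset.sum_le_sum_of_subset (Finset.subset_univ _))
    rw [Finset.card_insert_of_notMem h1O, Finset.card_insert_of_notMem hθ'O, hOc] at hle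
    have hsum : ∑ φ : IrrCharacter H, deg φ ^ 2 = Nat.card H := by
      have h := sum_sq_degree (G := H)
      simp only [deg_spec] at h
      exact_mod_cast h
    omega
  have huniq : ∀ χ : N → ℂ, IsIrrCharacter N χ ∧ (∃ h ∈ H, χ h ≠ χ 1) → χ = indFun H (θ : H → ℂ) := by
    intro χ hχ
    obtain ⟨φ, hφ, hφne, rfl⟩ := Exceptional.exists_ind hC (show Exceptional.IsExc H χ from hχ)
    exact ((ind_eq_iff H hC θ.2 hθ hφ).mpr (hone ⟨φ, hφ⟩ hφne)).symm
  rw [Nat.card_eq_one_iff_unique]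
  exact ⟨⟨fun a b => Subtype.ext ((huniq _ a.2).trans (huniq _ b.2).symm)⟩,
    ⟨⟨_, Exceptional.isExc_indFun hC θ.2 hθ⟩⟩⟩

end Cfsg.Lib.Characters.SibleyApps
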