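import Cfsg.Agent.Lib.Characters.Induction
import Cfsg.Agent.Lib.Characters.Integrality

/-!
# Generalized characters of norm three containing the principal character
-/

set_option autoImplicit false
set_option linter.style.haveILetI false

open scoped ComplexConjugate

namespace Cfsg.Lib.Characters

theorem three_split {G : Type*} [Group G] [Fintype G] {Φ : G → ℂ}
    (hΦ : IsGeneralizedCharacter G Φ) (hn : classInner Φ Φ = 3)
    (h1 : classInner Φ (fun _ => (1 : ℂ)) = 1) (hd : Φ 1 = 0) :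
    ∃ χ₁ χ₂ : G → ℂ, IsIrrCharacter G χ₁ ∧ IsIrrCharacter G χ₂ ∧ χ₁ ≠ (fun _ => 1) ∧
      χ₂ ≠ (fun _ => 1) ∧ χ₁ 1 = χ₂ 1 + 1 ∧ ∀ g, Φ g = 1 + χ₂ g - χ₁ g := by
  classical
  obtain ⟨a, ha, hsq⟩ := exists_coeff hΦ
  let one : IrrCharacter G := ⟨fun _ => 1, isIrrCharacter_one⟩
  have ha1 : a one = 1 := by
    have e := classInner_sum_irr (fun χ => (a χ : ℂ)) one
    rw [← ha] at e
    rw [h1] at e
    exact_mod_cast e.symm
  set T := (Finset.univ.erase one).filter fun χ => a χ ≠ 0 with hT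
  have hs : ∑ χ ∈ Finset.univ.erase one, a χ ^ 2 = 2 := by
    rw [hn] at hsq
    have e : ∑ χ, a χ ^ 2 = 3 := by exact_mod_cast hsq.symm
    rw [← Finset.add_sum_erase _ _ (Finset.mem_univ one), ha1] at e
    linarith
  have hu : ∀ χ ∈ T, a χ = 1 ∨ a χ = -1 := by
    intro χ hχ
    rw [hT, Finset.mem_filter] at hχ
    have h2 : a χ ^ 2 ≤ 2 := hs ▸ Finset.single_le_sum (fun φ _ => sq_nonneg (a φ)) hχ.1
    have h3 : -1 ≤ a χ ∧ a χ ≤ 1 := ⟨by nlinarith, by nlinarith⟩
    have := hχ.2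
    omega
  have hcard : T.card = 2 := by
    have e : ∑ χ ∈ T, a χ ^ 2 = 2 := by
      rw [← hs, hT, Finset.sum_filter]
      exact Finset.sum_congr rfl fun χ _ => by
        by_cases h : a χ = 0 <;> simp [h]
    rw [Finset.sum_congr rfl fun χ hχ => show a χ ^ 2 = 1 by
      rcases hu χ hχ with h | h <;> rw [h] <;> norm_num, Finset.sum_const, nsmul_eq_mul, mul_one] at e
    exact_mod_cast e
  obtain ⟨p, q, hpq, hTe⟩ := Finset.card_eq_two.mp hcard
  have hΦe : ∀ g, Φ g = 1 + (a p : ℂ) * (p : G → ℂ) g + (a q : ℂ) * (q : G → ℂ) g := by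
    intro g
    rw [congrFun ha g, Finset.sum_apply, ← Finset.add_sum_erase _ _ (Finset.mem_univ one), ha1]
    have : ∑ χ ∈ Finset.univ.erase one, ((a χ : ℂ) • (χ : G → ℂ)) g =
        ∑ χ ∈ T, ((a χ : ℂ) • (χ : G → ℂ)) g := by
      rw [hT, Finset.sum_filter]
      exact Finset.sum_congr rfl fun χ _ => by by_cases h : a χ = 0 <;> simp [h]
    rw [this, hTe, Finset.sum_pair hpq]
    simp [one, add_assoc]
  obtain ⟨dp, hdp0, hdp⟩ := p.2.exists_degree_pos
  obtain ⟨dq, hdq0, hdq⟩ := q.2.exists_degree_pos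
  have hdeg : (1 : ℤ) + a p * dp + a q * dq = 0 := by
    have e := hΦe 1
    rw [hd, hdp, hdq] at e
    exact_mod_cast e.symm
  have hne : ∀ x ∈ T, (x : G → ℂ) ≠ fun _ => 1 := fun x hx h => by
    rw [hT, Finset.mem_filter, Finset.mem_erase] at hx
    exact hx.1.1 (Subtype.ext h)
  have hpT : p ∈ T := by rw [hTe]; simp
  have hqT : q ∈ T := by rw [hTe]; simp
  rcases hu p hpT with hp | hp <;> rcases hu q hqT with hq | hq <;> rw [hp, hq] at hdeg
  · omega
  · refine ⟨q, p, q.2, p.2, hne q hqT, hne p hpT, ?_, fun g => ?_⟩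
    · rw [hdp, hdq]
      have : dq = dp + 1 := by omega
      rw [this]; push_cast; ring
    · rw [hΦe g, hp, hq]; push_cast; ring
  · refine ⟨p, q, p.2, q.2, hne p hpT, hne q hqT, ?_, fun g => ?_⟩
    · rw [hdp, hdq]
      have : dp = dq + 1 := by omega
      rw [this]; push_cast; ring
    · rw [hΦe g, hp, hq]; push_cast; ring
  · omega

end Cfsg.Lib.Characters
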